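import Mathlib
import Cfsg.Agent.Lib.Modular.Brandt

/-!
# Külshammer's lemma: local symmetric algebras with small `T / [T, T]` are commutative

If `N` is the radical of a local symmetric algebra and `dim N ≤ dim [N, N] + 3`, then `N` is commutative.
-/

set_option autoImplicit false
set_option linter.unusedSectionVars false
set_option linter.unusedSimpArgs false
set_option linter.unusedVariables false
set_option linter.style.haveILetI false
set_option linter.unnecessarySimpa false

namespace Cfsg.Agent.Lib.Modular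

open Module

section Kul

variable {F T : Type*} [Field F] [Ring T] [Algebra F T]

/-- The span of the commutators of a submodule. -/
def commOf (N : Submodule F T) : Submodule F T :=
  Submodule.span F {x | ∃ a ∈ N, ∃ b ∈ N, x = a * b - b * a}

/-- One step of Külshammer's computation. -/
theorem kul_step {N : Submodule F T} {a b c : T} {μ ν β : F} {r₂ r₃ r₄ : T}
    (ha : a ∈ N) (hb : b ∈ N) (hgen : N ≤ Submodule.span F {a, b} ⊔ N * N)
    (hc : c = a * b - b * a) (hN2 : N * N ≤ Submodule.span F {c} ⊔ N * N * N)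
    (haa : a * a ∈ N * N * N)
    (hab : a * b = μ • c + r₂) (hba : b * a = ν • c + r₃) (hbb : b * b = β • c + r₄)
    (hr₂ : r₂ ∈ N * N * N) (hr₃ : r₃ ∈ N * N * N) (hr₄ : r₄ ∈ N * N * N) (hμν : μ - ν = 1) :
    N * N * N ≤ N * N * N * N := by
  have hL : ∀ x ∈ N * N * N, ∀ y ∈ N, x * y ∈ N * N * N * N :=
    fun x hx y hy => Submodule.mul_mem_mul hx hy
  have hR : ∀ x ∈ N, ∀ y ∈ N * N * N, x * y ∈ N * N * N * N := by
    intro x hx y hy
    have e : N * (N * N * N) = N * N * N * N := by simp only [mul_assoc]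
    rw [← e]
    exact Submodule.mul_mem_mul hx hy
  have key : c * a ∈ N * N * N * N ∧ c * b ∈ N * N * N * N := by
    by_cases hμ : μ = 0
    · subst hμ
      have hν : ν = -1 := by linear_combination -hμν
      subst hν
      have hc' : c = r₃ - b * a := by
        rw [hba, neg_one_smul]
        abel
      have hab' : a * b = r₂ := by
        rw [hab, zero_smul, zero_add]
      constructor
      · rw [hc', sub_mul, mul_assoc b a a]
        exact sub_mem (hL _ hr₃ _ ha) (hR _ hb _ haa)
      · rw [hc', sub_mul, mul_assoc b a b, hab']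
        exact sub_mem (hL _ hr₃ _ hb) (hR _ hb _ hr₂)
    · have hac : a * c ∈ N * N * N * N := by
        have e : a * c = μ⁻¹ • ((a * a) * b - a * r₂) := by
          rw [mul_assoc, hab, mul_add, mul_smul_comm, add_sub_cancel_right, smul_smul,
            inv_mul_cancel₀ hμ, one_smul]
        rw [e]
        exact Submodule.smul_mem _ _ (sub_mem (hL _ haa _ hb) (hR _ ha _ hr₂))
      constructor
      · have e : c * a = μ⁻¹ • (ν • (a * c) + a * r₃ - r₂ * a) := by
          have h1 : a * (b * a) = (a * b) * a := by rw [mul_assoc]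
          rw [hba, hab, mul_add, add_mul, mul_smul_comm, smul_mul_assoc] at h1
          rw [h1, add_sub_cancel_right, smul_smul, inv_mul_cancel₀ hμ, one_smul]
        rw [e]
        exact Submodule.smul_mem _ _ (sub_mem (add_mem (Submodule.smul_mem _ _ hac) (hR _ ha _ hr₃))
          (hL _ hr₂ _ ha))
      · have e : c * b = μ⁻¹ • (β • (a * c) + a * r₄ - r₂ * b) := by
          have h1 : a * (b * b) = (a * b) * b := by rw [mul_assoc]
          rw [hbb, hab, mul_add, add_mul, mul_smul_comm, smul_mul_assoc] at h1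
          rw [h1, add_sub_cancel_right, smul_smul, inv_mul_cancel₀ hμ, one_smul]
        rw [e]
        exact Submodule.smul_mem _ _ (sub_mem (add_mem (Submodule.smul_mem _ _ hac) (hR _ ha _ hr₄))
          (hL _ hr₂ _ hb))
  have hcN : c ∈ N * N := by
    rw [hc]
    exact sub_mem (Submodule.mul_mem_mul ha hb) (Submodule.mul_mem_mul hb ha)
  have hcc : ∀ v ∈ N * N, c * v ∈ N * N * N * N := by
    intro v hv
    have e : N * N * (N * N) = N * N * N * N := by simp only [mul_assoc]
    rw [← e]
    exact Submodule.mul_mem_mul hcN hv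
  rw [Submodule.mul_le]
  intro u hu v hv
  obtain ⟨u1, hu1, u2, hu2, rfl⟩ := Submodule.mem_sup.1 (hN2 hu)
  obtain ⟨s, rfl⟩ := Submodule.mem_span_singleton.1 hu1
  have hv' := hL u2 hu2 v hv
  obtain ⟨v1, hv1, v2, hv2, rfl⟩ := Submodule.mem_sup.1 (hgen hv)
  obtain ⟨s1, s2, rfl⟩ := Submodule.mem_span_pair.1 hv1
  have e : (s • c + u2) * (s1 • a + s2 • b + v2) =
      (s * s1) • (c * a) + (s * s2) • (c * b) + s • (c * v2) + u2 * (s1 • a + s2 • b + v2) := by
    simp only [add_mul, mul_add, smul_mul_assoc, mul_smul_comm, smul_add, smul_smul]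
    (module)
  rw [e]
  exact add_mem (add_mem (add_mem (Submodule.smul_mem _ _ key.1) (Submodule.smul_mem _ _ key.2))
    (Submodule.smul_mem _ _ (hcc _ hv2))) hv'

theorem finrank_lt_of_functional [FiniteDimensional F T] {W V : Submodule F T} (lam : T →ₗ[F] F) (hWV : W ≤ V)
    (hW : ∀ x ∈ W, lam x = 0) {x : T} (hx : x ∈ V) (hlx : lam x ≠ 0) : finrank F W + 1 ≤ finrank F V := by
  have hlt : W < V := lt_of_le_of_ne hWV fun h => hlx (hW x (h ▸ hx))
  exact Submodule.finrank_lt_finrank_of_lt hlt

/-- **Külshammer's lemma.** -/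
theorem kul_comm [FiniteDimensional F T] [IsAlgClosed F] (N : Submodule F T) (hNN : N * N ≤ N) {m : ℕ}
    (hm : N ^ (m + 1) = ⊥) (lam : T →ₗ[F] F) (hsym : ∀ a ∈ N, ∀ b ∈ N, lam (a * b) = lam (b * a))
    (hnd : ∀ y ∈ N, lam y = 0 → (∀ b ∈ N, lam (y * b) = 0) → y = 0)
    (hdim : finrank F N ≤ finrank F (commOf N) + 3) :
    ∀ a ∈ N, ∀ b ∈ N, a * b = b * a := by
  classical
  have hWN2 : commOf N ≤ N * N := by
    refine Submodule.span_le.2 ?_
    rintro x ⟨a, ha, b, hb, rfl⟩
    exact sub_mem (Submodule.mul_mem_mul ha hb) (Submodule.mul_mem_mul hb ha)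
  have hlamW : ∀ x ∈ commOf N, lam x = 0 := by
    intro x hx
    induction hx using Submodule.span_induction with
    | mem x hx =>
      obtain ⟨a, ha, b, hb, rfl⟩ := hx
      rw [map_sub, hsym a ha b hb, sub_self]
    | zero => simp
    | add a b _ _ ha hb => rw [map_add, ha, hb, add_zero]
    | smul c a _ ha => rw [map_smul, ha, smul_zero]
  have hI : ∀ I : Submodule F T, I ≤ N → I * N ≤ I → I ≠ ⊥ → ∃ x ∈ I, lam x ≠ 0 := by
    intro I hIN hIm hI0
    obtain ⟨y, hy, hy0⟩ := Submodule.exists_mem_ne_zero_of_ne_bot hI0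
    by_contra hall
    push Not at hall
    exact hy0 (hnd y (hIN hy) (hall y hy) fun b hb => hall _ (hIm (Submodule.mul_mem_mul hy hb)))
  have hnil : ∀ I : Submodule F T, I ≤ I * N → I = ⊥ := by
    intro I hIm
    have h1 : ∀ k : ℕ, I ≤ I * N ^ k := by
      intro k
      induction k with
      | zero => simp
      | succ k ih =>
        rw [pow_succ, ← mul_assoc]
        exact hIm.trans (mul_le_mul_left ih _)
    have h2 := h1 (m + 1)
    rw [hm, Submodule.mul_bot] at h2
    exact eq_bot_iff.2 h2
  by_contra hcomm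
  push Not at hcomm
  obtain ⟨a₀, ha₀, b₀, hb₀, hab₀⟩ := hcomm
  have hW0 : commOf N ≠ ⊥ := by
    intro h
    have h1 : a₀ * b₀ - b₀ * a₀ ∈ commOf N := Submodule.subset_span ⟨a₀, ha₀, b₀, hb₀, rfl⟩
    rw [h, Submodule.mem_bot, sub_eq_zero] at h1
    exact hab₀ h1
  have hN20 : N * N ≠ ⊥ := fun h => hW0 (eq_bot_iff.2 (h ▸ hWN2))
  have hN2N : N * N ≤ N := hNN
  have hN2m : N * N * N ≤ N * N := by
    rw [mul_assoc]
    exact mul_le_mul_right hNN _
  obtain ⟨x₂, hx₂, hlx₂⟩ := hI (N * N) hNN hN2m hN20
  have hW1 := finrank_lt_of_functional lam hWN2 hlamW hx₂ hlx₂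
  -- a complement of `N²` in `N`
  obtain ⟨C', hC'⟩ := Submodule.exists_isCompl (N * N)
  set C := C' ⊓ N with hC
  have hCN : C ≤ N := inf_le_right
  have hCsup : C ⊔ N * N = N := by
    rw [hC, sup_comm]
    have := sup_inf_assoc_of_le C' hNN
    rw [← this, hC'.sup_eq_top, top_inf_eq]
  have hCinf : C ⊓ (N * N) = ⊥ := by
    rw [eq_bot_iff]
    intro y hy
    have h1 : y ∈ C' ⊓ (N * N) := ⟨hy.1.1, hy.2⟩
    rw [inf_comm, hC'.inf_eq_bot] at h1
    exact h1
  have hCfin : finrank F C + finrank F (N * N : Submodule F T) = finrank F N := by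
    have := Submodule.finrank_sup_add_finrank_inf_eq C (N * N)
    rw [hCsup, hCinf, finrank_bot, add_zero] at this
    omega
  have hcomm2 : ¬ ∀ y ∈ N, ∀ z ∈ N, y * z = z * y := fun h => hab₀ (h a₀ ha₀ b₀ hb₀)
  by_cases hC1 : finrank F C ≤ 1
  · -- one generator: commutative
    exfalso
    obtain ⟨v, hv⟩ := finrank_le_one_iff.1 hC1
    have hgen : N ≤ Submodule.span F {(v : T)} ⊔ N * N := by
      intro y hy
      rw [← hCsup] at hy
      obtain ⟨y1, hy1, y2, hy2, rfl⟩ := Submodule.mem_sup.1 hy
      obtain ⟨c, hc⟩ := hv ⟨y1, hy1⟩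
      have h1 : c • (v : T) = y1 := congrArg Subtype.val hc
      rw [← h1]
      exact Submodule.add_mem_sup (Submodule.smul_mem _ _ (Submodule.mem_span_singleton_self _)) hy2
    have hP := le_span_pow_of_le_sup hNN (hCN v.2) hgen hm
    exact hcomm2 fun y hy z hz => span_pow_comm (v : T) (hP hy) (hP hz)
  have hC2 : finrank F C = 2 := by
    omega
  have hN2dim : finrank F (N * N : Submodule F T) ≤ finrank F (commOf N) + 1 := by omega
  let bs := Module.finBasisOfFinrankEq F C hC2
  set a : T := ((bs 0 : C) : T) with ha'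
  set b : T := ((bs 1 : C) : T) with hb'
  have ha : a ∈ N := hCN (bs 0).2
  have hb : b ∈ N := hCN (bs 1).2
  have hgen : N ≤ Submodule.span F {a, b} ⊔ N * N := by
    intro y hy
    rw [← hCsup] at hy
    obtain ⟨y1, hy1, y2, hy2, rfl⟩ := Submodule.mem_sup.1 hy
    refine Submodule.add_mem_sup ?_ hy2
    have h1 := bs.sum_repr ⟨y1, hy1⟩
    rw [Fin.sum_univ_two] at h1
    have h2 := congrArg Subtype.val h1
    simp only [Submodule.coe_add, Submodule.coe_smul] at h2
    rw [← show _ = y1 from h2]
    rw [Submodule.mem_span_pair]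
    exact ⟨_, _, rfl⟩
  set c : T := a * b - b * a with hc
  have hcN2 : c ∈ N * N := sub_mem (Submodule.mul_mem_mul ha hb) (Submodule.mul_mem_mul hb ha)
  have hN3L : ∀ x ∈ N * N, ∀ y ∈ N, x * y ∈ N * N * N := fun x hx y hy => Submodule.mul_mem_mul hx hy
  have hN3R : ∀ x ∈ N, ∀ y ∈ N * N, x * y ∈ N * N * N := by
    intro x hx y hy
    have e : N * (N * N) = N * N * N := by simp only [mul_assoc]
    rw [← e]
    exact Submodule.mul_mem_mul hx hy
  have hWle : commOf N ≤ Submodule.span F {c} ⊔ N * N * N := by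
    refine Submodule.span_le.2 ?_
    rintro x ⟨p, hp, q, hq, rfl⟩
    have hp' := hp
    have hq' := hq
    obtain ⟨p1, hp1, p2, hp2, rfl⟩ := Submodule.mem_sup.1 (hgen hp)
    obtain ⟨q1, hq1, q2, hq2, rfl⟩ := Submodule.mem_sup.1 (hgen hq)
    obtain ⟨s1, s2, rfl⟩ := Submodule.mem_span_pair.1 hp1
    obtain ⟨t1, t2, rfl⟩ := Submodule.mem_span_pair.1 hq1
    have e : (s1 • a + s2 • b + p2) * (t1 • a + t2 • b + q2) -
        (t1 • a + t2 • b + q2) * (s1 • a + s2 • b + p2) =
        (s1 * t2 - s2 * t1) • c +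
          ((s1 • a + s2 • b) * q2 + p2 * (t1 • a + t2 • b + q2) -
            (t1 • a + t2 • b) * p2 - q2 * (s1 • a + s2 • b + p2)) := by
      rw [hc]
      simp only [add_mul, mul_add, smul_mul_assoc, mul_smul_comm, smul_add, smul_smul, smul_sub]
      (module)
    rw [e]
    refine Submodule.add_mem_sup (Submodule.smul_mem _ _ (Submodule.mem_span_singleton_self _)) ?_
    refine sub_mem (sub_mem (add_mem (hN3R _ ?_ _ hq2) (hN3L _ hp2 _ hq')) (hN3R _ ?_ _ hp2)) (hN3L _ hq2 _ hp')
    · exact add_mem (Submodule.smul_mem _ _ ha) (Submodule.smul_mem _ _ hb)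
    · exact add_mem (Submodule.smul_mem _ _ ha) (Submodule.smul_mem _ _ hb)
  -- `N³ ≠ 0`
  have hN30 : N * N * N ≠ ⊥ := by
    intro h3
    apply hW0
    rw [eq_bot_iff]
    intro w hw
    have hw2 := hWN2 hw
    rw [Submodule.mem_bot]
    refine hnd w (hNN hw2) (hlamW w hw) fun b' hb' => ?_
    have h4 : w * b' ∈ N * N * N := hN3L _ hw2 _ hb'
    rw [h3, Submodule.mem_bot] at h4
    rw [h4, map_zero]
  have hN3N : N * N * N ≤ N := hN2m.trans hNN
  have hN3m : N * N * N * N ≤ N * N * N := by
    rw [mul_assoc (N * N) N N]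
    exact mul_le_mul_right hNN _
  obtain ⟨x₁, hx₁, hlx₁⟩ := hI (N * N * N) hN3N hN3m hN30
  have hN2eq : N * N ≤ Submodule.span F {c} ⊔ N * N * N := by
    have hV : commOf N ⊔ Submodule.span F {x₁} ≤ N * N :=
      sup_le hWN2 ((Submodule.span_singleton_le_iff_mem _ _).2 (hN2m hx₁))
    have hV1 : finrank F (commOf N) + 1 ≤ finrank F (commOf N ⊔ Submodule.span F {x₁} : Submodule F T) :=
      finrank_lt_of_functional lam le_sup_left hlamW
        (Submodule.mem_sup_right (Submodule.mem_span_singleton_self _)) hlx₁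
    have hV2 := Submodule.eq_of_le_of_finrank_le hV (by omega)
    refine hV2.symm.le.trans (sup_le hWle ?_)
    exact le_sup_of_le_right ((Submodule.span_singleton_le_iff_mem _ _).2 hx₁)
  have hcN3 : c ∉ N * N * N := by
    intro hc3
    have h1 : N * N ≤ N * N * N := by
      refine hN2eq.trans (sup_le ?_ le_rfl)
      exact (Submodule.span_singleton_le_iff_mem _ _).2 hc3
    exact hN20 (hnil _ h1)
  -- the products of the generators
  have hexp : ∀ y ∈ N * N, ∃ (s : F) (r : T), r ∈ N * N * N ∧ y = s • c + r := by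
    intro y hy
    obtain ⟨y1, hy1, y2, hy2, rfl⟩ := Submodule.mem_sup.1 (hN2eq hy)
    obtain ⟨s, rfl⟩ := Submodule.mem_span_singleton.1 hy1
    exact ⟨s, y2, hy2, rfl⟩
  obtain ⟨α, r₁, hr₁, haa⟩ := hexp _ (Submodule.mul_mem_mul ha ha)
  obtain ⟨μ, r₂, hr₂, hab⟩ := hexp _ (Submodule.mul_mem_mul ha hb)
  obtain ⟨ν, r₃, hr₃, hba⟩ := hexp _ (Submodule.mul_mem_mul hb ha)
  obtain ⟨β, r₄, hr₄, hbb⟩ := hexp _ (Submodule.mul_mem_mul hb hb)
  have hμν : μ - ν = 1 := by
    by_contra hne
    apply hcN3
    have h1 : (μ - ν - 1) • c = r₃ - r₂ := by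
      have h2 : c = μ • c + r₂ - (ν • c + r₃) := by
        rw [← hab, ← hba]
      have h3 : (μ - ν - 1) • c = (μ • c + r₂ - (ν • c + r₃)) - c + (r₃ - r₂) := by
        (module)
      rw [h3, ← h2]
      abel
    have h4 : μ - ν - 1 ≠ 0 := fun h => hne (by linear_combination h)
    have h5 : c = (μ - ν - 1)⁻¹ • (r₃ - r₂) := by
      rw [← h1, smul_smul, inv_mul_cancel₀ h4, one_smul]
    rw [h5]
    exact Submodule.smul_mem _ _ (sub_mem hr₃ hr₂)
  have hfinal : N * N * N ≤ N * N * N * N := by
    by_cases hα : α = 0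
    · refine kul_step ha hb hgen hc hN2eq ?_ hab hba hbb hr₂ hr₃ hr₄ hμν
      rw [haa, hα, zero_smul, zero_add]
      exact hr₁
    · -- an isotropic vector
      let P : Polynomial F := Polynomial.C α * Polynomial.X ^ 2 + Polynomial.C (μ + ν) * Polynomial.X +
        Polynomial.C β
      have hPd : P.degree ≠ 0 := by
        have : P.degree = 2 := Polynomial.degree_quadratic hα
        rw [this]
        norm_num
      obtain ⟨x, hx⟩ := IsAlgClosed.exists_root P hPd
      have hxr : α * x ^ 2 + (μ + ν) * x + β = 0 := by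
        have := hx
        simpa [P, Polynomial.IsRoot] using this
      set a' : T := x • a + b with ha'def
      have ha'N : a' ∈ N := add_mem (Submodule.smul_mem _ _ ha) hb
      set c' : T := a' * a - a * a' with hc'def
      have hc'c : c' = -c := by
        rw [hc'def, ha'def, hc]
        simp only [add_mul, mul_add, smul_mul_assoc, mul_smul_comm]
        abel
      have hspan : Submodule.span F {a, b} ≤ Submodule.span F {a', a} := by
        rw [Submodule.span_le]
        rintro y (rfl | rfl)
        · exact Submodule.subset_span (by simp)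
        · have e : b = a' - x • a := by rw [ha'def]; abel
          rw [e]
          exact sub_mem (Submodule.subset_span (by simp))
            (Submodule.smul_mem _ _ (Submodule.subset_span (by simp)))
      have hspanc : Submodule.span F {c} ≤ Submodule.span F {c'} := by
        rw [Submodule.span_le]
        rintro y rfl
        have e : c = -c' := by rw [hc'c, neg_neg]
        show c ∈ (Submodule.span F {c'} : Submodule F T)
        rw [e]
        exact neg_mem (Submodule.mem_span_singleton_self _)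
      refine kul_step (a := a') (b := a) (c := c') (μ := -(x * α + ν)) (ν := -(x * α + μ)) (β := -α)
        (r₂ := x • r₁ + r₃) (r₃ := x • r₁ + r₂) (r₄ := r₁) ha'N ha ?_ rfl ?_ ?_ ?_ ?_ ?_ ?_ ?_ hr₁ ?_
      · exact hgen.trans (sup_le_sup_right hspan _)
      · exact hN2eq.trans (sup_le_sup_right hspanc _)
      · have e : a' * a' = (α * x ^ 2 + (μ + ν) * x + β) • c +
            ((x ^ 2) • r₁ + x • r₂ + x • r₃ + r₄) := by
          rw [ha'def]
          simp only [add_mul, mul_add, smul_mul_assoc, mul_smul_comm, haa, hab, hba, hbb, smul_add, smul_smul]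
          (module)
        rw [e, hxr, zero_smul, zero_add]
        exact add_mem (add_mem (add_mem (Submodule.smul_mem _ _ hr₁) (Submodule.smul_mem _ _ hr₂))
          (Submodule.smul_mem _ _ hr₃)) hr₄
      · rw [hc'c, ha'def]
        simp only [add_mul, mul_add, smul_mul_assoc, mul_smul_comm, haa, hab, hba, hbb, smul_add, smul_smul]
        (module)
      · rw [hc'c, ha'def]
        simp only [add_mul, mul_add, smul_mul_assoc, mul_smul_comm, haa, hab, hba, hbb, smul_add, smul_smul]
        (module)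
      · rw [hc'c, haa]
        (module)
      · exact add_mem (Submodule.smul_mem _ _ hr₁) hr₃
      · exact add_mem (Submodule.smul_mem _ _ hr₁) hr₂
      · linear_combination hμν
  exact hN30 (hnil _ hfinal)

end Kul

section CornerKul

variable {F T : Type*} [Field F] [Ring T] [Algebra F T] [FiniteDimensional F T] {n : ℕ} [NeZero n]

/-- **The corner computation of Külshammer.** -/
theorem corner_kul [IsAlgClosed F] (φ : T →ₐ[F] Matrix (Fin n) (Fin n) F) {J : Ideal T} [J.IsTwoSided] {m : ℕ}
    (hJm : J ^ m = ⊥) (hJ : ∀ x, φ x = 0 → x ∈ J)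
    {e : Fin n → Fin n → T} (he1 : ∀ i j k l, e i j * e k l = if j = k then e i l else 0)
    (he2 : ∑ i, e i i = 1) (he3 : ∀ i j, φ (e i j) = Matrix.single i j 1)
    (lam : T →ₗ[F] F) (hsymm : ∀ a b, lam (a * b) = lam (b * a))
    (hnd : ∀ a, (∀ b, lam (a * b) = 0) → a = 0)
    (hW : finrank F T ≤ finrank F (commSpan F T) + 4) :
    ∃ d, finrank F T = n * n * d ∧ d + finrank F (commSpan F T) ≤ finrank F T := by
  classical
  set ε := e 0 0 with hε
  have hεε : ε * ε = ε := by rw [hε, he1]; simp
  have hεl : ∀ i, ε * e 0 i = e 0 i := by intro i; rw [hε, he1]; simp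
  have hεr : ∀ i, e i 0 * ε = e i 0 := by intro i; rw [hε, he1]; simp
  have he00 : ∀ i, e i 0 * e 0 i = e i i := by intro i; rw [he1]; simp
  have he0ne : ∀ i j, e 0 i * e j 0 = if i = j then ε else 0 := by
    intro i j; rw [he1]
  have hφε : φ ε = Matrix.single 0 0 1 := he3 0 0
  have hφε0 : φ ε ≠ 0 := by
    rw [hφε]
    intro h
    have := congrFun (congrFun h 0) 0
    simp at this
  have hε0 : ε ≠ 0 := by
    intro h
    rw [h, map_zero] at hφε0
    exact hφε0 rfl
  -- the corner
  let A : Submodule F T :=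
    { carrier := {t | ε * t * ε = t}
      add_mem' := by
        intro a b ha hb
        show ε * (a + b) * ε = a + b
        rw [mul_add, add_mul, ha, hb]
      zero_mem' := by
        show ε * 0 * ε = 0
        simp
      smul_mem' := by
        intro c a ha
        show ε * (c • a) * ε = c • a
        rw [mul_smul_comm, smul_mul_assoc, ha] }
  have hA : ∀ t, t ∈ A ↔ ε * t * ε = t := fun t => Iff.rfl
  have hAl : ∀ t, t ∈ A → ε * t = t := by
    intro t ht
    calc ε * t = ε * (ε * t * ε) := by rw [(hA t).1 ht]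
      _ = (ε * ε) * t * ε := by noncomm_ring
      _ = t := by rw [hεε, (hA t).1 ht]
  have hAr : ∀ t, t ∈ A → t * ε = t := by
    intro t ht
    calc t * ε = (ε * t * ε) * ε := by rw [(hA t).1 ht]
      _ = ε * t * (ε * ε) := by noncomm_ring
      _ = t := by rw [hεε, (hA t).1 ht]
  have hεA : ε ∈ A := by
    show ε * ε * ε = ε
    rw [hεε, hεε]
  have hcorner : ∀ (i j : Fin n) (t : T), e 0 i * t * e j 0 ∈ A := by
    intro i j t
    show ε * (e 0 i * t * e j 0) * ε = _
    calc ε * (e 0 i * t * e j 0) * ε = (ε * e 0 i) * t * (e j 0 * ε) := by noncomm_ring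
      _ = _ := by rw [hεl, hεr]
  -- the radical of the corner
  let N : Submodule F T := A ⊓ LinearMap.ker φ.toLinearMap
  have hN : ∀ y, y ∈ N ↔ y ∈ A ∧ φ y = 0 := fun y => Iff.rfl
  have hNN : N * N ≤ N := by
    rw [Submodule.mul_le]
    intro a ha b hb
    refine (hN _).2 ⟨?_, ?_⟩
    · show ε * (a * b) * ε = a * b
      calc ε * (a * b) * ε = (ε * a) * (b * ε) := by noncomm_ring
        _ = a * b := by rw [hAl a ha.1, hAr b hb.1]
    · rw [map_mul, ((hN a).1 ha).2, zero_mul]
  have hdec : ∀ t, t ∈ A → t - (φ t 0 0) • ε ∈ N := by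
    intro t ht
    refine (hN _).2 ⟨?_, ?_⟩
    · exact A.sub_mem ht (A.smul_mem _ hεA)
    · have h1 : φ t = (φ t 0 0) • φ ε := by
        conv_lhs => rw [← (hA t).1 ht]
        rw [map_mul, map_mul, hφε, single_mul_mul_single₀]
      rw [map_sub, map_smul, sub_eq_zero]
      exact h1
  have hmulN : ∀ (c c' : F) (y y' : T), y ∈ N → y' ∈ N →
      (c • ε + y) * (c' • ε + y') - (c' • ε + y') * (c • ε + y) = y * y' - y' * y := by
    intro c c' y y' hy hy'
    have h1 := hAl y ((hN y).1 hy).1
    have h2 := hAr y ((hN y).1 hy).1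
    have h3 := hAl y' ((hN y').1 hy').1
    have h4 := hAr y' ((hN y').1 hy').1
    simp only [add_mul, mul_add, smul_mul_assoc, mul_smul_comm, hεε, h1, h2, h3, h4, smul_smul,
      mul_comm c c', smul_add]
    abel
  have hcommA : ∀ a b, a ∈ A → b ∈ A → a * b - b * a ∈ N * N := by
    intro a b ha hb
    have h1 := hmulN (φ a 0 0) (φ b 0 0) _ _ (hdec a ha) (hdec b hb)
    simp only [add_sub_cancel] at h1
    rw [h1]
    exact Submodule.sub_mem _ (Submodule.mul_mem_mul (hdec a ha) (hdec b hb))
      (Submodule.mul_mem_mul (hdec b hb) (hdec a ha))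
  -- the retraction
  let r : T →ₗ[F] T := ∑ i, (LinearMap.mulLeft F (e 0 i)) ∘ₗ (LinearMap.mulRight F (e i 0))
  have hr : ∀ t, r t = ∑ i, e 0 i * t * e i 0 := by
    intro t
    simp only [r, LinearMap.sum_apply, LinearMap.comp_apply, LinearMap.mulLeft_apply,
      LinearMap.mulRight_apply, mul_assoc]
  have hrA : ∀ t, r t ∈ A := by
    intro t
    rw [hr]
    exact A.sum_mem fun i _ => hcorner i i t
  have hrid : ∀ t, t ∈ A → r t = t := by
    intro t ht
    rw [hr, Finset.sum_eq_single (0 : Fin n)]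
    · show ε * t * ε = t
      exact ht
    · intro i _ hi
      have h1 : e 0 i * t = 0 := by
        rw [← hAl t ht, hε, ← mul_assoc, he1, if_neg hi, zero_mul]
      rw [h1, zero_mul]
    · intro h
      exact absurd (Finset.mem_univ _) h
  have hrform : ∀ a b : T, r (a * b) - r (b * a) =
      ∑ i, ∑ j, ((e 0 i * a * e j 0) * (e 0 j * b * e i 0) -
        (e 0 j * b * e i 0) * (e 0 i * a * e j 0)) := by
    intro a b
    have h1 : ∀ c d : T, c * d = ∑ j, (c * e j 0) * (e 0 j * d) := by
      intro c d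
      calc c * d = c * (∑ j, e j j) * d := by rw [he2, mul_one]
        _ = ∑ j, c * e j j * d := by rw [Finset.mul_sum, Finset.sum_mul]
        _ = _ := by
          refine Finset.sum_congr rfl fun j _ => ?_
          rw [← he00 j]
          noncomm_ring
    have h2 : r (a * b) = ∑ i, ∑ j, (e 0 i * a * e j 0) * (e 0 j * b * e i 0) := by
      rw [hr]
      refine Finset.sum_congr rfl fun i _ => ?_
      rw [h1 a b, Finset.mul_sum, Finset.sum_mul]
      refine Finset.sum_congr rfl fun j _ => ?_
      noncomm_ring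
    have h3 : r (b * a) = ∑ i, ∑ j, (e 0 j * b * e i 0) * (e 0 i * a * e j 0) := by
      rw [hr, Finset.sum_comm]
      refine Finset.sum_congr rfl fun j _ => ?_
      rw [h1 b a, Finset.mul_sum, Finset.sum_mul]
      refine Finset.sum_congr rfl fun i _ => ?_
      noncomm_ring
    rw [h2, h3, ← Finset.sum_sub_distrib]
    refine Finset.sum_congr rfl fun i _ => ?_
    rw [← Finset.sum_sub_distrib]
  have hrcomm : ∀ a b : T, r (a * b) - r (b * a) ∈ N * N := by
    intro a b
    rw [hrform]
    exact Submodule.sum_mem _ fun i _ => Submodule.sum_mem _ fun j _ =>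
      hcommA _ _ (hcorner i j a) (hcorner j i b)
  have hcommW : ∀ a b, a ∈ A → b ∈ A → a * b - b * a ∈ commOf N := by
    intro a b ha hb
    have h1 := hmulN (φ a 0 0) (φ b 0 0) _ _ (hdec a ha) (hdec b hb)
    simp only [add_sub_cancel] at h1
    rw [h1]
    exact Submodule.subset_span ⟨_, hdec a ha, _, hdec b hb, rfl⟩
  have hrcommW : ∀ a b : T, r (a * b) - r (b * a) ∈ commOf N := by
    intro a b
    rw [hrform]
    exact Submodule.sum_mem _ fun i _ => Submodule.sum_mem _ fun j _ =>
      hcommW _ _ (hcorner i j a) (hcorner j i b)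
  set W := commOf N with hWdef
  have hWN : W ≤ N := by
    refine Submodule.span_le.2 ?_
    rintro x ⟨a, ha, b, hb, rfl⟩
    exact sub_mem (hNN (Submodule.mul_mem_mul ha hb)) (hNN (Submodule.mul_mem_mul hb ha))
  let ρ : T →ₗ[F] T ⧸ W := W.mkQ ∘ₗ r
  have hρker : commSpan F T ≤ LinearMap.ker ρ := by
    refine Submodule.span_le.2 ?_
    rintro x ⟨a, b, rfl⟩
    show ρ (a * b - b * a) = 0
    simp only [ρ, LinearMap.comp_apply, map_sub, Submodule.mkQ_apply]
    rw [← Submodule.Quotient.mk_sub, Submodule.Quotient.mk_eq_zero]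
    exact hrcommW a b
  have hρrange : LinearMap.range ρ = A.map W.mkQ := by
    apply le_antisymm
    · rintro _ ⟨t, rfl⟩
      exact ⟨r t, hrA t, rfl⟩
    · rintro _ ⟨a, ha, rfl⟩
      refine ⟨a, ?_⟩
      simp only [ρ, LinearMap.comp_apply, hrid a ha]
  have hrank := LinearMap.finrank_range_add_finrank_ker ρ
  have hρ4 : finrank F (LinearMap.range ρ) ≤ 4 := by
    have := Submodule.finrank_mono hρker
    omega
  have hlt : N.map W.mkQ < A.map W.mkQ := by
    refine lt_of_le_of_ne (Submodule.map_mono inf_le_left) fun heq => ?_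
    have h1 : W.mkQ ε ∈ A.map W.mkQ := ⟨ε, hεA, rfl⟩
    rw [← heq] at h1
    obtain ⟨y, hy, hyε⟩ := h1
    have h2 : y - ε ∈ W := by
      rw [← Submodule.Quotient.mk_eq_zero]
      rw [Submodule.Quotient.mk_sub, sub_eq_zero]
      exact hyε
    have h3 : ε ∈ N := by
      have := N.sub_mem hy (hWN h2)
      simpa using this
    exact hφε0 ((hN ε).1 h3).2
  have hfin3 : finrank F (N.map W.mkQ) ≤ 3 := by
    have := Submodule.finrank_lt_finrank_of_lt hlt
    rw [← hρrange] at this
    omega
  have hNdim : finrank F N = finrank F (N.map W.mkQ) + finrank F W := by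
    have h1 := LinearMap.finrank_range_add_finrank_ker (W.mkQ.domRestrict N)
    rw [LinearMap.range_domRestrict] at h1
    have h2 : LinearMap.ker (W.mkQ.domRestrict N) = W.comap N.subtype := by
      ext y
      simp only [LinearMap.mem_ker, LinearMap.domRestrict_apply, Submodule.mkQ_apply,
        Submodule.Quotient.mk_eq_zero, Submodule.mem_comap, Submodule.subtype_apply]
    rw [h2, (Submodule.comapSubtypeEquivOfLe hWN).finrank_eq] at h1
    exact h1.symm
  -- nilpotency
  have hNJ : ∀ k : ℕ, N ^ k ≤ (J ^ k).restrictScalars F := by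
    intro k
    induction k with
    | zero =>
      intro y _
      show y ∈ J ^ 0
      rw [J.pow_zero, Ideal.one_eq_top]
      trivial
    | succ k ih =>
      rw [pow_succ' N k, Submodule.mul_le]
      intro a ha b hb
      show a * b ∈ J ^ (k + 1)
      rw [Ideal.IsTwoSided.pow_succ]
      exact Ideal.mul_mem_mul (hJ a ((hN a).1 ha).2) (ih hb)
  have hNm : N ^ (m + 1) = ⊥ := by
    have h1 : N ^ m = ⊥ := by
      rw [eq_bot_iff]
      intro y hy
      have h2 : y ∈ J ^ m := hNJ m hy
      rw [hJm] at h2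
      exact h2
    rw [pow_succ, h1, Submodule.bot_mul]
  have hcN' : ∀ a ∈ N, ∀ b ∈ N, a * b = b * a := by
    refine kul_comm N hNN hNm lam (fun a _ b _ => hsymm a b) ?_ (by show finrank F N ≤ finrank F W + 3; omega)
    intro y hy hly hly2
    have hyl := hAl y ((hN y).1 hy).1
    have hyr := hAr y ((hN y).1 hy).1
    refine hnd y fun t => ?_
    have e1 : lam (y * t) = lam (y * (ε * t * ε)) := by
      calc lam (y * t) = lam ((ε * y) * t) := by rw [hyl]
        _ = lam (ε * (y * t)) := by rw [mul_assoc]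
        _ = lam ((y * t) * ε) := hsymm _ _
        _ = lam ((y * ε) * t * ε) := by rw [hyr]
        _ = _ := by congr 1; noncomm_ring
    have hs : ε * t * ε ∈ A := by
      show ε * (ε * t * ε) * ε = ε * t * ε
      calc ε * (ε * t * ε) * ε = (ε * ε) * t * (ε * ε) := by noncomm_ring
        _ = _ := by rw [hεε]
    have h3 := hdec _ hs
    have e2 : y * (ε * t * ε) = y * ((ε * t * ε) - (φ (ε * t * ε) 0 0) • ε) + (φ (ε * t * ε) 0 0) • y := by
      rw [mul_sub, mul_smul_comm, hyr]
      abel
    rw [e1, e2, map_add, map_smul, hly, smul_zero, add_zero]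
    exact hly2 _ h3
  have hcN : ∀ y y', y ∈ N → y' ∈ N → y * y' = y' * y := fun y y' hy hy' => hcN' y hy y' hy'
  have hcommA0 : ∀ a b, a ∈ A → b ∈ A → a * b - b * a = 0 := by
    intro a b ha hb
    have h1 := hmulN (φ a 0 0) (φ b 0 0) _ _ (hdec a ha) (hdec b hb)
    simp only [add_sub_cancel] at h1
    rw [h1, hcN _ _ (hdec a ha) (hdec b hb), sub_self]
  have hrcomm0 : ∀ a b : T, r (a * b) - r (b * a) = 0 := by
    intro a b
    rw [hrform]
    exact Finset.sum_eq_zero fun i _ => Finset.sum_eq_zero fun j _ =>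
      hcommA0 _ _ (hcorner i j a) (hcorner j i b)
  have hrker : commSpan F T ≤ LinearMap.ker r := by
    refine Submodule.span_le.2 ?_
    rintro x ⟨a, b, rfl⟩
    show r (a * b - b * a) = 0
    rw [map_sub, hrcomm0]
  have hrrange : LinearMap.range r = A := by
    apply le_antisymm
    · rintro _ ⟨t, rfl⟩
      exact hrA t
    · intro a ha
      exact ⟨a, hrid a ha⟩
  have hA2 : finrank F A + finrank F (commSpan F T) ≤ finrank F T := by
    have h1 := LinearMap.finrank_range_add_finrank_ker r
    have h2 := Submodule.finrank_mono hrker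
    rw [hrrange] at h1
    omega
  -- `T` is a matrix ring over the corner
  let E : T ≃ₗ[F] (Fin n × Fin n → A) :=
    { toFun := fun t p => ⟨e 0 p.1 * t * e p.2 0, hcorner _ _ _⟩
      map_add' := by
        intro a b
        funext p
        apply Subtype.ext
        show e 0 p.1 * (a + b) * e p.2 0 = e 0 p.1 * a * e p.2 0 + e 0 p.1 * b * e p.2 0
        rw [mul_add, add_mul]
      map_smul' := by
        intro c a
        funext p
        apply Subtype.ext
        show e 0 p.1 * (c • a) * e p.2 0 = c • (e 0 p.1 * a * e p.2 0)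
        rw [mul_smul_comm, smul_mul_assoc]
      invFun := fun g => ∑ p : Fin n × Fin n, e p.1 0 * (g p : T) * e 0 p.2
      left_inv := by
        intro t
        show ∑ p : Fin n × Fin n, e p.1 0 * (e 0 p.1 * t * e p.2 0) * e 0 p.2 = t
        rw [Fintype.sum_prod_type]
        have h1 : ∀ i j : Fin n, e i 0 * (e 0 i * t * e j 0) * e 0 j = e i i * t * e j j := by
          intro i j
          calc e i 0 * (e 0 i * t * e j 0) * e 0 j = (e i 0 * e 0 i) * t * (e j 0 * e 0 j) := by
                noncomm_ring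
            _ = _ := by rw [he00, he00]
        simp only [h1]
        simp only [← Finset.mul_sum, ← Finset.sum_mul, he2, mul_one, one_mul]
      right_inv := by
        intro g
        funext p
        apply Subtype.ext
        show e 0 p.1 * (∑ q : Fin n × Fin n, e q.1 0 * (g q : T) * e 0 q.2) * e p.2 0 = g p
        rw [Finset.mul_sum, Finset.sum_mul, Finset.sum_eq_single p]
        · calc e 0 p.1 * (e p.1 0 * (g p : T) * e 0 p.2) * e p.2 0 =
                (e 0 p.1 * e p.1 0) * (g p : T) * (e 0 p.2 * e p.2 0) := by noncomm_ring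
            _ = ε * (g p : T) * ε := by rw [he0ne, he0ne]; simp
            _ = g p := (g p).2
        · intro q _ hq
          by_cases h1 : p.1 = q.1
          · have h2 : q.2 ≠ p.2 := by
              intro h3
              exact hq (Prod.ext h1.symm h3)
            calc e 0 p.1 * (e q.1 0 * (g q : T) * e 0 q.2) * e p.2 0 =
                  (e 0 p.1 * e q.1 0) * (g q : T) * (e 0 q.2 * e p.2 0) := by noncomm_ring
              _ = 0 := by rw [he0ne q.2 p.2, if_neg h2, mul_zero]
          · calc e 0 p.1 * (e q.1 0 * (g q : T) * e 0 q.2) * e p.2 0 =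
                  (e 0 p.1 * e q.1 0) * (g q : T) * (e 0 q.2 * e p.2 0) := by noncomm_ring
              _ = 0 := by rw [he0ne p.1 q.1, if_neg h1, zero_mul, zero_mul]
        · intro h
          exact absurd (Finset.mem_univ _) h }
  have hfin : finrank F T = n * n * finrank F A := by
    rw [E.finrank_eq, Module.finrank_pi_fintype]
    simp [Finset.sum_const, Fintype.card_prod]
  exact ⟨finrank F A, hfin, hA2⟩

end CornerKul

end Cfsg.Agent.Lib.Modular
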