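import Mathlib

/-!
# Corners of subalgebras with only trivial idempotents, and the Artin-Schreier splitting

`IsLoc S j` says that every element of the corner `j S j` is a scalar multiple of `j` up to a nilpotent.
-/

set_option autoImplicit false
set_option linter.unusedSectionVars false
set_option linter.unusedSimpArgs false
set_option linter.unusedVariables false
set_option linter.style.haveILetI false
set_option linter.unnecessarySimpa false

namespace Cfsg.Agent.Lib.Modular

open Polynomial

section LocalCorner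

variable {F A : Type*} [Field F] [Ring A] [Algebra F A]

/-- Elements of the corner `j S j` of a subalgebra. -/
def IsCor (S : Subalgebra F A) (j y : A) : Prop := y ∈ S ∧ j * y = y ∧ y * j = y

/-- Every element of the corner is a scalar plus a nilpotent. -/
def IsLoc (S : Subalgebra F A) (j : A) : Prop := ∀ y, IsCor S j y → ∃ c : F, IsNilpotent (y - c • j)

variable {S : Subalgebra F A} {j : A}

theorem isCor_self (hj : j * j = j) (hjS : j ∈ S) : IsCor S j j := ⟨hjS, hj, hj⟩

theorem IsCor.mul {x y : A} (hx : IsCor S j x) (hy : IsCor S j y) : IsCor S j (x * y) :=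
  ⟨S.mul_mem hx.1 hy.1, by rw [← mul_assoc, hx.2.1], by rw [mul_assoc, hy.2.2]⟩

theorem IsCor.add {x y : A} (hx : IsCor S j x) (hy : IsCor S j y) : IsCor S j (x + y) :=
  ⟨S.add_mem hx.1 hy.1, by rw [mul_add, hx.2.1, hy.2.1], by rw [add_mul, hx.2.2, hy.2.2]⟩

theorem IsCor.sub {x y : A} (hx : IsCor S j x) (hy : IsCor S j y) : IsCor S j (x - y) :=
  ⟨S.sub_mem hx.1 hy.1, by rw [mul_sub, hx.2.1, hy.2.1], by rw [sub_mul, hx.2.2, hy.2.2]⟩

theorem IsCor.smul {x : A} (c : F) (hx : IsCor S j x) : IsCor S j (c • x) :=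
  ⟨S.smul_mem hx.1 c, by rw [mul_smul_comm, hx.2.1], by rw [smul_mul_assoc, hx.2.2]⟩

theorem IsCor.commute {x : A} (hx : IsCor S j x) : Commute j x := by
  show j * x = x * j
  rw [hx.2.1, hx.2.2]

/-- Inverse in the corner of a scalar plus nilpotent. -/
theorem cor_inv (hj : j * j = j) (hjS : j ∈ S) {y : A} (hy : IsCor S j y) {α : F} (hα : α ≠ 0)
    (hn : IsNilpotent (y - α • j)) : ∃ y', IsCor S j y' ∧ y' * y = j ∧ y * y' = j := by
  obtain ⟨s, hs⟩ := hn
  set u : A := -(α⁻¹ • (y - α • j)) with hu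
  have hcj : IsCor S j (y - α • j) := hy.sub ((isCor_self hj hjS).smul α)
  have hucor : IsCor S j u := by
    have : u = (-α⁻¹) • (y - α • j) := by rw [hu, neg_smul]
    rw [this]
    exact hcj.smul _
  have hus : u ^ s = 0 := by
    have hcu : u = (-α⁻¹) • (y - α • j) := by rw [hu, neg_smul]
    rw [hcu, _root_.smul_pow, hs, smul_zero]
  have hyu : y = α • (j - u) := by
    rw [hu, smul_sub, smul_neg, smul_smul, mul_inv_cancel₀ hα, one_smul]
    abel
  set Sg : A := ∑ k ∈ Finset.range s, u ^ k with hSg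
  have hSgS : Sg ∈ S := S.sum_mem fun k _ => S.pow_mem hucor.1 k
  have hcomm : Commute j Sg := by
    refine Commute.sum_right _ _ _ fun k _ => ?_
    exact hucor.commute.pow_right k
  have hcommu : Commute u Sg := by
    refine Commute.sum_right _ _ _ fun k _ => ?_
    exact (Commute.refl u).pow_right k
  have hg1 : (1 - u) * Sg = 1 := by
    rw [mul_neg_geom_sum, hus, sub_zero]
  have hW : (j - u) * (j * Sg) = j := by
    have : j - u = j * (1 - u) := by rw [mul_sub, mul_one, hucor.2.1]
    rw [this]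
    calc j * (1 - u) * (j * Sg) = j * j * ((1 - u) * Sg) := by
          have hc : Commute (1 - u) j := by
            refine Commute.sub_left (Commute.one_left j) ?_
            exact hucor.commute.symm
          rw [mul_assoc j, ← mul_assoc (1 - u), hc.eq, mul_assoc j (1 - u), ← mul_assoc j j]
      _ = j := by rw [hg1, mul_one, hj]
  have hW' : (j * Sg) * (j - u) = j := by
    have : j - u = j * (1 - u) := by rw [mul_sub, mul_one, hucor.2.1]
    rw [this]
    have hg2 : Sg * (1 - u) = 1 := by
      have hc : Commute (1 - u) Sg := Commute.sub_left (Commute.one_left _) hcommu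
      rw [← hc.eq, hg1]
    calc j * Sg * (j * (1 - u)) = j * j * (Sg * (1 - u)) := by
          rw [mul_assoc j Sg, ← mul_assoc Sg j, ← hcomm.eq, mul_assoc j Sg, ← mul_assoc j j]
      _ = j := by rw [hg2, mul_one, hj]
  refine ⟨α⁻¹ • (j * Sg), ?_, ?_, ?_⟩
  · refine IsCor.smul _ ⟨S.mul_mem hjS hSgS, by rw [← mul_assoc, hj], ?_⟩
    rw [mul_assoc, ← hcomm.eq, ← mul_assoc, hj]
  · rw [hyu, smul_mul_smul_comm, inv_mul_cancel₀ hα, one_smul, hW']
  · rw [hyu, smul_mul_smul_comm, mul_inv_cancel₀ hα, one_smul, hW]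

/-- A nilpotent element of the corner has no left inverse. -/
theorem not_left_inv_of_nil (hj0 : j ≠ 0) {x a : A} (hx : j * x = x) (hn : IsNilpotent x) (ha : a * x = j) :
    False := by
  obtain ⟨s, hs⟩ := hn
  have key : ∀ k : ℕ, x ^ (k + 1) = 0 → x = 0 := by
    intro k
    induction k with
    | zero => intro h; simpa using h
    | succ k ih =>
      intro h
      apply ih
      have h1 : x ^ (k + 1) = a * x ^ (k + 2) := by
        have : x ^ (k + 2) = x * x ^ (k + 1) := pow_succ' x (k + 1)
        rw [this, ← mul_assoc, ha, pow_succ' x k, ← mul_assoc, hx]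
      rw [h1, h, mul_zero]
  have hx0 : x = 0 := by
    rcases s with _ | s
    · have : (1 : A) = 0 := by simpa using hs
      exact absurd (by rw [← mul_one j, this, mul_zero]) hj0
    · exact key s hs
  apply hj0
  rw [← ha, hx0, mul_zero]

theorem loc_nil_add (hj : j * j = j) (hjS : j ∈ S) (hj0 : j ≠ 0) (hl : IsLoc S j) {x y : A} (hx : IsCor S j x)
    (hy : IsCor S j y) (hxn : IsNilpotent x) (hyn : IsNilpotent y) : IsNilpotent (x + y) := by
  obtain ⟨c, hc⟩ := hl _ (hx.add hy)
  by_cases hc0 : c = 0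
  · simpa [hc0] using hc
  exfalso
  obtain ⟨v, hv, hv1, hv2⟩ := cor_inv hj hjS (hx.add hy) hc0 hc
  have hvx : IsCor S j (v * x) := hv.mul hx
  obtain ⟨c₁, hc₁⟩ := hl _ hvx
  by_cases hc₁0 : c₁ = 0
  · have hvxn : IsNilpotent (v * x) := by simpa [hc₁0] using hc₁
    have h1 : v * y = j - v * x := by
      rw [eq_sub_iff_add_eq, add_comm, ← mul_add, hv1]
    have hvy : IsCor S j (v * y) := hv.mul hy
    have h2 : IsNilpotent (v * y - (1 : F) • j) := by
      rw [h1, one_smul]
      have : j - v * x - j = -(v * x) := by abel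
      rw [this]
      exact hvxn.neg
    obtain ⟨w, hw, hw1, hw2⟩ := cor_inv hj hjS hvy one_ne_zero h2
    exact not_left_inv_of_nil hj0 hy.2.1 hyn (a := w * v) (by rw [mul_assoc, hw1])
  · obtain ⟨w, hw, hw1, hw2⟩ := cor_inv hj hjS hvx hc₁0 hc₁
    exact not_left_inv_of_nil hj0 hx.2.1 hxn (a := w * v) (by rw [mul_assoc, hw1])

/-- A non-nilpotent element of the corner has an inverse in the corner. -/
theorem loc_inv_of_not_nil (hj : j * j = j) (hjS : j ∈ S) (hl : IsLoc S j) {y : A} (hy : IsCor S j y)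
    (hn : ¬ IsNilpotent y) : ∃ y', IsCor S j y' ∧ y' * y = j ∧ y * y' = j := by
  obtain ⟨c, hc⟩ := hl _ hy
  have hc0 : c ≠ 0 := by
    rintro rfl
    exact hn (by simpa using hc)
  exact cor_inv hj hjS hy hc0 hc

theorem idem_of_nil_eq_zero {y : A} (hy : y * y = y) (hn : IsNilpotent y) : y = 0 := by
  obtain ⟨s, hs⟩ := hn
  have : ∀ k : ℕ, y ^ (k + 1) = y := by
    intro k
    induction k with
    | zero => simp
    | succ k ih => rw [pow_succ, ih, hy]
  rcases s with _ | s
  · have h1 : (1 : A) = 0 := by simpa using hs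
    rw [← mul_one y, h1, mul_zero]
  · rw [← this s, hs]

theorem loc_idem (hj : j * j = j) (hjS : j ∈ S) (hl : IsLoc S j) {y : A} (hy : IsCor S j y) (hyy : y * y = y) :
    y = 0 ∨ y = j := by
  by_cases hn : IsNilpotent y
  · exact Or.inl (idem_of_nil_eq_zero hyy hn)
  · obtain ⟨y', -, h1, -⟩ := loc_inv_of_not_nil hj hjS hl hy hn
    right
    calc y = j * y := hy.2.1.symm
      _ = y' * y * y := by rw [h1]
      _ = y' * y := by rw [mul_assoc, hyy]
      _ = j := h1

/-- A corner with only trivial idempotents, over an algebraically closed field, is local. -/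
theorem isLoc_of_idem [FiniteDimensional F A] [IsAlgClosed F] (hj : j * j = j) (hjS : j ∈ S) (hj0 : j ≠ 0)
    (hid : ∀ y, IsCor S j y → y * y = y → y = 0 ∨ y = j) : IsLoc S j := by
  classical
  intro y hy
  have hcomm : ∀ P : F[X], Commute j (aeval y P) := by
    intro P
    induction P using Polynomial.induction_on' with
    | add p q hp hq =>
      rw [map_add]
      exact hp.add_right hq
    | monomial n a =>
      rw [aeval_monomial]
      have h1 : Commute j (algebraMap F A a) := (Algebra.commutes a j).symm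
      exact h1.mul_right (hy.commute.pow_right n)
  have hmemS : ∀ P : F[X], aeval y P ∈ S := by
    intro P
    induction P using Polynomial.induction_on' with
    | add p q hp hq =>
      rw [map_add]
      exact S.add_mem hp hq
    | monomial n a =>
      rw [aeval_monomial]
      exact S.mul_mem (S.algebraMap_mem a) (S.pow_mem hy.1 n)
  set ψ : F[X] → A := fun P => j * aeval y P with hψ
  have hψmul : ∀ P Q, ψ (P * Q) = ψ P * ψ Q := by
    intro P Q
    simp only [hψ, map_mul]
    calc j * (aeval y P * aeval y Q) = (j * j) * (aeval y P * aeval y Q) := by rw [hj]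
      _ = (j * aeval y P) * (j * aeval y Q) := by
        rw [show j * aeval y P * (j * aeval y Q) = j * (aeval y P * j) * aeval y Q by simp only [mul_assoc],
          ← (hcomm P).eq]
        simp only [mul_assoc]
  have hψadd : ∀ P Q, ψ (P + Q) = ψ P + ψ Q := by
    intro P Q
    simp only [hψ, map_add, mul_add]
  have hψ1 : ψ 1 = j := by simp [hψ]
  have hψcor : ∀ P, IsCor S j (ψ P) := by
    intro P
    refine ⟨S.mul_mem hjS (hmemS P), ?_, ?_⟩
    · simp only [hψ]; rw [← mul_assoc, hj]
    · simp only [hψ]; rw [mul_assoc, ← (hcomm P).eq, ← mul_assoc, hj]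
  have key : ∀ n (f : F[X]), f.natDegree = n → f.Monic → ψ f = 0 →
      ∃ (α : F) (m : ℕ), ψ ((X - C α) ^ m) = 0 := by
    intro n
    induction n using Nat.strong_induction_on with
    | _ n ih =>
      intro f hdeg hf hψf
      have hf0 : f.degree ≠ 0 := by
        intro h
        have h1 : f = 1 := by
          rw [← Polynomial.Monic.natDegree_eq_zero hf]
          exact natDegree_eq_of_degree_eq_some h
        rw [h1, hψ1] at hψf
        exact hj0 hψf
      obtain ⟨α, hα⟩ := IsAlgClosed.exists_root f hf0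
      obtain ⟨h, hfh, hnd⟩ := exists_eq_pow_rootMultiplicity_mul_and_not_dvd f hf.ne_zero α
      set m := rootMultiplicity α f with hm
      have hm1 : 1 ≤ m := (rootMultiplicity_pos hf.ne_zero).2 hα
      have hcop : IsCoprime ((X - C α) ^ m) h :=
        ((irreducible_X_sub_C α).coprime_iff_not_dvd.2 hnd).pow_left
      obtain ⟨a, b, hab⟩ := hcop
      have hEE : ψ (b * h) * ψ (b * h) = ψ (b * h) := by
        have e1 : b * h * (b * h) + a * b * f = b * h := by
          rw [hfh]
          linear_combination (b * h) * hab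
        have e2 := congrArg ψ e1
        rw [hψadd, hψmul (b * h) (b * h), hψmul (a * b) f, hψf, mul_zero, add_zero] at e2
        exact e2
      rcases hid _ (hψcor (b * h)) hEE with hE | hE
      · -- `ψ h = 0`
        have e1 : a * f + h * (b * h) = h := by
          rw [hfh]
          linear_combination h * hab
        have e2 := congrArg ψ e1
        rw [hψadd, hψmul a f, hψmul h (b * h), hψf, hE, mul_zero, mul_zero, add_zero] at e2
        have hmon : ((X - C α) ^ m : F[X]).Monic := (monic_X_sub_C α).pow m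
        have hh : h.Monic := by
          apply hmon.of_mul_monic_left
          rw [← hfh]
          exact hf
        have hd : h.natDegree < n := by
          rw [← hdeg, hfh, hmon.natDegree_mul hh, natDegree_pow, natDegree_X_sub_C]
          omega
        exact ih _ hd h rfl hh e2.symm
      · -- `ψ ((X - α)^m) = 0`
        refine ⟨α, m, ?_⟩
        have e0 : ψ (a * (X - C α) ^ m) = 0 := by
          have e1 := congrArg ψ hab
          rw [hψadd, hψ1, hE] at e1
          exact (add_eq_right).1 e1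
        have e1 : (X - C α) ^ m * (a * (X - C α) ^ m) + b * f = (X - C α) ^ m := by
          rw [hfh]
          linear_combination ((X - C α) ^ m) * hab
        have e2 := congrArg ψ e1
        rw [hψadd, hψmul _ (a * (X - C α) ^ m), hψmul b f, hψf, e0, mul_zero, mul_zero, add_zero] at e2
        exact e2.symm
  have hint : IsIntegral F y := Algebra.IsIntegral.isIntegral y
  obtain ⟨α, m, hαm⟩ := key _ (minpoly F y) rfl (minpoly.monic hint) (by simp [hψ, minpoly.aeval])
  refine ⟨α, ?_⟩
  have hm0 : m ≠ 0 := by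
    rintro rfl
    rw [pow_zero, hψ1] at hαm
    exact hj0 hαm
  have hψX : ψ (X - C α) = y - α • j := by
    simp only [hψ, map_sub, aeval_X, aeval_C, mul_sub]
    rw [hy.2.1, ← Algebra.commutes, Algebra.algebraMap_eq_smul_one, smul_mul_assoc, one_mul]
  have hpow : ∀ k : ℕ, ψ (X - C α) ^ (k + 1) = ψ ((X - C α) ^ (k + 1)) := by
    intro k
    induction k with
    | zero => simp
    | succ k ih => rw [pow_succ, ih, ← hψmul, ← pow_succ]
  obtain ⟨k, rfl⟩ := Nat.exists_eq_succ_of_ne_zero hm0
  exact ⟨k + 1, by rw [← hψX, hpow, hαm]⟩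

end LocalCorner

section ArtinSchreier

/-- Power sums over the residues modulo `p`, in any ring of characteristic `p`. -/
theorem sum_range_natCast_pow_lt {p : ℕ} [hp : Fact p.Prime] {R : Type*} [CommRing R] [CharP R p] (e : ℕ)
    (he : e < p - 1) : ∑ k ∈ Finset.range p, ((k : R)) ^ e = 0 := by
  have h1 : ∑ k ∈ Finset.range p, ((k : ZMod p)) ^ e = ∑ a : ZMod p, a ^ e := by
    refine Finset.sum_nbij' (fun k => (k : ZMod p)) ZMod.val ?_ ?_ ?_ ?_ ?_
    · intro k _; exact Finset.mem_univ _
    · intro a _; exact Finset.mem_range.2 (ZMod.val_lt a)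
    · intro k hk; exact ZMod.val_cast_of_lt (Finset.mem_range.1 hk)
    · intro a _; exact ZMod.natCast_zmod_val a
    · intro k _; rfl
  have h2 : ∑ a : ZMod p, a ^ e = 0 := FiniteField.sum_pow_lt_card_sub_one (ZMod p) e (by
    rw [ZMod.card]; exact he)
  have h3 := congrArg (ZMod.castHom (dvd_refl p) R) (h1.trans h2)
  simpa using h3

theorem sum_range_natCast_pow_top {p : ℕ} [hp : Fact p.Prime] {R : Type*} [CommRing R] [CharP R p] :
    ∑ k ∈ Finset.range p, ((k : R)) ^ (p - 1) = -1 := by
  classical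
  have hp1 : p - 1 ≠ 0 := by
    have := hp.out.two_le
    omega
  have h1 : ∑ k ∈ Finset.range p, ((k : ZMod p)) ^ (p - 1) = ∑ a : ZMod p, a ^ (p - 1) := by
    refine Finset.sum_nbij' (fun k => (k : ZMod p)) ZMod.val ?_ ?_ ?_ ?_ ?_
    · intro k _; exact Finset.mem_univ _
    · intro a _; exact Finset.mem_range.2 (ZMod.val_lt a)
    · intro k hk; exact ZMod.val_cast_of_lt (Finset.mem_range.1 hk)
    · intro a _; exact ZMod.natCast_zmod_val a
    · intro k _; rfl
  have h2 : ∑ a : ZMod p, a ^ (p - 1) = -1 := by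
    have e1 : ∀ a : ZMod p, a ^ (p - 1) = 1 - (if a = 0 then 1 else 0) := by
      intro a
      by_cases ha : a = 0
      · subst ha
        simp [zero_pow hp1]
      · simp [ha, ZMod.pow_card_sub_one_eq_one ha]
    rw [Finset.sum_congr rfl fun a _ => e1 a, Finset.sum_sub_distrib]
    simp
  have h3 := congrArg (ZMod.castHom (dvd_refl p) R) (h1.trans h2)
  simpa using h3

/-- `∑_{k < p} (x + k)^{p-1} = -1` in characteristic `p`. -/
theorem sum_add_natCast_pow {p : ℕ} [hp : Fact p.Prime] {R : Type*} [CommRing R] [CharP R p] (x : R) :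
    ∑ k ∈ Finset.range p, (x + (k : R)) ^ (p - 1) = -1 := by
  have hp2 := hp.out.two_le
  have e1 : ∀ k : ℕ, (x + (k : R)) ^ (p - 1) =
      ∑ m ∈ Finset.range (p - 1 + 1), x ^ m * (k : R) ^ (p - 1 - m) * ((p - 1).choose m : R) := fun k => add_pow _ _ _
  rw [Finset.sum_congr rfl fun k _ => e1 k, Finset.sum_comm]
  rw [Finset.sum_range_succ']
  have e2 : ∀ m ∈ Finset.range (p - 1), ∑ k ∈ Finset.range p, x ^ (m + 1) * (k : R) ^ (p - 1 - (m + 1)) *
      ((p - 1).choose (m + 1) : R) = 0 := by
    intro m hm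
    have hm' := Finset.mem_range.1 hm
    have e3 : ∑ k ∈ Finset.range p, x ^ (m + 1) * (k : R) ^ (p - 1 - (m + 1)) * ((p - 1).choose (m + 1) : R) =
        x ^ (m + 1) * (∑ k ∈ Finset.range p, (k : R) ^ (p - 1 - (m + 1))) * ((p - 1).choose (m + 1) : R) := by
      rw [Finset.mul_sum, Finset.sum_mul]
    rw [e3, sum_range_natCast_pow_lt _ (by omega), mul_zero, zero_mul]
  rw [Finset.sum_eq_zero e2, zero_add]
  simp only [pow_zero, one_mul, Nat.choose_zero_right, Nat.cast_one, mul_one, Nat.sub_zero]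
  exact sum_range_natCast_pow_top

variable {F A : Type*} [Field F] [Ring A] [Algebra F A] {p : ℕ} [hp : Fact p.Prime] [CharP F p]

/-- The subspace data for the Artin-Schreier splitting: `B` is a subspace closed under products, on which
`j` is the identity. -/
structure ASData (σ : A →ₐ[F] A) (j : A) (B : Submodule F A) : Prop where
  hj : j * j = j
  hσj : σ j = j
  hjB : j ∈ B
  hmul : ∀ a ∈ B, ∀ b ∈ B, a * b ∈ B
  hl : ∀ a ∈ B, j * a = a
  hr : ∀ a ∈ B, a * j = a
  hσ : ∀ a ∈ B, σ a ∈ B
  hσp : ∀ a ∈ B, σ^[p] a = a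

variable {σ : A →ₐ[F] A} {j : A} {B : Submodule F A}

theorem ASData.pow_mem (d : ASData (p := p) σ j B) {a : A} (ha : a ∈ B) (n : ℕ) : a ^ (n + 1) ∈ B := by
  induction n with
  | zero => simpa using ha
  | succ n ih => rw [pow_succ]; exact d.hmul _ ih _ ha

theorem ASData.commute_j (d : ASData (p := p) σ j B) {a : A} (ha : a ∈ B) : Commute a j := by
  show a * j = j * a
  rw [d.hr a ha, d.hl a ha]

/-- The Artin-Schreier element. -/
theorem as_theta [IsAlgClosed F] [CharP A p] (d : ASData (p := p) σ j B) {b : A} (hb : b ∈ B)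
    (hsum : ∑ k ∈ Finset.range p, σ^[k] b = j)
    (hloc : ∀ y ∈ B, σ y = y → ∃ c : F, IsNilpotent (y - c • j)) :
    ∃ θ ∈ B, σ θ = θ + j ∧ θ ^ p = θ := by
  classical
  have hp1 : 1 ≤ p := hp.out.one_lt.le
  obtain ⟨q, hq⟩ : ∃ q, p = q + 1 := ⟨p - 1, by omega⟩
  have hiter : ∀ k, σ^[k] b ∈ B := by
    intro k
    induction k with
    | zero => simpa using hb
    | succ k ih => rw [Function.iterate_succ_apply']; exact d.hσ _ ih
  -- first approximation
  set θ₀ : A := -∑ k ∈ Finset.range p, (k : F) • σ^[k] b with hθ₀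
  have hθ₀B : θ₀ ∈ B := by
    refine B.neg_mem (B.sum_mem fun k _ => B.smul_mem _ (hiter k))
  have hσθ₀ : σ θ₀ = θ₀ + j := by
    have e1 : σ θ₀ = -∑ k ∈ Finset.range p, (k : F) • σ^[k + 1] b := by
      rw [hθ₀, map_neg, map_sum]
      congr 1
      refine Finset.sum_congr rfl fun k _ => ?_
      rw [map_smul, Function.iterate_succ_apply']
    have e2 : ∑ k ∈ Finset.range p, ((k : F)) • σ^[k + 1] b =
        ∑ k ∈ Finset.range p, ((k : F) - 1) • σ^[k] b := by
      have e3 := Finset.sum_range_succ' (fun k => ((k : F) - 1) • σ^[k] b) p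
      have e4 := Finset.sum_range_succ (fun k => ((k : F) - 1) • σ^[k] b) p
      have e5 : σ^[p] b = b := d.hσp b hb
      have e6 : ((p : ℕ) : F) = 0 := CharP.cast_eq_zero F p
      simp only [Nat.cast_add, Nat.cast_one, add_sub_cancel_right, Nat.cast_zero, zero_sub, neg_smul, one_smul,
        Function.iterate_zero, id_eq] at e3
      rw [e3, e5, e6] at e4
      simp only [zero_sub, neg_smul, one_smul] at e4
      have e7 : ∑ k ∈ Finset.range p, ((k : F)) • σ^[k + 1] b + -b + b =
          ∑ k ∈ Finset.range p, ((k : F) - 1) • σ^[k] b + -b + b := by rw [e4]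
      simpa using e7
    have e8 : ∑ k ∈ Finset.range p, ((k : F) - 1) • σ^[k] b =
        ∑ k ∈ Finset.range p, (k : F) • σ^[k] b - ∑ k ∈ Finset.range p, σ^[k] b := by
      rw [← Finset.sum_sub_distrib]
      refine Finset.sum_congr rfl fun k _ => ?_
      rw [sub_smul, one_smul]
    rw [e1, e2, e8, hθ₀, hsum]
    abel
  have hcθ₀ : Commute θ₀ j := d.commute_j hθ₀B
  have hjp : j ^ p = j := by
    rw [hq]
    exact IsIdempotentElem.pow_succ_eq q d.hj
  have hθ₀p : θ₀ ^ p ∈ B := by
    rw [hq]
    exact d.pow_mem hθ₀B q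
  have hσw : σ (θ₀ ^ p - θ₀) = θ₀ ^ p - θ₀ := by
    rw [map_sub, map_pow, hσθ₀, add_pow_char_of_commute p hcθ₀, hjp]
    abel
  obtain ⟨c, hc⟩ := hloc _ (B.sub_mem hθ₀p hθ₀B) hσw
  -- the constant
  obtain ⟨γ, hγ⟩ : ∃ γ : F, γ ^ p - γ = c := by
    have hdeg : (X ^ p + (-(X + C c)) : F[X]).degree = p := by
      rw [degree_add_eq_left_of_degree_lt, degree_X_pow]
      rw [degree_neg, degree_X_add_C, degree_X_pow]
      exact_mod_cast hp.out.one_lt
    have hne : (X ^ p + (-(X + C c)) : F[X]).degree ≠ 0 := by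
      rw [hdeg]
      exact_mod_cast hp.out.ne_zero
    obtain ⟨γ, hγ⟩ := IsAlgClosed.exists_root _ hne
    refine ⟨γ, ?_⟩
    have := hγ
    simp only [IsRoot.def, eval_add, eval_pow, eval_X, eval_neg, eval_C] at this
    linear_combination this
  set θ₁ : A := θ₀ - γ • j with hθ₁
  have hjB' : γ • j ∈ B := B.smul_mem _ d.hjB
  have hθ₁B : θ₁ ∈ B := B.sub_mem hθ₀B hjB'
  have hσθ₁ : σ θ₁ = θ₁ + j := by
    rw [hθ₁, map_sub, map_smul, d.hσj, hσθ₀]
    abel
  have hcθ₁ : Commute θ₁ j := d.commute_j hθ₁B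
  have hcγ : Commute θ₀ (γ • j) := hcθ₀.smul_right γ
  set w : A := θ₁ ^ p - θ₁ with hw
  have hwc : w = (θ₀ ^ p - θ₀) - c • j := by
    rw [hw, hθ₁, sub_pow_char_of_commute p hcγ, _root_.smul_pow, hjp, ← hγ, sub_smul]
    abel
  have hwn : IsNilpotent w := by
    rw [hwc]
    exact hc
  have hσw' : σ w = w := by
    rw [hw, map_sub, map_pow, hσθ₁, add_pow_char_of_commute p hcθ₁, hjp]
    abel
  have hcw : Commute θ₁ w := by
    rw [hw]
    exact ((Commute.refl θ₁).pow_right p).sub_right (Commute.refl θ₁)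
  obtain ⟨s, hs⟩ := hwn
  set g : A := ∑ m ∈ Finset.range s, w ^ (p ^ m) with hg
  have hppos : ∀ m, ∃ t, p ^ m = t + 1 := by
    intro m
    have := Nat.pos_of_ne_zero (pow_ne_zero m hp.out.ne_zero)
    exact ⟨p ^ m - 1, by omega⟩
  have hwB : w ∈ B := by
    rw [hw]
    exact B.sub_mem (by rw [hq]; exact d.pow_mem hθ₁B q) hθ₁B
  have hgB : g ∈ B := by
    refine B.sum_mem fun m _ => ?_
    obtain ⟨t, ht⟩ := hppos m
    rw [ht]
    exact d.pow_mem hwB t
  have hσg : σ g = g := by
    rw [hg, map_sum]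
    refine Finset.sum_congr rfl fun m _ => ?_
    rw [map_pow, hσw']
  have hcg : Commute θ₁ g := by
    rw [hg]
    exact Commute.sum_right _ _ _ fun m _ => hcw.pow_right _
  have hgpow : ∀ N : ℕ, (∑ m ∈ Finset.range N, w ^ (p ^ m)) ^ p = ∑ m ∈ Finset.range N, w ^ (p ^ (m + 1)) := by
    intro N
    induction N with
    | zero => simp [hp.out.ne_zero]
    | succ N ih =>
      rw [Finset.sum_range_succ, Finset.sum_range_succ, add_pow_char_of_commute p, ih, ← pow_mul, ← pow_succ]
      exact Commute.sum_left _ _ _ fun m _ => (Commute.refl w).pow_pow _ _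
  refine ⟨θ₁ + g, B.add_mem hθ₁B hgB, ?_, ?_⟩
  · rw [map_add, hσθ₁, hσg]
    abel
  · rw [add_pow_char_of_commute p hcg, hg, hgpow]
    have e1 : ∑ m ∈ Finset.range s, w ^ (p ^ (m + 1)) - ∑ m ∈ Finset.range s, w ^ (p ^ m) = w ^ (p ^ s) - w ^ (p ^ 0) := by
      rw [← Finset.sum_sub_distrib]
      exact Finset.sum_range_sub (fun m => w ^ (p ^ m)) s
    have e2 : w ^ (p ^ s) = 0 := pow_eq_zero_of_le (Nat.lt_pow_self hp.out.one_lt).le hs
    rw [e2, pow_zero, pow_one] at e1
    have e3 : θ₁ ^ p = w + θ₁ := by rw [hw]; abel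
    rw [e3]
    have e4 : ∑ m ∈ Finset.range s, w ^ (p ^ (m + 1)) = ∑ m ∈ Finset.range s, w ^ (p ^ m) + (0 - w) := by
      rw [← e1]
      abel
    rw [e4]
    abel

/-- The orthogonal idempotents attached to the Artin-Schreier element. -/
theorem as_idem [CharP A p] (d : ASData (p := p) σ j B) {θ : A} (hθ : θ ∈ B) (h1 : σ θ = θ + j) (h2 : θ ^ p = θ) :
    ∃ i ∈ B, i * i = i ∧ (∀ k < p, ∀ l < p, k ≠ l → σ^[k] i * σ^[l] i = 0) ∧
      ∑ k ∈ Finset.range p, σ^[k] i = j := by
  have hp2 := hp.out.two_le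
  obtain ⟨q, hq⟩ : ∃ q, p - 1 = q + 1 := ⟨p - 2, by omega⟩
  have hpq : p = q + 2 := by omega
  set i : A := j - θ ^ (p - 1) with hi
  have hθp1 : θ ^ (p - 1) ∈ B := by
    rw [hq]
    exact d.pow_mem hθ q
  have hiB : i ∈ B := B.sub_mem d.hjB hθp1
  have hiθ : i * θ = 0 := by
    rw [hi, sub_mul, d.hl θ hθ, ← pow_succ, show p - 1 + 1 = p by omega, h2, sub_self]
  have hiθp : i * θ ^ (p - 1) = 0 := by
    rw [hq, pow_succ', ← mul_assoc, hiθ, zero_mul]
  have hii : i * i = i := by
    conv_lhs => rw [hi, mul_sub]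
    rw [hiθp, sub_zero, d.hr i hiB]
  -- iterates
  have hitθ : ∀ k : ℕ, σ^[k] θ = θ + (k : F) • j := by
    intro k
    induction k with
    | zero => simp
    | succ k ih =>
      rw [Function.iterate_succ_apply', ih, map_add, h1, map_smul, d.hσj, Nat.cast_succ, add_smul, one_smul]
      abel
  have hitj : ∀ k : ℕ, σ^[k] j = j := by
    intro k
    induction k with
    | zero => rfl
    | succ k ih => rw [Function.iterate_succ_apply', ih, d.hσj]
  have hitB : ∀ k : ℕ, ∀ a ∈ B, σ^[k] a ∈ B := by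
    intro k
    induction k with
    | zero => intro a ha; simpa using ha
    | succ k ih => intro a ha; rw [Function.iterate_succ_apply']; exact d.hσ _ (ih a ha)
  have hitmul : ∀ k : ℕ, ∀ a b : A, σ^[k] (a * b) = σ^[k] a * σ^[k] b := fun k a b => iterate_map_mul σ k a b
  have hitpow : ∀ k n : ℕ, ∀ a : A, σ^[k] (a ^ n) = (σ^[k] a) ^ n := by
    intro k n a
    induction k with
    | zero => rfl
    | succ k ih => rw [Function.iterate_succ_apply', ih, map_pow, ← Function.iterate_succ_apply' σ]
  have hiti : ∀ k : ℕ, σ^[k] i = j - (θ + (k : F) • j) ^ (p - 1) := by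
    intro k
    rw [hi, iterate_map_sub, hitj, hitpow, hitθ]
  have hcomm1 : ∀ k : ℕ, Commute θ (θ + (k : F) • j) := fun k =>
    (Commute.refl θ).add_right ((d.commute_j hθ).smul_right _)
  have hcommj : ∀ k : ℕ, Commute j (θ + (k : F) • j) := fun k =>
    (d.commute_j hθ).symm.add_right ((Commute.refl j).smul_right _)
  have hcommθi : ∀ k : ℕ, Commute (σ^[k] i) θ := by
    intro k
    rw [hiti]
    exact (d.commute_j hθ).symm.sub_left ((hcomm1 k).symm.pow_left _)
  have hcommii : ∀ k l : ℕ, Commute (σ^[k] i) (σ^[l] i) := by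
    intro k l
    rw [hiti, hiti]
    refine Commute.sub_left (Commute.sub_right (Commute.refl j) ((hcommj l).pow_right _)) ?_
    refine Commute.sub_right ((hcommj k).symm.pow_left _) ?_
    refine Commute.pow_pow ?_ _ _
    exact (hcomm1 l).add_left ((hcommj l).smul_left _)
  have hact : ∀ k : ℕ, σ^[k] i * θ = -((k : F) • σ^[k] i) := by
    intro k
    have e1 : σ^[k] i * σ^[k] θ = 0 := by
      rw [← hitmul, hiθ, iterate_map_zero]
    rw [hitθ, mul_add, mul_smul_comm, d.hr _ (hitB k i hiB)] at e1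
    exact eq_neg_of_add_eq_zero_left e1
  refine ⟨i, hiB, hii, ?_, ?_⟩
  · intro k hk l hl hkl
    set X := σ^[k] i * σ^[l] i with hX
    have e1 : X * θ = -((l : F) • X) := by
      rw [hX, mul_assoc, hact, mul_neg, mul_smul_comm]
    have e2 : X * θ = -((k : F) • X) := by
      rw [hX, (hcommii k l).eq, mul_assoc, hact, mul_neg, mul_smul_comm]
    have hne : (k : F) - (l : F) ≠ 0 := by
      rw [sub_ne_zero]
      intro h
      have := (CharP.natCast_eq_natCast F p).1 h
      exact hkl (Nat.ModEq.eq_of_lt_of_lt this hk hl)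
    have e3 : ((k : F) - (l : F)) • X = 0 := by
      rw [sub_smul]
      have := e1.symm.trans e2
      have h3 := neg_inj.1 this
      rw [h3, sub_self]
    exact (smul_eq_zero.1 e3).resolve_left hne
  · have hpoly := sum_add_natCast_pow (p := p) (R := F[X]) X
    have h3 := congrArg (aeval θ) hpoly
    simp only [map_sum, map_pow, map_add, aeval_X, map_natCast, map_neg, map_one] at h3
    have h4 : ∀ k : ℕ, j * (θ + (k : A)) ^ (p - 1) = (θ + (k : F) • j) ^ (p - 1) := by
      intro k
      have e1 : j * (θ + (k : A)) = θ + (k : F) • j := by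
        rw [mul_add, d.hl θ hθ]
        congr 1
        rw [Nat.cast_smul_eq_nsmul, nsmul_eq_mul, Nat.cast_comm]
      have hc : Commute j (θ + (k : A)) := (d.commute_j hθ).symm.add_right (Nat.cast_commute k j).symm
      rw [← e1, hc.mul_pow, hq, IsIdempotentElem.pow_succ_eq q d.hj]
    have h5 : ∑ k ∈ Finset.range p, (θ + (k : F) • j) ^ (p - 1) = -j := by
      rw [Finset.sum_congr rfl fun k _ => (h4 k).symm, ← Finset.mul_sum, h3]
      simp
    rw [Finset.sum_congr rfl fun k _ => hiti k, Finset.sum_sub_distrib, h5, Finset.sum_const, Finset.card_range,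
      ← Nat.cast_smul_eq_nsmul F, CharP.cast_eq_zero F p, zero_smul, zero_sub, neg_neg]

/-- Locality passes to the split idempotent. -/
theorem as_loc (d : ASData (p := p) σ j B) {i : A} (hiB : i ∈ B)
    (horth : ∀ k < p, ∀ l < p, k ≠ l → σ^[k] i * σ^[l] i = 0) (hsum : ∑ k ∈ Finset.range p, σ^[k] i = j)
    (hloc : ∀ y ∈ B, σ y = y → ∃ c : F, IsNilpotent (y - c • j))
    {y : A} (hyB : y ∈ B) (hl : i * y = y) (hr : y * i = y) : ∃ c : F, IsNilpotent (y - c • i) := by
  have hitB : ∀ k : ℕ, ∀ a ∈ B, σ^[k] a ∈ B := by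
    intro k
    induction k with
    | zero => intro a ha; simpa using ha
    | succ k ih => intro a ha; rw [Function.iterate_succ_apply']; exact d.hσ _ (ih a ha)
  have hitmul : ∀ k : ℕ, ∀ a b : A, σ^[k] (a * b) = σ^[k] a * σ^[k] b := fun k a b => iterate_map_mul σ k a b
  set T : A := ∑ k ∈ Finset.range p, σ^[k] y with hT
  have hTB : T ∈ B := B.sum_mem fun k _ => hitB k y hyB
  have hσT : σ T = T := by
    rw [hT, map_sum]
    have hp1 : 0 < p := hp.out.pos
    obtain ⟨q, hq⟩ : ∃ q, p = q + 1 := ⟨p - 1, by omega⟩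
    have e1 : ∀ k, σ (σ^[k] y) = σ^[k + 1] y := fun k => (Function.iterate_succ_apply' σ k y).symm
    simp only [e1]
    rw [hq, Finset.sum_range_succ, Finset.sum_range_succ', ← hq, d.hσp y hyB]
    simp [add_comm]
  obtain ⟨c, s, hs⟩ := hloc T hTB hσT
  have hp0 : 0 ∈ Finset.range p := Finset.mem_range.2 hp.out.pos
  have hiT : i * T = y := by
    rw [hT, Finset.mul_sum, Finset.sum_eq_single 0]
    · simpa using hl
    · intro k hk hk0
      have hk' := Finset.mem_range.1 hk
      have e1 : σ^[k] y = σ^[k] i * σ^[k] y := by rw [← hitmul, hl]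
      rw [e1, ← mul_assoc]
      have := horth 0 hp.out.pos k hk' (Ne.symm hk0)
      simp only [Function.iterate_zero, id_eq] at this
      rw [this, zero_mul]
    · intro h; exact absurd hp0 h
  have hTi : T * i = y := by
    rw [hT, Finset.sum_mul, Finset.sum_eq_single 0]
    · simpa using hr
    · intro k hk hk0
      have hk' := Finset.mem_range.1 hk
      have e1 : σ^[k] y = σ^[k] y * σ^[k] i := by rw [← hitmul, hr]
      rw [e1, mul_assoc]
      have := horth k hk' 0 hp.out.pos hk0
      simp only [Function.iterate_zero, id_eq] at this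
      rw [this, mul_zero]
    · intro h; exact absurd hp0 h
  have hcomm : Commute i (T - c • j) := by
    show i * (T - c • j) = (T - c • j) * i
    rw [mul_sub, sub_mul, hiT, hTi, mul_smul_comm, smul_mul_assoc, d.hr i hiB, d.hl i hiB]
  have hiy : y - c • i = i * (T - c • j) := by
    rw [mul_sub, hiT, mul_smul_comm, d.hr i hiB]
  have hii : i * i = i := by
    have h1 : i = σ^[0] i := rfl
    have := congrArg (fun z => i * z) hsum
    simp only [Finset.mul_sum] at this
    rw [d.hr i hiB, Finset.sum_eq_single 0] at this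
    · exact this
    · intro k hk hk0
      have := horth 0 hp.out.pos k (Finset.mem_range.1 hk) (Ne.symm hk0)
      simpa using this
    · intro h; exact absurd hp0 h
  refine ⟨c, s + 1, ?_⟩
  rw [hiy, hcomm.mul_pow, pow_succ (T - c • j), hs, zero_mul, mul_zero]

end ArtinSchreier

end Cfsg.Agent.Lib.Modular
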