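import Mathlib
import Cfsg.Agent.Lib.Modular.LocalCorner

/-!
# Green's splitting of primitive idempotents in fixed points of a `p`-group

Working inside a group algebra `F[G]` over an algebraically closed field of characteristic `p`: an idempotent `j` which
is primitive among the `H`-fixed points (`H` a `p`-subgroup), and relatively projective with respect to small
subgroups (`j = c * (a sum over an `H`-stable set of elements with small centralizer in `H`)), is the sum of an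
`H`-orbit of pairwise orthogonal idempotents with small stabilizer.
-/

set_option autoImplicit false
set_option linter.unusedSectionVars false
set_option linter.unusedSimpArgs false
set_option linter.unusedVariables false
set_option linter.style.haveILetI false
set_option linter.unnecessarySimpa false

namespace Cfsg.Agent.Lib.Modular

open Module

section Basics

variable (F : Type*) {G : Type*} [Field F] [Group G]

/-- A group element in the group algebra. -/
noncomputable abbrev gg (g : G) : MonoidAlgebra F G := MonoidAlgebra.single g 1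

theorem gg_mul (x y : G) : gg F x * gg F y = gg F (x * y) := by
  simp [gg, MonoidAlgebra.single_mul_single]

theorem gg_one : gg F (1 : G) = 1 := rfl

theorem gg_inv_mul (x : G) : gg F x⁻¹ * gg F x = 1 := by rw [gg_mul, inv_mul_cancel, gg_one]

theorem gg_mul_inv (x : G) : gg F x * gg F x⁻¹ = 1 := by rw [gg_mul, mul_inv_cancel, gg_one]

/-- Conjugation by a group element. -/
noncomputable def cj (y : G) : MonoidAlgebra F G →ₐ[F] MonoidAlgebra F G :=
  AlgHom.ofLinearMap ((LinearMap.mulLeft F (gg F y)).comp (LinearMap.mulRight F (gg F y⁻¹)))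
    (by simp [gg_mul_inv, MonoidAlgebra.one_def])
    (by
      intro a b
      simp only [LinearMap.comp_apply, LinearMap.mulLeft_apply, LinearMap.mulRight_apply]
      calc gg F y * (a * b * gg F y⁻¹) = gg F y * a * 1 * b * gg F y⁻¹ := by simp [mul_assoc]
        _ = gg F y * a * (gg F y⁻¹ * gg F y) * b * gg F y⁻¹ := by rw [gg_inv_mul]
        _ = _ := by simp only [mul_assoc])

theorem cj_apply (y : G) (a : MonoidAlgebra F G) : cj F y a = gg F y * a * gg F y⁻¹ := by
  simp [cj, mul_assoc]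

theorem cj_mul_apply (x y : G) (a : MonoidAlgebra F G) : cj F (x * y) a = cj F x (cj F y a) := by
  rw [cj_apply, cj_apply, cj_apply, mul_inv_rev, ← gg_mul, ← gg_mul]
  simp only [mul_assoc]

theorem cj_one_apply (a : MonoidAlgebra F G) : cj F (1 : G) a = a := by
  rw [cj_apply, inv_one, gg_one, one_mul, mul_one]

theorem cj_inj (y : G) : Function.Injective (cj F y) := by
  intro a b h
  have := congrArg (cj F y⁻¹) h
  rwa [← cj_mul_apply, ← cj_mul_apply, inv_mul_cancel, cj_one_apply, cj_one_apply] at this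

theorem cj_gg (y g : G) : cj F y (gg F g) = gg F (y * g * y⁻¹) := by
  rw [cj_apply, gg_mul, gg_mul]

theorem cj_iterate (h : G) (k : ℕ) (a : MonoidAlgebra F G) : (cj F h)^[k] a = cj F (h ^ k) a := by
  induction k with
  | zero => simp [cj_one_apply]
  | succ k ih => rw [Function.iterate_succ_apply', ih, pow_succ', cj_mul_apply]

/-- The elements commuting with a subgroup. -/
noncomputable def fx (S : Subgroup G) : Subalgebra F (MonoidAlgebra F G) :=
  Subalgebra.centralizer F (gg F '' (S : Set G))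

variable {F}

theorem mem_fx {S : Subgroup G} {a : MonoidAlgebra F G} : a ∈ fx F S ↔ ∀ s ∈ S, gg F s * a = a * gg F s := by
  unfold fx
  rw [Subalgebra.mem_centralizer_iff]
  constructor
  · intro h s hs
    exact h _ ⟨s, hs, rfl⟩
  · rintro h _ ⟨s, hs, rfl⟩
    exact h s hs

theorem cj_of_mem_fx {S : Subgroup G} {a : MonoidAlgebra F G} (ha : a ∈ fx F S) {s : G} (hs : s ∈ S) :
    cj F s a = a := by
  rw [cj_apply, mem_fx.1 ha s hs, mul_assoc, gg_mul_inv, mul_one]

theorem mem_fx_of_cj {S : Subgroup G} {a : MonoidAlgebra F G} (h : ∀ s ∈ S, cj F s a = a) : a ∈ fx F S := by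
  rw [mem_fx]
  intro s hs
  have := h s hs
  rw [cj_apply] at this
  calc gg F s * a = gg F s * a * (gg F s⁻¹ * gg F s) := by rw [gg_inv_mul, mul_one]
    _ = (gg F s * a * gg F s⁻¹) * gg F s := by simp only [mul_assoc]
    _ = a * gg F s := by rw [this]

theorem fx_mono {S T : Subgroup G} (h : S ≤ T) : fx F T ≤ fx F S := by
  intro a ha
  rw [mem_fx] at ha ⊢
  exact fun s hs => ha s (h hs)

/-- The stabilizer in `H` of an element of the algebra. -/
noncomputable def stabS (H : Subgroup G) (i : MonoidAlgebra F G) : Subgroup G where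
  carrier := {y | y ∈ H ∧ cj F y i = i}
  mul_mem' := by
    rintro a b ⟨ha, ha'⟩ ⟨hb, hb'⟩
    exact ⟨H.mul_mem ha hb, by rw [cj_mul_apply, hb', ha']⟩
  one_mem' := ⟨H.one_mem, cj_one_apply F i⟩
  inv_mem' := by
    rintro a ⟨ha, ha'⟩
    refine ⟨H.inv_mem ha, ?_⟩
    conv_lhs => rw [← ha']
    rw [← cj_mul_apply, inv_mul_cancel, cj_one_apply]

theorem mem_stabS {H : Subgroup G} {i : MonoidAlgebra F G} {y : G} : y ∈ stabS H i ↔ y ∈ H ∧ cj F y i = i := Iff.rfl

theorem stabS_le (H : Subgroup G) (i : MonoidAlgebra F G) : stabS H i ≤ H := fun _ h => h.1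

/-- The result of the splitting. -/
structure ChainOut (H : Subgroup G) (i j : MonoidAlgebra F G) (I : Finset (MonoidAlgebra F G)) : Prop where
  idem : i * i = i
  ne : i ≠ 0
  mem : i ∈ I
  all : ∀ a ∈ I, ∃ y ∈ H, a = cj F y i
  closed : ∀ y ∈ H, cj F y i ∈ I
  orth : ∀ a ∈ I, ∀ b ∈ I, a ≠ b → a * b = 0
  sum : ∑ a ∈ I, a = j

theorem ChainOut.idem' {H : Subgroup G} {i j : MonoidAlgebra F G} {I : Finset (MonoidAlgebra F G)}
    (h : ChainOut H i j I) {a : MonoidAlgebra F G} (ha : a ∈ I) : a * a = a := by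
  obtain ⟨y, -, rfl⟩ := h.all a ha
  rw [← map_mul, h.idem]

theorem ChainOut.ne' {H : Subgroup G} {i j : MonoidAlgebra F G} {I : Finset (MonoidAlgebra F G)}
    (h : ChainOut H i j I) {a : MonoidAlgebra F G} (ha : a ∈ I) : a ≠ 0 := by
  obtain ⟨y, -, rfl⟩ := h.all a ha
  intro h0
  apply h.ne
  apply cj_inj F y
  rw [h0, map_zero]

theorem ChainOut.mul_sum {H : Subgroup G} {i j : MonoidAlgebra F G} {I : Finset (MonoidAlgebra F G)}
    (h : ChainOut H i j I) {a : MonoidAlgebra F G} (ha : a ∈ I) : a * j = a := by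
  classical
  rw [← h.sum, Finset.mul_sum, Finset.sum_eq_single a]
  · exact h.idem' ha
  · intro b hb hne
    exact h.orth a ha b hb (Ne.symm hne)
  · intro h'
    exact absurd ha h'

theorem ChainOut.sum_mul {H : Subgroup G} {i j : MonoidAlgebra F G} {I : Finset (MonoidAlgebra F G)}
    (h : ChainOut H i j I) {a : MonoidAlgebra F G} (ha : a ∈ I) : j * a = a := by
  classical
  rw [← h.sum, Finset.sum_mul, Finset.sum_eq_single a]
  · exact h.idem' ha
  · intro b hb hne
    exact h.orth b hb a ha hne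
  · intro h'
    exact absurd ha h'

end Basics

section Groups

variable {G : Type*} [Group G]

/-- Maximal normal subgroups of a `p`-group above a proper subgroup. -/
theorem exists_max_sub {p : ℕ} [hp : Fact p.Prime] [Finite G] {H C : Subgroup G} (hH : IsPGroup p H) (hCH : C ≤ H)
    (hne : C ≠ H) : ∃ (H₁ : Subgroup G) (h : G), C ≤ H₁ ∧ H₁ ≤ H ∧ h ∈ H ∧ (∀ x ∈ H, ∀ y ∈ H₁, x * y * x⁻¹ ∈ H₁) ∧
      h ^ p ∈ H₁ ∧ (∀ u ∈ H, ∃ k < p, ∃ y ∈ H₁, u = h ^ k * y) ∧
      (∀ k < p, ∀ l < p, (h ^ k)⁻¹ * h ^ l ∈ H₁ → k = l) ∧ Nat.card H₁ < Nat.card H := by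
  classical
  obtain ⟨s, hs⟩ := IsPGroup.iff_card.1 hH
  set C' : Subgroup H := C.subgroupOf H with hC'
  have hcC : Nat.card C' = Nat.card C := Nat.card_congr (Subgroup.subgroupOfEquivOfLe hCH).toEquiv
  obtain ⟨t, ht⟩ : ∃ t, Nat.card C = p ^ t := IsPGroup.iff_card.1 (hH.to_le hCH)
  have hdvd : Nat.card C ∣ Nat.card H := Subgroup.card_dvd_of_le hCH
  have hts : t < s := by
    rw [ht, hs] at hdvd
    have hle := (Nat.pow_dvd_pow_iff_le_right hp.out.one_lt).1 hdvd
    rcases Nat.lt_or_ge t s with h | h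
    · exact h
    · exfalso
      apply hne
      apply Subgroup.eq_of_le_of_card_ge hCH
      rw [ht, hs]
      have : t = s := le_antisymm hle h
      rw [this]
  have hs0 : s ≠ 0 := by omega
  obtain ⟨s', rfl⟩ : ∃ s', s = s' + 1 := ⟨s - 1, by omega⟩
  obtain ⟨M, hM1, hM2⟩ := Sylow.exists_subgroup_card_pow_prime_le (G := H) p (n := t) (m := s')
    (by rw [hs, pow_succ]; exact Dvd.intro _ rfl) C' (by rw [hcC, ht]) (by omega)
  have hidx : M.index = p := by
    have h1 := M.card_mul_index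
    rw [hM1, hs, pow_succ] at h1
    exact Nat.eq_of_mul_eq_mul_left (pow_pos hp.out.pos s') h1
  haveI hMn : M.Normal := by
    apply Subgroup.normal_of_index_eq_minFac_card
    rw [hidx, hs, (Nat.prime_iff.1 hp.out |> fun _ => hp.out.pow_minFac (Nat.succ_ne_zero s'))]
  have hMtop : M ≠ ⊤ := by
    rintro rfl
    rw [Subgroup.index_top] at hidx
    exact hp.out.one_lt.ne hidx
  obtain ⟨h₀, hh₀⟩ := SetLike.exists_not_mem_of_ne_top M hMtop rfl
  have hQ : Nat.card (H ⧸ M) = p := by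
    rw [← hidx]
    rfl
  set q₀ : H ⧸ M := (h₀ : H ⧸ M) with hq₀
  have hq₀1 : q₀ ≠ 1 := by
    intro h
    exact hh₀ ((QuotientGroup.eq_one_iff h₀).1 h)
  have hq₀p : q₀ ^ p = 1 := by
    rw [← hQ]
    exact pow_card_eq_one'
  have hord : orderOf q₀ = p := orderOf_eq_prime hq₀p hq₀1
  have htop : ∀ x : H ⧸ M, x ∈ Subgroup.zpowers q₀ := by
    intro x
    rw [zpowers_eq_top_of_prime_card hQ hq₀1]
    trivial
  refine ⟨M.map H.subtype, (h₀ : G), ?_, ?_, h₀.2, ?_, ?_, ?_, ?_, ?_⟩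
  · intro c hc
    refine ⟨⟨c, hCH hc⟩, ?_, rfl⟩
    apply hM2
    simpa [hC', Subgroup.mem_subgroupOf] using hc
  · rintro _ ⟨y, -, rfl⟩
    exact y.2
  · rintro x hx _ ⟨y, hy, rfl⟩
    refine ⟨⟨x, hx⟩ * y * ⟨x, hx⟩⁻¹, hMn.conj_mem y hy _, ?_⟩
    simp
  · refine ⟨h₀ ^ p, ?_, by simp⟩
    rw [SetLike.mem_coe, ← QuotientGroup.eq_one_iff]
    rw [QuotientGroup.mk_pow, hq₀p]
  · intro u hu
    obtain ⟨k, hk, hk2⟩ := (Finset.mem_image.1 ((mem_zpowers_iff_mem_range_orderOf).1 (htop ((⟨u, hu⟩ : H) : H ⧸ M))))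
    rw [Finset.mem_range, hord] at hk
    have hy : (h₀ ^ k)⁻¹ * (⟨u, hu⟩ : H) ∈ M := by
      rw [← QuotientGroup.eq, QuotientGroup.mk_pow]
      exact hk2
    refine ⟨k, hk, _, ⟨_, hy, rfl⟩, ?_⟩
    simp
  · intro k hk l hl hkl
    obtain ⟨y, hy, hy2⟩ := hkl
    have hy3 : y = (h₀ ^ k)⁻¹ * h₀ ^ l := Subtype.ext (by simpa using hy2)
    rw [hy3] at hy
    have h5 : q₀ ^ k = q₀ ^ l := by
      have := QuotientGroup.eq.2 hy
      rwa [QuotientGroup.mk_pow, QuotientGroup.mk_pow] at this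
    exact pow_injOn_Iio_orderOf (by rw [Set.mem_Iio, hord]; exact hk) (by rw [Set.mem_Iio, hord]; exact hl) h5
  · rw [Subgroup.card_map_of_injective H.subtype_injective, hM1, hs]
    exact Nat.pow_lt_pow_right hp.out.one_lt (Nat.lt_succ_self s')

end Groups

section Chain

variable {F G : Type*} [Field F] [Group G] [Fintype G]

/-- The sum of a set of group elements. -/
noncomputable def oS (F : Type*) [Field F] {G : Type*} [Group G] (X : Finset G) : MonoidAlgebra F G :=
  ∑ x ∈ X, gg F x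

open Classical in
/-- The `H`-orbit of `g` under conjugation. -/
noncomputable def orbS (H : Subgroup G) (g : G) : Finset G :=
  Finset.univ.filter fun u => ∃ y ∈ H, u = y * g * y⁻¹

theorem mem_orbS {H : Subgroup G} {g u : G} : u ∈ orbS H g ↔ ∃ y ∈ H, u = y * g * y⁻¹ := by
  simp [orbS]

theorem orbS_stable (H : Subgroup G) (g : G) : ∀ u ∈ orbS H g, ∀ y ∈ H, y * u * y⁻¹ ∈ orbS H g := by
  intro u hu y hy
  obtain ⟨z, hz, rfl⟩ := mem_orbS.1 hu
  refine mem_orbS.2 ⟨y * z, H.mul_mem hy hz, ?_⟩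
  group

theorem oS_mem_fx {H : Subgroup G} {X : Finset G} (hX : ∀ g ∈ X, ∀ y ∈ H, y * g * y⁻¹ ∈ X) : oS F X ∈ fx F H := by
  rw [mem_fx]
  intro s hs
  simp only [oS, Finset.mul_sum, Finset.sum_mul, gg_mul]
  refine Finset.sum_bij (fun x _ => s * x * s⁻¹) (fun x hx => hX x hx s hs) ?_ ?_ ?_
  · intro a _ b _ h
    simpa using h
  · intro b hb
    refine ⟨s⁻¹ * b * s, ?_, by group⟩
    have := hX b hb s⁻¹ (H.inv_mem hs)
    simpa using this
  · intro a _
    congr 1
    group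

theorem cj_oS (y : G) (X : Finset G) : cj F y (oS F X) = ∑ x ∈ X, gg F (y * x * y⁻¹) := by
  simp only [oS, map_sum, cj_gg]

/-- The orbit under a subgroup of index `p`. -/
theorem orb_decomp {p : ℕ} {H H₁ : Subgroup G} {h g : G} (hle : H₁ ≤ H) (hhH : h ∈ H)
    (hC : H ⊓ Subgroup.centralizer ({g} : Set G) ≤ H₁)
    (h1 : ∀ u ∈ H, ∃ k < p, ∃ y ∈ H₁, u = h ^ k * y)
    (h2 : ∀ k < p, ∀ l < p, (h ^ k)⁻¹ * h ^ l ∈ H₁ → k = l) :
    oS F (orbS H g) = ∑ k ∈ Finset.range p, cj F (h ^ k) (oS F (orbS H₁ g)) := by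
  classical
  have e1 : ∀ k, cj F (h ^ k) (oS F (orbS H₁ g)) =
      ∑ x ∈ (orbS H₁ g).image fun x => h ^ k * x * (h ^ k)⁻¹, gg F x := by
    intro k
    rw [cj_oS, Finset.sum_image]
    intro a _ b _ hab
    simpa using hab
  simp only [e1]
  rw [← Finset.sum_biUnion]
  · unfold oS
    apply Finset.sum_congr _ fun _ _ => rfl
    ext u
    simp only [Finset.mem_biUnion, Finset.mem_image, Finset.mem_range, mem_orbS]
    constructor
    · rintro ⟨y, hy, rfl⟩
      obtain ⟨k, hk, z, hz, rfl⟩ := h1 y hy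
      refine ⟨k, hk, z * g * z⁻¹, ⟨z, hz, rfl⟩, ?_⟩
      group
    · rintro ⟨k, hk, _, ⟨z, hz, rfl⟩, rfl⟩
      refine ⟨h ^ k * z, H.mul_mem (H.pow_mem hhH k) (hle hz), ?_⟩
      group
  · intro k hk l hl hkl
    rw [Function.onFun, Finset.disjoint_left]
    intro u hu hu'
    obtain ⟨_, h3, rfl⟩ := Finset.mem_image.1 hu
    obtain ⟨y, hy, rfl⟩ := mem_orbS.1 h3
    obtain ⟨_, h4, h5⟩ := Finset.mem_image.1 hu'
    obtain ⟨z, hz, rfl⟩ := mem_orbS.1 h4
    apply hkl
    apply h2 k (Finset.mem_coe.1 hk |> Finset.mem_range.1) l (Finset.mem_coe.1 hl |> Finset.mem_range.1)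
    have h6 : y⁻¹ * ((h ^ k)⁻¹ * h ^ l) * z ∈ H ⊓ Subgroup.centralizer ({g} : Set G) := by
      refine ⟨?_, ?_⟩
      · exact H.mul_mem (H.mul_mem (H.inv_mem (hle hy)) (H.mul_mem (H.inv_mem (H.pow_mem hhH k)) (H.pow_mem hhH l))) (hle hz)
      · show _ ∈ Subgroup.centralizer ({g} : Set G)
        rw [Subgroup.mem_centralizer_singleton_iff]
        have : (h ^ l * z) * g * (h ^ l * z)⁻¹ = (h ^ k * y) * g * (h ^ k * y)⁻¹ := by
          simpa [mul_assoc] using h5
        have h7 : (y⁻¹ * ((h ^ k)⁻¹ * h ^ l) * z) * g * (y⁻¹ * ((h ^ k)⁻¹ * h ^ l) * z)⁻¹ = g := by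
          have e : y⁻¹ * ((h ^ k)⁻¹ * h ^ l) * z = (h ^ k * y)⁻¹ * (h ^ l * z) := by group
          rw [e]
          generalize h ^ k * y = B at this ⊢
          generalize h ^ l * z = A at this ⊢
          calc B⁻¹ * A * g * (B⁻¹ * A)⁻¹ = B⁻¹ * (A * g * A⁻¹) * B := by group
            _ = B⁻¹ * (B * g * B⁻¹) * B := by rw [this]
            _ = g := by group
        rw [mul_inv_eq_iff_eq_mul] at h7
        exact h7
    have h8 := hC h6
    have h9 : ((h ^ k)⁻¹ * h ^ l) = y * (y⁻¹ * ((h ^ k)⁻¹ * h ^ l) * z) * z⁻¹ := by group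
    rw [h9]
    exact H₁.mul_mem (H₁.mul_mem hy h8) (H₁.inv_mem hz)

theorem oS_sdiff [DecidableEq G] {X Y : Finset G} (h : Y ⊆ X) : oS F X = oS F Y + oS F (X \ Y) := by
  classical
  unfold oS
  rw [add_comm, Finset.sum_sdiff h]

/-- Splitting into orbits. -/
theorem nil_split {H : Subgroup G} {j c : MonoidAlgebra F G} (hj : j * j = j) (hjH : j ∈ fx F H) (hj0 : j ≠ 0)
    (hl : IsLoc (fx F H) j) (hc : c ∈ fx F H) :
    ∀ (n : ℕ) (X : Finset G), X.card = n → (∀ g ∈ X, ∀ y ∈ H, y * g * y⁻¹ ∈ X) →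
      (∀ g ∈ X, IsNilpotent (j * c * oS F (orbS H g) * j)) → IsNilpotent (j * c * oS F X * j) := by
  classical
  intro n
  induction n using Nat.strong_induction_on with
  | _ n ih =>
    intro X hn hX hnil
    rcases X.eq_empty_or_nonempty with rfl | ⟨g, hg⟩
    · simp [oS]
    · have hsub : orbS H g ⊆ X := by
        intro u hu
        obtain ⟨y, hy, rfl⟩ := mem_orbS.1 hu
        exact hX g hg y hy
      have hX' : ∀ u ∈ X \ orbS H g, ∀ y ∈ H, y * u * y⁻¹ ∈ X \ orbS H g := by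
        intro u hu y hy
        rw [Finset.mem_sdiff] at hu ⊢
        refine ⟨hX u hu.1 y hy, fun h => hu.2 ?_⟩
        have := orbS_stable H g _ h y⁻¹ (H.inv_mem hy)
        simpa [mul_assoc] using this
      have hcard : (X \ orbS H g).card < n := by
        rw [← hn]
        apply Finset.card_lt_card
        refine ⟨Finset.sdiff_subset, fun h => ?_⟩
        have hgg : g ∈ orbS H g := mem_orbS.2 ⟨1, H.one_mem, by simp⟩
        exact (Finset.mem_sdiff.1 (h hg)).2 hgg
      have h1 := ih _ hcard _ rfl hX' (fun u hu => hnil u (Finset.mem_sdiff.1 hu).1)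
      have h2 := hnil g hg
      rw [oS_sdiff hsub, mul_add, add_mul]
      have hcor : ∀ Y : Finset G, (∀ u ∈ Y, ∀ y ∈ H, y * u * y⁻¹ ∈ Y) → IsCor (fx F H) j (j * c * oS F Y * j) := by
        intro Y hY
        refine ⟨(fx F H).mul_mem ((fx F H).mul_mem ((fx F H).mul_mem hjH hc) (oS_mem_fx hY)) hjH, ?_, ?_⟩
        · simp only [← mul_assoc, hj]
        · rw [mul_assoc _ j j, hj]
      exact loc_nil_add hj hjH hj0 hl (hcor _ (orbS_stable H g)) (hcor _ hX') h2 h1

/-- **Green's splitting.** -/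
theorem chain {p : ℕ} [hp : Fact p.Prime] [CharP F p] [IsAlgClosed F] (m : ℕ) :
    ∀ (n : ℕ) (H : Subgroup G) (j c : MonoidAlgebra F G) (X : Finset G), Nat.card H = n → IsPGroup p H →
      j * j = j → j ≠ 0 → j ∈ fx F H → IsLoc (fx F H) j → c ∈ fx F H →
      (∀ g ∈ X, ∀ y ∈ H, y * g * y⁻¹ ∈ X) →
      (∀ g ∈ X, Nat.card (H ⊓ Subgroup.centralizer ({g} : Set G) : Subgroup G) ≤ m) → j = c * oS F X →
      ∃ (i : MonoidAlgebra F G) (I : Finset (MonoidAlgebra F G)), ChainOut H i j I ∧ Nat.card (stabS H i) ≤ m := by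
  classical
  haveI : Nontrivial (MonoidAlgebra F G) := inferInstance
  haveI hcharA : CharP (MonoidAlgebra F G) p := charP_of_injective_algebraMap (algebraMap F (MonoidAlgebra F G)).injective p
  intro n
  induction n using Nat.strong_induction_on with
  | _ n ih =>
    intro H j c X hn hH hj hj0 hjH hl hc hX hXm hjeq
    by_cases hnm : n ≤ m
    · refine ⟨j, {j}, ?_, ?_⟩
      · refine ⟨hj, hj0, Finset.mem_singleton_self j, ?_, ?_, ?_, ?_⟩
        · intro a ha
          rw [Finset.mem_singleton] at ha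
          exact ⟨1, H.one_mem, by rw [ha, cj_one_apply]⟩
        · intro y hy
          rw [cj_of_mem_fx hjH hy]
          exact Finset.mem_singleton_self j
        · intro a ha b hb hab
          rw [Finset.mem_singleton] at ha hb
          exact absurd (ha.trans hb.symm) hab
        · simp
      · calc Nat.card (stabS H j) ≤ Nat.card H := Subgroup.card_le_of_le (stabS_le H j)
          _ = n := hn
          _ ≤ m := hnm
    push_neg at hnm
    -- a single orbit
    have hexg : ∃ g ∈ X, ¬ IsNilpotent (j * c * oS F (orbS H g) * j) := by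
      by_contra hcon
      push_neg at hcon
      have h1 := nil_split hj hjH hj0 hl hc _ X rfl hX hcon
      have h2 : j * c * oS F X * j = j := by
        rw [mul_assoc j c, ← hjeq, hj, hj]
      rw [h2] at h1
      exact hj0 (idem_of_nil_eq_zero hj h1)
    obtain ⟨g, hgX, hgn⟩ := hexg
    have hΩ : ∀ u ∈ orbS H g, ∀ y ∈ H, y * u * y⁻¹ ∈ orbS H g := orbS_stable H g
    have hycor : IsCor (fx F H) j (j * c * oS F (orbS H g) * j) := by
      refine ⟨(fx F H).mul_mem ((fx F H).mul_mem ((fx F H).mul_mem hjH hc) (oS_mem_fx hΩ)) hjH, ?_, ?_⟩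
      · simp only [← mul_assoc, hj]
      · rw [mul_assoc _ j j, hj]
    obtain ⟨y', hy', hy'1, -⟩ := loc_inv_of_not_nil hj hjH hl hycor hgn
    set c₁ : MonoidAlgebra F G := y' * j * c with hc₁
    have hc₁H : c₁ ∈ fx F H := (fx F H).mul_mem ((fx F H).mul_mem hy'.1 hjH) hc
    have hjc₁ : j * c₁ = c₁ := by rw [hc₁, ← mul_assoc, ← mul_assoc, hy'.2.1]
    have hj1 : j = c₁ * oS F (orbS H g) * j := by
      calc j = y' * (j * c * oS F (orbS H g) * j) := hy'1.symm
        _ = c₁ * oS F (orbS H g) * j := by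
          rw [hc₁]
          simp only [mul_assoc]
    -- the subgroup
    have hCne : H ⊓ Subgroup.centralizer ({g} : Set G) ≠ H := by
      intro h
      have := hXm g hgX
      rw [h, hn] at this
      omega
    obtain ⟨H₁, h, hCH₁, hH₁H, hhH, hnorm, hhp, hcov, hdisj, hcard⟩ := exists_max_sub hH inf_le_left hCne
    have hH₁p : IsPGroup p H₁ := hH.to_le hH₁H
    have hconj : ∀ s ∈ H₁, h⁻¹ * s * h ∈ H₁ := by
      intro s hs
      have := hnorm h⁻¹ (H.inv_mem hhH) s hs
      simpa using this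
    have hpow : ∀ k, h ^ k ∈ H := fun k => H.pow_mem hhH k
    have hfxH₁ : fx F H ≤ fx F H₁ := fx_mono hH₁H
    set σ : MonoidAlgebra F G →ₐ[F] MonoidAlgebra F G := cj F h with hσ
    have hσit : ∀ (k : ℕ) a, σ^[k] a = cj F (h ^ k) a := fun k a => cj_iterate F h k a
    -- the corner
    let B : Submodule F (MonoidAlgebra F G) :=
      { carrier := {a | IsCor (fx F H₁) j a}
        add_mem' := fun ha hb => IsCor.add ha hb
        zero_mem' := ⟨(fx F H₁).zero_mem, by simp, by simp⟩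
        smul_mem' := fun c _ ha => IsCor.smul c ha }
    have hσB : ∀ a ∈ B, σ a ∈ B := by
      intro a ha
      have hσj : σ j = j := cj_of_mem_fx hjH hhH
      refine ⟨mem_fx_of_cj fun s hs => ?_, ?_, ?_⟩
      · rw [hσ, ← cj_mul_apply]
        have : s * h = h * (h⁻¹ * s * h) := by group
        rw [this, cj_mul_apply, cj_of_mem_fx ha.1 (hconj s hs)]
      · conv_lhs => rw [← hσj]
        rw [← map_mul, ha.2.1]
      · conv_lhs => rw [← hσj]
        rw [← map_mul, ha.2.2]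
    have d : ASData (p := p) σ j B :=
      { hj := hj
        hσj := cj_of_mem_fx hjH hhH
        hjB := isCor_self hj (hfxH₁ hjH)
        hmul := fun a ha b hb => IsCor.mul ha hb
        hl := fun a ha => ha.2.1
        hr := fun a ha => ha.2.2
        hσ := hσB
        hσp := fun a ha => by rw [hσit]; exact cj_of_mem_fx ha.1 hhp }
    have hlocB : ∀ y ∈ B, σ y = y → ∃ c : F, IsNilpotent (y - c • j) := by
      intro y hyB hσy
      apply hl
      refine ⟨mem_fx_of_cj fun u hu => ?_, hyB.2.1, hyB.2.2⟩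
      obtain ⟨k, hk, z, hz, rfl⟩ := hcov u hu
      rw [cj_mul_apply, cj_of_mem_fx hyB.1 hz, ← hσit]
      exact Function.iterate_fixed hσy k
    set b : MonoidAlgebra F G := c₁ * oS F (orbS H₁ g) * j with hb
    have hbB : b ∈ B := by
      have hΩ₁ : ∀ u ∈ orbS H₁ g, ∀ y ∈ H₁, y * u * y⁻¹ ∈ orbS H₁ g := orbS_stable H₁ g
      refine ⟨(fx F H₁).mul_mem ((fx F H₁).mul_mem (hfxH₁ hc₁H) (oS_mem_fx hΩ₁)) (hfxH₁ hjH), ?_, ?_⟩
      · rw [hb, ← mul_assoc, ← mul_assoc, hjc₁]
      · rw [hb, mul_assoc _ j j, hj]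
    have hbsum : ∑ k ∈ Finset.range p, σ^[k] b = j := by
      have e1 : ∀ k, σ^[k] b = c₁ * cj F (h ^ k) (oS F (orbS H₁ g)) * j := by
        intro k
        rw [hσit, hb, map_mul, map_mul, cj_of_mem_fx hc₁H (hpow k), cj_of_mem_fx hjH (hpow k)]
      simp only [e1]
      rw [← Finset.sum_mul, ← Finset.mul_sum, ← orb_decomp hH₁H hhH hCH₁ hcov hdisj]
      exact hj1.symm
    obtain ⟨θ, hθB, hθ1, hθ2⟩ := as_theta d hbB hbsum hlocB
    obtain ⟨i₀, hi₀B, hi₀i₀, hi₀orth, hi₀sum⟩ := as_idem d hθB hθ1 hθ2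
    have hi₀0 : i₀ ≠ 0 := by
      rintro rfl
      apply hj0
      rw [← hi₀sum]
      refine Finset.sum_eq_zero fun k _ => ?_
      rw [hσit, map_zero]
    have hi₀loc : IsLoc (fx F H₁) i₀ := by
      intro y hy
      have hyB : y ∈ B := by
        refine ⟨hy.1, ?_, ?_⟩
        · rw [← hy.2.1, ← mul_assoc, hi₀B.2.1]
        · rw [← hy.2.2, mul_assoc, hi₀B.2.2]
      exact as_loc d hi₀B hi₀orth hi₀sum hlocB hyB hy.2.1 hy.2.2
    have hc' : i₀ * c ∈ fx F H₁ := (fx F H₁).mul_mem hi₀B.1 (hfxH₁ hc)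
    have hXH₁ : ∀ g ∈ X, ∀ y ∈ H₁, y * g * y⁻¹ ∈ X := fun g hg y hy => hX g hg y (hH₁H hy)
    have hXm₁ : ∀ g ∈ X, Nat.card (H₁ ⊓ Subgroup.centralizer ({g} : Set G) : Subgroup G) ≤ m := by
      intro g hg
      refine le_trans (Subgroup.card_le_of_le ?_) (hXm g hg)
      exact inf_le_inf_right _ hH₁H
    have hi₀eq : i₀ = i₀ * c * oS F X := by
      rw [mul_assoc, ← hjeq, hi₀B.2.2]
    obtain ⟨i, I₁, hI₁, hst⟩ := ih (Nat.card H₁) (by rw [← hn]; exact hcard) H₁ i₀ (i₀ * c) X rfl hH₁p hi₀i₀ hi₀0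
      hi₀B.1 hi₀loc hc' hXH₁ hXm₁ hi₀eq
    -- orthogonality across different levels
    have hcross : ∀ k < p, ∀ l < p, k ≠ l → ∀ a ∈ I₁, ∀ b' ∈ I₁, cj F (h ^ k) a * cj F (h ^ l) b' = 0 := by
      intro k hk l hl hkl a ha b' hb'
      have e1 : cj F (h ^ k) a = cj F (h ^ k) a * cj F (h ^ k) i₀ := by
        rw [← map_mul, hI₁.mul_sum ha]
      have e2 : cj F (h ^ l) b' = cj F (h ^ l) i₀ * cj F (h ^ l) b' := by
        rw [← map_mul, hI₁.sum_mul hb']
      rw [e1, e2, mul_assoc, ← mul_assoc (cj F (h ^ k) i₀)]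
      have := hi₀orth k hk l hl hkl
      rw [hσit, hσit] at this
      rw [this, zero_mul, mul_zero]
    have hne_a : ∀ k, ∀ a ∈ I₁, cj F (h ^ k) a ≠ 0 := by
      intro k a ha h0
      apply hI₁.ne' ha
      apply cj_inj F (h ^ k)
      rw [h0, map_zero]
    have hidem_a : ∀ k, ∀ a ∈ I₁, cj F (h ^ k) a * cj F (h ^ k) a = cj F (h ^ k) a := by
      intro k a ha
      rw [← map_mul, hI₁.idem' ha]
    have hlev : ∀ k < p, ∀ l < p, ∀ a ∈ I₁, ∀ b' ∈ I₁, cj F (h ^ k) a = cj F (h ^ l) b' → k = l := by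
      intro k hk l hl a ha b' hb' he
      by_contra hkl
      have h0 := hcross k hk l hl hkl a ha b' hb'
      rw [← he, hidem_a k a ha] at h0
      exact hne_a k a ha h0
    have hp0 : 0 < p := hp.out.pos
    set I : Finset (MonoidAlgebra F G) := (Finset.range p).biUnion fun k => I₁.image (cj F (h ^ k)) with hI
    have hmemI : ∀ a, a ∈ I ↔ ∃ k < p, ∃ a₁ ∈ I₁, a = cj F (h ^ k) a₁ := by
      intro a
      simp only [hI, Finset.mem_biUnion, Finset.mem_image, Finset.mem_range]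
      constructor
      · rintro ⟨k, hk, a₁, ha₁, rfl⟩
        exact ⟨k, hk, a₁, ha₁, rfl⟩
      · rintro ⟨k, hk, a₁, ha₁, rfl⟩
        exact ⟨k, hk, a₁, ha₁, rfl⟩
    refine ⟨i, I, ⟨hI₁.idem, hI₁.ne, ?_, ?_, ?_, ?_, ?_⟩, ?_⟩
    · rw [hmemI]
      exact ⟨0, hp0, i, hI₁.mem, by simp [cj_one_apply]⟩
    · intro a ha
      obtain ⟨k, hk, a₁, ha₁, rfl⟩ := (hmemI a).1 ha
      obtain ⟨z, hz, rfl⟩ := hI₁.all a₁ ha₁
      exact ⟨h ^ k * z, H.mul_mem (hpow k) (hH₁H hz), by rw [cj_mul_apply]⟩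
    · intro u hu
      obtain ⟨k, hk, z, hz, rfl⟩ := hcov u hu
      rw [hmemI]
      exact ⟨k, hk, cj F z i, hI₁.closed z hz, by rw [cj_mul_apply]⟩
    · intro a ha b' hb' hab
      obtain ⟨k, hk, a₁, ha₁, rfl⟩ := (hmemI a).1 ha
      obtain ⟨l, hl', b₁, hb₁, rfl⟩ := (hmemI b').1 hb'
      by_cases hkl : k = l
      · subst hkl
        have hne : a₁ ≠ b₁ := fun h' => hab (by rw [h'])
        rw [← map_mul, hI₁.orth a₁ ha₁ b₁ hb₁ hne, map_zero]
      · exact hcross k hk l hl' hkl a₁ ha₁ b₁ hb₁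
    · rw [hI, Finset.sum_biUnion]
      · have e1 : ∀ k ∈ Finset.range p, ∑ a ∈ I₁.image (cj F (h ^ k)), a = σ^[k] i₀ := by
          intro k _
          rw [Finset.sum_image (fun a _ b _ hab => cj_inj F (h ^ k) hab), hσit, ← hI₁.sum, map_sum]
        rw [Finset.sum_congr rfl e1, hi₀sum]
      · intro k hk l hl hkl
        rw [Function.onFun, Finset.disjoint_left]
        intro u hu hu'
        obtain ⟨a, ha, rfl⟩ := Finset.mem_image.1 hu
        obtain ⟨b', hb', he⟩ := Finset.mem_image.1 hu'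
        exact hkl (hlev k (Finset.mem_range.1 (Finset.mem_coe.1 hk)) l (Finset.mem_range.1 (Finset.mem_coe.1 hl)) a ha b' hb' he.symm)
    · have hle : stabS H i ≤ stabS H₁ i := by
        rintro y ⟨hy, hy'⟩
        obtain ⟨k, hk, z, hz, rfl⟩ := hcov y hy
        have e1 : cj F (h ^ k) (cj F z i) = cj F (h ^ 0) i := by
          rw [← cj_mul_apply, hy', pow_zero, cj_one_apply]
        have hk0 := hlev k hk 0 hp0 _ (hI₁.closed z hz) _ hI₁.mem e1
        subst hk0
        rw [pow_zero, one_mul] at hy' ⊢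
        exact ⟨hz, hy'⟩
      exact (Subgroup.card_le_of_le hle).trans hst

end Chain

end Cfsg.Agent.Lib.Modular
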