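import Mathlib
import Cfsg.Agent.Lib.Modular.GreenChain
import Cfsg.Agent.Lib.Block.GroupAlg

/-!
# Group algebras of `p`-subgroups inside a group algebra

`sA F S`, the elements supported on a subgroup; the augmentation; fixed vectors of `p`-groups; units of the group
algebra of a `p`-group; idempotents commuting with `R` whose corner is `F[R] i`.
-/

set_option autoImplicit false
set_option linter.unusedSectionVars false
set_option linter.unusedSimpArgs false
set_option linter.unusedVariables false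
set_option linter.style.haveILetI false
set_option linter.unnecessarySimpa false

namespace Cfsg.Agent.Lib.Modular

open Module Cfsg.Agent.Lib.Block

section SumFixed

/-- Orbit sums of invariant functions vanish in characteristic `p`, unless the orbit is a point. -/
theorem exists_fixed_of_sum_ne {p : ℕ} [hp : Fact p.Prime] {Q X F : Type*} [Group Q] [Finite Q] (hQ : IsPGroup p Q)
    [MulAction Q X] [Field F] [CharP F p] (f : X → F) (hf : ∀ (z : Q) x, f (z • x) = f x) :
    ∀ (n : ℕ) (S : Finset X), S.card = n → (∀ (z : Q), ∀ x ∈ S, z • x ∈ S) → ∑ x ∈ S, f x ≠ 0 →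
      ∃ x ∈ S, (∀ z : Q, z • x = x) ∧ f x ≠ 0 := by
  classical
  intro n
  induction n using Nat.strong_induction_on with
  | _ n ih =>
    intro S hn hS hne
    by_cases hall : ∀ x ∈ S, ∀ z : Q, z • x = x
    · obtain ⟨x, hx, hfx⟩ := Finset.exists_ne_zero_of_sum_ne_zero hne
      exact ⟨x, hx, hall x hx, hfx⟩
    push_neg at hall
    obtain ⟨a, ha, z₀, hz₀⟩ := hall
    set Ω : Finset X := S.filter fun x => x ∈ MulAction.orbit Q a with hΩ
    have hΩsub : Ω ⊆ S := Finset.filter_subset _ _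
    have hΩcoe : (Ω : Set X) = MulAction.orbit Q a := by
      ext x
      simp only [hΩ, Finset.coe_filter, Set.mem_setOf_eq]
      constructor
      · exact fun h => h.2
      · intro h
        refine ⟨?_, h⟩
        obtain ⟨z, rfl⟩ := h
        exact hS z a ha
    have hS' : ∀ z : Q, ∀ x ∈ S \ Ω, z • x ∈ S \ Ω := by
      intro z x hx
      rw [Finset.mem_sdiff] at hx ⊢
      refine ⟨hS z x hx.1, fun h => hx.2 ?_⟩
      rw [← Finset.mem_coe, hΩcoe] at h ⊢
      have h2 : x = z⁻¹ • (z • x) := by simp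
      rw [h2]
      obtain ⟨y, hy⟩ := h
      refine ⟨z⁻¹ * y, ?_⟩
      show (z⁻¹ * y) • a = z⁻¹ • z • x
      rw [mul_smul]
      exact congrArg _ hy
    have hcard : (S \ Ω).card < n := by
      rw [← hn]
      apply Finset.card_lt_card
      refine ⟨Finset.sdiff_subset, fun h => ?_⟩
      have haΩ : a ∈ Ω := by
        rw [← Finset.mem_coe, hΩcoe]
        exact MulAction.mem_orbit_self a
      exact (Finset.mem_sdiff.1 (h ha)).2 haΩ
    have hsumΩ : ∑ x ∈ Ω, f x = 0 := by
      have e1 : ∀ x ∈ Ω, f x = f a := by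
        intro x hx
        rw [← Finset.mem_coe, hΩcoe] at hx
        obtain ⟨z, rfl⟩ := hx
        exact hf z a
      rw [Finset.sum_congr rfl e1, Finset.sum_const]
      haveI : Finite (MulAction.orbit Q a) := Set.Finite.to_subtype (Set.finite_range _)
      obtain ⟨k, hk⟩ := hQ.card_orbit a
      have e2 : Ω.card = p ^ k := by
        rw [← hk, ← hΩcoe, Nat.card_coe_set_eq, Set.ncard_coe_finset]
      have hk0 : k ≠ 0 := by
        rintro rfl
        rw [pow_zero] at e2
        obtain ⟨b, hb⟩ := Finset.card_eq_one.1 e2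
        have h1 : a ∈ Ω := by
          rw [← Finset.mem_coe, hΩcoe]
          exact MulAction.mem_orbit_self a
        have h2 : z₀ • a ∈ Ω := by
          rw [← Finset.mem_coe, hΩcoe]
          exact MulAction.mem_orbit a z₀
        rw [hb, Finset.mem_singleton] at h1 h2
        exact hz₀ (h2.trans h1.symm)
      rw [e2, ← Nat.cast_smul_eq_nsmul F, Nat.cast_pow, CharP.cast_eq_zero F p, zero_pow hk0, zero_smul]
    have hne' : ∑ x ∈ S \ Ω, f x ≠ 0 := by
      rw [← Finset.sum_sdiff hΩsub, hsumΩ, add_zero] at hne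
      exact hne
    obtain ⟨x, hx, hx1, hx2⟩ := ih _ hcard _ rfl hS' hne'
    exact ⟨x, (Finset.mem_sdiff.1 hx).1, hx1, hx2⟩

end SumFixed

section Fixed

variable {F G : Type*} [Field F] [Group G] [Fintype G]

/-- The elements supported on a subgroup. -/
noncomputable def sA (F : Type*) [Field F] {G : Type*} [Group G] [Fintype G] (S : Subgroup G) :
    Subalgebra F (MonoidAlgebra F G) where
  carrier := {a | ∀ g, g ∉ S → a.coeff g = 0}
  mul_mem' := by
    intro a b ha hb g hg
    rw [coeff_mul_eq]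
    refine Finset.sum_eq_zero fun h _ => ?_
    by_cases hh : h ∈ S
    · have : h⁻¹ * g ∉ S := fun h' => hg (by
        have := S.mul_mem hh h'
        simpa using this)
      rw [hb _ this, mul_zero]
    · rw [ha _ hh, zero_mul]
  add_mem' := by
    intro a b ha hb g hg
    rw [MonoidAlgebra.coeff_add, Finsupp.add_apply, ha g hg, hb g hg, add_zero]
  algebraMap_mem' := by
    intro r g hg
    have : g ≠ 1 := fun h => hg (h ▸ S.one_mem)
    simp [MonoidAlgebra.coe_algebraMap, MonoidAlgebra.single_apply, this.symm]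

theorem mem_sA {S : Subgroup G} {a : MonoidAlgebra F G} : a ∈ sA F S ↔ ∀ g, g ∉ S → a.coeff g = 0 := Iff.rfl

theorem gg_mem_sA {S : Subgroup G} {s : G} (hs : s ∈ S) : gg F s ∈ sA F S := by
  intro g hg
  have : g ≠ s := fun h => hg (h ▸ hs)
  simp [gg, MonoidAlgebra.single_apply, this.symm]

/-- Fixed vectors of `p`-groups. -/
theorem exists_fixed_left {p : ℕ} [hp : Fact p.Prime] [CharP F p] {R : Subgroup G} (hR : IsPGroup p R)
    {W : Submodule F (MonoidAlgebra F G)} (hW : ∀ r ∈ R, ∀ v ∈ W, gg F r * v ∈ W) {v₀ : MonoidAlgebra F G}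
    (hv₀ : v₀ ∈ W) (hne : v₀ ≠ 0) : ∃ v ∈ W, v ≠ 0 ∧ ∀ r ∈ R, gg F r * v = v := by
  classical
  haveI hcharA : CharP (MonoidAlgebra F G) p := charP_of_injective_algebraMap (algebraMap F (MonoidAlgebra F G)).injective p
  letI : Algebra (ZMod p) (MonoidAlgebra F G) := ZMod.algebra _ p
  set T : Set (MonoidAlgebra F G) := Set.range (fun r : R => gg F (r : G) * v₀) with hT
  set S : Submodule (ZMod p) (MonoidAlgebra F G) := Submodule.span (ZMod p) T with hS
  haveI : Module.Finite (ZMod p) S := Module.Finite.span_of_finite (ZMod p) (Set.finite_range _)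
  haveI : Finite S := Module.finite_of_finite (ZMod p)
  have hSW : ∀ x ∈ S, x ∈ W := by
    intro x hx
    induction hx using Submodule.span_induction with
    | mem x hx =>
      obtain ⟨r, rfl⟩ := hx
      exact hW r r.2 _ hv₀
    | zero => exact W.zero_mem
    | add x y _ _ hx hy => exact W.add_mem hx hy
    | smul c x _ hx =>
      have : c • x = (c.val) • x := by
        rw [← Nat.cast_smul_eq_nsmul (ZMod p), ZMod.natCast_zmod_val]
      rw [this]
      exact nsmul_mem hx _
  have hSR : ∀ r ∈ R, ∀ x ∈ S, gg F r * x ∈ S := by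
    intro r hr x hx
    induction hx using Submodule.span_induction with
    | mem x hx =>
      obtain ⟨s, rfl⟩ := hx
      apply Submodule.subset_span
      refine ⟨⟨r, hr⟩ * s, ?_⟩
      simp only [Subgroup.coe_mul]
      rw [← mul_assoc, gg_mul]
    | zero => rw [mul_zero]; exact S.zero_mem
    | add x y _ _ hx hy => rw [mul_add]; exact S.add_mem hx hy
    | smul c x _ hx => rw [mul_smul_comm]; exact S.smul_mem c hx
  letI : MulAction R S :=
    { smul := fun r x => ⟨gg F (r : G) * x, hSR r r.2 x x.2⟩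
      one_smul := fun x => Subtype.ext (by
        show gg F ((1 : R) : G) * (x : MonoidAlgebra F G) = x
        rw [Subgroup.coe_one, gg_one, one_mul])
      mul_smul := fun r s x => Subtype.ext (by
        show gg F ((r * s : R) : G) * (x : MonoidAlgebra F G) = gg F (r : G) * (gg F (s : G) * x)
        rw [Subgroup.coe_mul, ← gg_mul, mul_assoc]) }
  have hv₀S : v₀ ∈ S := by
    apply Submodule.subset_span
    exact ⟨1, by simp [gg_one]⟩
  haveI : Nontrivial S := ⟨⟨⟨v₀, hv₀S⟩, 0, fun h => hne (congrArg Subtype.val h)⟩⟩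
  have hdvd : p ∣ Nat.card S := by
    rw [Module.natCard_eq_pow_finrank (K := ZMod p), Nat.card_zmod]
    exact dvd_pow_self _ (Module.finrank_pos (R := ZMod p) (M := S)).ne'
  have hfix0 : (0 : S) ∈ MulAction.fixedPoints R S := by
    intro r
    apply Subtype.ext
    show gg F (r : G) * (0 : MonoidAlgebra F G) = 0
    rw [mul_zero]
  obtain ⟨b, hb, hb0⟩ := hR.exists_fixed_point_of_prime_dvd_card_of_fixed_point S hdvd hfix0
  refine ⟨b, hSW _ b.2, fun h => hb0 (Subtype.ext h.symm), ?_⟩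
  intro r hr
  exact congrArg Subtype.val (hb ⟨r, hr⟩)

/-- The coefficient expansion. -/
theorem eq_sum_gg (a : MonoidAlgebra F G) : a = ∑ g, a.coeff g • gg F g := by
  conv_lhs => rw [← ofFun_coeff a]
  unfold ofFun
  refine Finset.sum_congr rfl fun g _ => ?_
  simp [gg, MonoidAlgebra.smul_single]

theorem coeff_gg_mul (x g : G) (a : MonoidAlgebra F G) : (gg F x * a).coeff g = a.coeff (x⁻¹ * g) := by
  classical
  rw [coeff_mul_eq, Finset.sum_eq_single x]
  · simp [gg, MonoidAlgebra.single_apply]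
  · intro h _ hh
    simp [gg, MonoidAlgebra.single_apply, hh.symm]
  · intro h
    exact absurd (Finset.mem_univ _) h

theorem coeff_mul_gg (x g : G) (a : MonoidAlgebra F G) : (a * gg F x).coeff g = a.coeff (g * x⁻¹) := by
  classical
  rw [coeff_mul_eq, Finset.sum_eq_single (g * x⁻¹)]
  · simp [gg, MonoidAlgebra.single_apply]
  · intro h _ hh
    have : x ≠ h⁻¹ * g := by
      rintro rfl
      apply hh
      group
    simp [gg, MonoidAlgebra.single_apply, this]
  · intro h
    exact absurd (Finset.mem_univ _) h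

theorem coeff_cj (y g : G) (a : MonoidAlgebra F G) : (cj F y a).coeff g = a.coeff (y⁻¹ * g * y) := by
  rw [cj_apply, coeff_mul_gg, coeff_gg_mul, inv_inv, mul_assoc]

theorem sA_commute {S : Subgroup G} {a i : MonoidAlgebra F G} (ha : a ∈ sA F S) (hi : i ∈ fx F S) : a * i = i * a := by
  rw [eq_sum_gg a, Finset.sum_mul, Finset.mul_sum]
  refine Finset.sum_congr rfl fun g _ => ?_
  by_cases hg : g ∈ S
  · rw [smul_mul_assoc, mul_smul_comm, mem_fx.1 hi g hg]
  · rw [ha g hg, zero_smul, zero_mul, mul_zero]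

/-- The augmentation. -/
noncomputable def aug (F : Type*) [Field F] {G : Type*} [Group G] [Fintype G] : MonoidAlgebra F G →ₐ[F] F :=
  MonoidAlgebra.lift F F G (1 : G →* F)

theorem aug_gg (g : G) : aug F (gg F g) = 1 := by
  simp [aug, gg, MonoidAlgebra.lift_single]

theorem aug_eq_sum (a : MonoidAlgebra F G) : aug F a = ∑ g, a.coeff g := by
  conv_lhs => rw [eq_sum_gg a]
  rw [map_sum]
  refine Finset.sum_congr rfl fun g _ => ?_
  rw [map_smul, aug_gg, smul_eq_mul, mul_one]

theorem aug_cj (y : G) (a : MonoidAlgebra F G) : aug F (cj F y a) = aug F a := by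
  rw [cj_apply, map_mul, map_mul, aug_gg, aug_gg, one_mul, mul_one]

theorem coeff_left_fixed {R : Subgroup G} {v : MonoidAlgebra F G} (h : ∀ r ∈ R, gg F r * v = v) {r : G} (hr : r ∈ R)
    (g : G) : v.coeff (r * g) = v.coeff g := by
  have := congrArg (fun z => MonoidAlgebra.coeff z (r * g)) (h r hr)
  simp only [coeff_gg_mul] at this
  rw [← this]
  simp

theorem sum_eq_sum_subgroup (R : Subgroup G) [Fintype R] (φ : G → F) (h : ∀ g, g ∉ R → φ g = 0) :
    ∑ g, φ g = ∑ r : R, φ r := by
  classical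
  have e1 : ∑ g, φ g = ∑ g ∈ Finset.univ.filter (· ∈ R), φ g := by
    rw [Finset.sum_filter]
    refine Finset.sum_congr rfl fun g _ => ?_
    split_ifs with hg
    · rfl
    · exact h g hg
  rw [e1]
  exact Finset.sum_subtype _ (fun x => by simp) φ

/-- A fixed vector in `F[R]` annihilating `τ` forces the augmentation of `τ` to vanish. -/
theorem aug_eq_zero_of_fixed {R : Subgroup G} {v τ : MonoidAlgebra F G} (hv : v ∈ sA F R) (hv0 : v ≠ 0)
    (hfix : ∀ r ∈ R, gg F r * v = v) (hτ : τ ∈ sA F R) (hvτ : v * τ = 0) : aug F τ = 0 := by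
  have hval : ∀ g ∈ R, v.coeff g = v.coeff 1 := by
    intro g hg
    have := coeff_left_fixed hfix hg 1
    rwa [mul_one] at this
  have hc : v.coeff 1 ≠ 0 := by
    intro h0
    apply hv0
    apply ext_coeff
    intro g
    by_cases hg : g ∈ R
    · rw [hval g hg, h0]; rfl
    · rw [hv g hg]; rfl
  have h1 := congrArg (fun z => MonoidAlgebra.coeff z 1) hvτ
  simp only [coeff_mul_eq] at h1
  have h2 : ∑ h, v.coeff h * τ.coeff (h⁻¹ * 1) = v.coeff 1 * aug F τ := by
    rw [aug_eq_sum, Finset.mul_sum]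
    rw [← Equiv.sum_comp (Equiv.inv G) (fun g => v.coeff 1 * τ.coeff g)]
    refine Finset.sum_congr rfl fun h _ => ?_
    simp only [Equiv.inv_apply, mul_one]
    by_cases hh : h ∈ R
    · rw [hval h hh]
    · have : h⁻¹ ∉ R := fun h' => hh (by simpa using R.inv_mem h')
      rw [hτ _ this, mul_zero, mul_zero]
  rw [h2] at h1
  exact (mul_eq_zero.1 h1).resolve_left hc

/-- Left inverses in `F[R]`. -/
theorem exists_left_inv_of_aug_ne {p : ℕ} [hp : Fact p.Prime] [CharP F p] {R : Subgroup G} (hR : IsPGroup p R)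
    {τ : MonoidAlgebra F G} (hτ : τ ∈ sA F R) (haug : aug F τ ≠ 0) : ∃ τ' ∈ sA F R, τ' * τ = 1 := by
  classical
  haveI : FiniteDimensional F (MonoidAlgebra F G) := Module.Finite.of_basis (MonoidAlgebra.basis G F)
  let τ₀ : sA F R := ⟨τ, hτ⟩
  let L : sA F R →ₗ[F] sA F R := LinearMap.mulRight F τ₀
  have hinj : Function.Injective L := by
    rw [injective_iff_map_eq_zero]
    intro x hx
    by_contra hx0
    have hx1 : (x : MonoidAlgebra F G) * τ = 0 := congrArg Subtype.val hx
    let W : Submodule F (MonoidAlgebra F G) :=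
      { carrier := {y | y ∈ sA F R ∧ y * τ = 0}
        add_mem' := fun {a b} ha hb => ⟨(sA F R).add_mem ha.1 hb.1, by rw [add_mul, ha.2, hb.2, add_zero]⟩
        zero_mem' := ⟨(sA F R).zero_mem, zero_mul _⟩
        smul_mem' := fun c a ha => ⟨(sA F R).smul_mem ha.1 c, by rw [smul_mul_assoc, ha.2, smul_zero]⟩ }
    have hWst : ∀ r ∈ R, ∀ v ∈ W, gg F r * v ∈ W := by
      intro r hr v hv
      exact ⟨(sA F R).mul_mem (gg_mem_sA hr) hv.1, by rw [mul_assoc, hv.2, mul_zero]⟩
    obtain ⟨v, hvW, hv0, hvfix⟩ := exists_fixed_left hR hWst (v₀ := x) ⟨x.2, hx1⟩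
      (fun h => hx0 (Subtype.ext h))
    exact haug (aug_eq_zero_of_fixed hvW.1 hv0 hvfix hτ hvW.2)
  have hsurj := LinearMap.injective_iff_surjective.1 hinj
  obtain ⟨x, hx⟩ := hsurj 1
  exact ⟨x, x.2, congrArg Subtype.val hx⟩

/-- Units in `F[R]`. -/
theorem exists_inv_of_aug_ne {p : ℕ} [hp : Fact p.Prime] [CharP F p] {R : Subgroup G} (hR : IsPGroup p R)
    {τ : MonoidAlgebra F G} (hτ : τ ∈ sA F R) (haug : aug F τ ≠ 0) :
    ∃ τ' ∈ sA F R, τ' * τ = 1 ∧ τ * τ' = 1 := by
  obtain ⟨τ', hτ', h1⟩ := exists_left_inv_of_aug_ne hR hτ haug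
  have haug' : aug F τ' ≠ 0 := by
    intro h0
    have := congrArg (aug F) h1
    rw [map_mul, h0, zero_mul, map_one] at this
    exact zero_ne_one this
  obtain ⟨τ'', hτ'', h2⟩ := exists_left_inv_of_aug_ne hR hτ' haug'
  have h3 : τ'' = τ := by
    calc τ'' = τ'' * (τ' * τ) := by rw [h1, mul_one]
      _ = τ := by rw [← mul_assoc, h2, one_mul]
  rw [h3] at h2
  exact ⟨τ', hτ', h1, h2⟩

/-- Sums over cosets of right-invariant functions. -/
theorem sum_mul_right_inv (R : Subgroup G) [Fintype R] (a f : G → F) (hf : ∀ h, ∀ r ∈ R, f (h * r) = f h)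
    (ha : ∀ h, ∑ r : R, a (h * r) = 0) : ∑ h, a h * f h = 0 := by
  classical
  haveI : Fintype (G ⧸ R) := Fintype.ofFinite _
  have e := Finset.sum_fiberwise Finset.univ (fun h : G => ((h : G) : G ⧸ R)) (fun h => a h * f h)
  rw [← e]
  refine Finset.sum_eq_zero fun c _ => ?_
  obtain ⟨h₀, rfl⟩ := QuotientGroup.mk_surjective c
  have e2 : ∑ h ∈ Finset.univ.filter (fun h : G => ((h : G) : G ⧸ R) = (h₀ : G ⧸ R)), a h * f h
      = ∑ r : R, a (h₀ * r) * f (h₀ * r) := by
    symm
    refine Finset.sum_bij (fun (r : R) _ => h₀ * (r : G)) ?_ ?_ ?_ ?_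
    · intro r _
      simp only [Finset.mem_filter, Finset.mem_univ, true_and]
      rw [eq_comm, QuotientGroup.eq]
      simp
    · intro x _ y _ hxy
      exact Subtype.ext (mul_left_cancel hxy)
    · intro h hh
      simp only [Finset.mem_filter, Finset.mem_univ, true_and] at hh
      rw [eq_comm, QuotientGroup.eq] at hh
      exact ⟨⟨h₀⁻¹ * h, hh⟩, Finset.mem_univ _, by simp⟩
    · intro r _
      rfl
  rw [e2]
  have e3 : ∑ r : R, a (h₀ * r) * f (h₀ * r) = ∑ r : R, a (h₀ * r) * f h₀ :=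
    Finset.sum_congr rfl fun r _ => by rw [hf h₀ r r.2]
  rw [e3, ← Finset.sum_mul, ha h₀, zero_mul]

/-- The group algebra of `R` acts faithfully on a nonzero idempotent commuting with `R`. -/
theorem sA_mul_eq_zero {p : ℕ} [hp : Fact p.Prime] [CharP F p] {R : Subgroup G} (hR : IsPGroup p R)
    {i τ : MonoidAlgebra F G} (hi : i * i = i) (hne : i ≠ 0) (hfix : i ∈ fx F R) (hτ : τ ∈ sA F R) (h0 : τ * i = 0) :
    τ = 0 := by
  classical
  by_contra hτ0
  let W₁ : Submodule F (MonoidAlgebra F G) :=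
    { carrier := {y | y ∈ sA F R ∧ y * i = 0}
      add_mem' := fun {a b} ha hb => ⟨(sA F R).add_mem ha.1 hb.1, by rw [add_mul, ha.2, hb.2, add_zero]⟩
      zero_mem' := ⟨(sA F R).zero_mem, zero_mul _⟩
      smul_mem' := fun c a ha => ⟨(sA F R).smul_mem ha.1 c, by rw [smul_mul_assoc, ha.2, smul_zero]⟩ }
  have hW₁ : ∀ r ∈ R, ∀ v ∈ W₁, gg F r * v ∈ W₁ := by
    intro r hr v hv
    exact ⟨(sA F R).mul_mem (gg_mem_sA hr) hv.1, by rw [mul_assoc, hv.2, mul_zero]⟩
  obtain ⟨v, hvW, hv0, hvfix⟩ := exists_fixed_left hR hW₁ (v₀ := τ) ⟨hτ, h0⟩ hτ0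
  have hval : ∀ g ∈ R, v.coeff g = v.coeff 1 := by
    intro g hg
    have := coeff_left_fixed hvfix hg 1
    rwa [mul_one] at this
  have hc : v.coeff 1 ≠ 0 := by
    intro h0
    apply hv0
    apply ext_coeff
    intro g
    by_cases hg : g ∈ R
    · rw [hval g hg, h0]; rfl
    · rw [hvW.1 g hg]; rfl
  -- coset sums of `i` vanish
  have hsum1 : ∀ x, ∑ r : R, i.coeff (r * x) = 0 := by
    intro x
    have h1 := congrArg (fun z => MonoidAlgebra.coeff z x) hvW.2
    simp only [coeff_mul_eq] at h1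
    have h2 : ∑ h, v.coeff h * i.coeff (h⁻¹ * x) = ∑ r : R, v.coeff 1 * i.coeff (((r : G))⁻¹ * x) := by
      rw [sum_eq_sum_subgroup R (fun h => v.coeff h * i.coeff (h⁻¹ * x))]
      · refine Finset.sum_congr rfl fun r _ => ?_
        rw [hval r r.2]
      · intro g hg
        rw [hvW.1 g hg, zero_mul]
    rw [h2, ← Finset.mul_sum] at h1
    have h3 := (mul_eq_zero.1 h1).resolve_left hc
    rw [← h3]
    exact (Fintype.sum_equiv (Equiv.inv R) _ _ fun r => by simp).symm
  have hconj : ∀ r ∈ R, ∀ g, i.coeff (r * g * r⁻¹) = i.coeff g := by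
    intro r hr g
    have := coeff_cj (F := F) r⁻¹ g i
    rw [cj_of_mem_fx hfix (R.inv_mem hr), inv_inv] at this
    exact this.symm
  have hsum2 : ∀ h, ∑ r : R, i.coeff (h * r) = 0 := by
    intro h
    rw [← hsum1 h]
    refine Finset.sum_congr rfl fun r _ => ?_
    rw [← hconj r r.2 (h * r)]
    congr 1
    group
  -- a fixed vector in `i A`
  let W₂ : Submodule F (MonoidAlgebra F G) := LinearMap.range (LinearMap.mulLeft F i)
  have hW₂ : ∀ r ∈ R, ∀ v ∈ W₂, gg F r * v ∈ W₂ := by
    rintro r hr _ ⟨t, rfl⟩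
    refine ⟨gg F r * t, ?_⟩
    simp only [LinearMap.mulLeft_apply]
    rw [← mul_assoc, ← mem_fx.1 hfix r hr, mul_assoc]
  obtain ⟨w, ⟨t, htw⟩, hw0, hwfix⟩ := exists_fixed_left hR hW₂ (v₀ := i) ⟨i, hi⟩ hne
  simp only [LinearMap.mulLeft_apply] at htw
  have hiw : i * w = w := by rw [← htw, ← mul_assoc, hi]
  apply hw0
  apply ext_coeff
  intro x
  rw [← hiw, coeff_mul_eq]
  refine sum_mul_right_inv R _ (fun h => w.coeff (h⁻¹ * x)) ?_ hsum2
  intro h r hr
  have := coeff_left_fixed hwfix (R.inv_mem hr) (h⁻¹ * x)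
  simp only [mul_inv_rev]
  rw [mul_assoc]
  exact this

end Fixed

end Cfsg.Agent.Lib.Modular
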