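import Mathlib
import Cfsg.Agent.Lib.Modular.GroupCorner
import Cfsg.Agent.Lib.Modular.BlockAlg

/-!
# Blocks of least possible dimension

If `e` is a central idempotent with `dim e F[G] = |H|² / m`, and `e` is a sum of `H`-conjugate orthogonal idempotents
with stabilizers of order at most `m`, then the corner of each idempotent is the group algebra of its stabilizer; and
`N_G(Q)` acts on `Q` as `H` does.
-/

set_option autoImplicit false
set_option linter.unusedSectionVars false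
set_option linter.unusedSimpArgs false
set_option linter.unusedVariables false
set_option linter.style.haveILetI false
set_option linter.unnecessarySimpa false

namespace Cfsg.Agent.Lib.Modular

open Module Cfsg.Agent.Lib.Block

section Good

variable {F G : Type*} [Field F] [Group G] [Fintype G]

/-- The conjugate of a subgroup. -/
noncomputable def conjS (x : G) (R : Subgroup G) : Subgroup G := R.map (MulAut.conj x).toMonoidHom

theorem mem_conjS {x y : G} {R : Subgroup G} : y ∈ conjS x R ↔ x⁻¹ * y * x ∈ R := by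
  unfold conjS
  rw [Subgroup.mem_map_equiv, MulAut.conj_symm_apply]

theorem gg_cancel_left (F : Type*) [Field F] {G : Type*} [Group G] (x : G) (u : MonoidAlgebra F G) :
    gg F x⁻¹ * (gg F x * u) = u := by
  rw [← mul_assoc, gg_inv_mul, one_mul]

theorem gg_cancel_left' (F : Type*) [Field F] {G : Type*} [Group G] (x : G) (u : MonoidAlgebra F G) :
    gg F x * (gg F x⁻¹ * u) = u := by
  rw [← mul_assoc, gg_mul_inv, one_mul]

theorem cj_inv_cj (x : G) (a : MonoidAlgebra F G) : cj F x⁻¹ (cj F x a) = a := by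
  rw [← cj_mul_apply, inv_mul_cancel, cj_one_apply]

theorem cj_cj_inv (x : G) (a : MonoidAlgebra F G) : cj F x (cj F x⁻¹ a) = a := by
  rw [← cj_mul_apply, mul_inv_cancel, cj_one_apply]

theorem cj_mul_gg (w : G) (i : MonoidAlgebra F G) : cj F w i * gg F w = gg F w * i := by
  rw [cj_apply, mul_assoc, gg_inv_mul, mul_one]

theorem gg_inv_mul_cj (w : G) (i : MonoidAlgebra F G) : gg F w⁻¹ * cj F w i = i * gg F w⁻¹ := by
  rw [cj_apply, ← mul_assoc, ← mul_assoc, gg_inv_mul, one_mul]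

theorem cj_mem_sA (x : G) {R : Subgroup G} {a : MonoidAlgebra F G} (ha : a ∈ sA F R) : cj F x a ∈ sA F (conjS x R) := by
  intro g hg
  rw [coeff_cj]
  exact ha _ fun h => hg (mem_conjS.2 h)

theorem cj_mem_sA_self {x : G} {R : Subgroup G} (hx : x ∈ R) {a : MonoidAlgebra F G} (ha : a ∈ sA F R) :
    cj F x a ∈ sA F R := by
  intro g hg
  rw [coeff_cj]
  refine ha _ fun h => hg ?_
  have := R.mul_mem (R.mul_mem hx h) (R.inv_mem hx)
  simpa [mul_assoc] using this

theorem cj_of_central {e : MonoidAlgebra F G} (hce : ∀ x, e * x = x * e) (x : G) : cj F x e = e := by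
  rw [cj_apply, ← hce, mul_assoc, gg_mul_inv, mul_one]

/-- An idempotent whose corner is the group algebra of `R`. -/
structure Good (F : Type*) [Field F] {G : Type*} [Group G] [Fintype G] (i : MonoidAlgebra F G) (R : Subgroup G) : Prop where
  idem : i * i = i
  ne : i ≠ 0
  fix : i ∈ fx F R
  cor : ∀ t, i * t = t → t * i = t → ∃ τ ∈ sA F R, t = τ * i

theorem Good.conj {i : MonoidAlgebra F G} {R : Subgroup G} (h : Good F i R) (x : G) : Good F (cj F x i) (conjS x R) := by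
  refine ⟨by rw [← map_mul, h.idem], fun h0 => h.ne (cj_inj F x (by rw [h0, map_zero])), ?_, ?_⟩
  · apply mem_fx_of_cj
    intro s hs
    have hs' := mem_conjS.1 hs
    have e1 : s * x = x * (x⁻¹ * s * x) := by group
    rw [← cj_mul_apply, e1, cj_mul_apply, cj_of_mem_fx h.fix hs']
  · intro t h1 h2
    have h3 : i * cj F x⁻¹ t = cj F x⁻¹ t := by
      conv_rhs => rw [← h1]
      rw [map_mul, cj_inv_cj]
    have h4 : cj F x⁻¹ t * i = cj F x⁻¹ t := by
      conv_rhs => rw [← h2]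
      rw [map_mul, cj_inv_cj]
    obtain ⟨τ, hτ, hτt⟩ := h.cor _ h3 h4
    refine ⟨cj F x τ, cj_mem_sA x hτ, ?_⟩
    rw [← map_mul, ← hτt, cj_cj_inv]

theorem stabS_cj {H : Subgroup G} {y : G} (hy : y ∈ H) (i : MonoidAlgebra F G) :
    stabS H (cj F y i) = conjS y (stabS H i) := by
  ext s
  rw [mem_conjS, mem_stabS, mem_stabS]
  constructor
  · rintro ⟨h1, h2⟩
    refine ⟨H.mul_mem (H.mul_mem (H.inv_mem hy) h1) hy, ?_⟩
    rw [cj_mul_apply, cj_mul_apply, h2, cj_inv_cj]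
  · rintro ⟨h1, h2⟩
    refine ⟨?_, ?_⟩
    · have := H.mul_mem (H.mul_mem hy h1) (H.inv_mem hy)
      simpa [mul_assoc] using this
    · rw [cj_mul_apply, cj_mul_apply] at h2
      have h3 := congrArg (cj F y) h2
      rw [cj_cj_inv] at h3
      exact h3

theorem Good.chain {H : Subgroup G} {i j : MonoidAlgebra F G} {I : Finset (MonoidAlgebra F G)}
    (hc : ChainOut H i j I) (h : Good F i (stabS H i)) {a : MonoidAlgebra F G} (ha : a ∈ I) :
    Good F a (stabS H a) := by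
  obtain ⟨y, hy, rfl⟩ := hc.all a ha
  rw [stabS_cj hy]
  exact h.conj y

end Good

section Count

variable {F G : Type*} [Field F] [Group G] [Fintype G]

/-- Orbit-stabilizer for the chain. -/
theorem ChainOut.card_mul {H : Subgroup G} {i j : MonoidAlgebra F G} {I : Finset (MonoidAlgebra F G)}
    (hc : ChainOut H i j I) : I.card * Nat.card (stabS H i) = Nat.card H := by
  classical
  letI : MulAction H (MonoidAlgebra F G) :=
    { smul := fun y a => cj F (y : G) a
      one_smul := fun a => cj_one_apply (F := F) a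
      mul_smul := fun x y a => cj_mul_apply (F := F) (x : G) (y : G) a }
  have hsmul : ∀ (y : H) (a : MonoidAlgebra F G), y • a = cj F (y : G) a := fun _ _ => rfl
  have h1 : (MulAction.orbit H i) = (I : Set (MonoidAlgebra F G)) := by
    ext a
    simp only [Finset.mem_coe]
    constructor
    · rintro ⟨y, rfl⟩
      exact hc.closed y y.2
    · intro ha
      obtain ⟨y, hy, rfl⟩ := hc.all a ha
      exact ⟨⟨y, hy⟩, rfl⟩
  have h2 : (MulAction.stabilizer H i).index = I.card := by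
    rw [MulAction.index_stabilizer, h1, Set.ncard_coe_finset]
  have h3 : Nat.card (MulAction.stabilizer H i) = Nat.card (stabS H i) := by
    refine Nat.card_congr ⟨fun r => ⟨r.1.1, r.1.2, r.2⟩, fun r => ⟨⟨r.1, r.2.1⟩, r.2.2⟩, ?_, ?_⟩
    · intro r
      rfl
    · intro r
      rfl
  rw [← h2, ← h3]
  exact Subgroup.index_mul_card _

/-- **The dimension count.** -/
theorem dim_count {p : ℕ} [hp : Fact p.Prime] [CharP F p] {H : Subgroup G} (hH : IsPGroup p H)
    {i j e : MonoidAlgebra F G} {I : Finset (MonoidAlgebra F G)} (hc : ChainOut H i j I) (he : e * e = e)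
    (hce : ∀ x, e * x = x * e) (hej : e * j = j) {m : ℕ} (hm : Nat.card (stabS H i) ≤ m)
    (hdim : finrank F (corner F e) * m = (Nat.card H) ^ 2) :
    Nat.card (stabS H i) = m ∧ j = e ∧ Good F i (stabS H i) := by
  classical
  haveI : FiniteDimensional F (MonoidAlgebra F G) := Module.Finite.of_basis (MonoidAlgebra.basis G F)
  set R := stabS H i with hR
  haveI : Fintype R := Fintype.ofFinite _
  have hRp : IsPGroup p R := hH.to_le (stabS_le H i)
  have hifix : i ∈ fx F R := mem_fx_of_cj fun s hs => hs.2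
  have hr_comm : ∀ r : G, r ∈ R → gg F r * i = i * gg F r := fun r hr => mem_fx.1 hifix r hr
  choose! y hyH hy using hc.all
  let Φ : (I × I × R) → MonoidAlgebra F G := fun t => gg F (y t.1) * gg F (t.2.2 : G) * i * gg F (y t.2.1)⁻¹
  have hΦdef : ∀ t, Φ t = gg F (y t.1) * gg F (t.2.2 : G) * i * gg F (y t.2.1)⁻¹ := fun _ => rfl
  have hleftA : ∀ a ∈ I, a * gg F (y a) = gg F (y a) * i := by
    intro a ha
    have := cj_mul_gg (y a) i
    rwa [← hy a ha] at this
  have hrightA : ∀ b ∈ I, gg F (y b)⁻¹ * b = i * gg F (y b)⁻¹ := by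
    intro b hb
    have := gg_inv_mul_cj (y b) i
    rwa [← hy b hb] at this
  have hΦl : ∀ t : I × I × R, (t.1 : MonoidAlgebra F G) * Φ t = Φ t := by
    intro t
    have h1 := hleftA _ t.1.2
    have h2 := hr_comm _ t.2.2.2
    calc (t.1 : MonoidAlgebra F G) * Φ t
        = ((t.1 : MonoidAlgebra F G) * gg F (y t.1)) * gg F (t.2.2 : G) * i * gg F (y t.2.1)⁻¹ := by
          rw [hΦdef]; simp only [mul_assoc]
      _ = gg F (y t.1) * (i * gg F (t.2.2 : G)) * i * gg F (y t.2.1)⁻¹ := by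
          rw [h1]; simp only [mul_assoc]
      _ = gg F (y t.1) * (gg F (t.2.2 : G) * i) * i * gg F (y t.2.1)⁻¹ := by rw [h2]
      _ = Φ t := by
          rw [hΦdef]; simp only [mul_assoc]; rw [← mul_assoc i i, hc.idem]
  have hΦr : ∀ t : I × I × R, Φ t * (t.2.1 : MonoidAlgebra F G) = Φ t := by
    intro t
    have h1 := hrightA _ t.2.1.2
    calc Φ t * (t.2.1 : MonoidAlgebra F G)
        = gg F (y t.1) * gg F (t.2.2 : G) * i * (gg F (y t.2.1)⁻¹ * (t.2.1 : MonoidAlgebra F G)) := by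
          rw [hΦdef]; simp only [mul_assoc]
      _ = gg F (y t.1) * gg F (t.2.2 : G) * i * (i * gg F (y t.2.1)⁻¹) := by rw [h1]
      _ = Φ t := by
          rw [hΦdef]; simp only [mul_assoc]; rw [← mul_assoc i i, hc.idem]
  have hL : ∀ (a : I) (t : I × I × R), t.1 ≠ a → (a : MonoidAlgebra F G) * Φ t = 0 := by
    intro a t hne
    rw [← hΦl t, ← mul_assoc, hc.orth a a.2 t.1 t.1.2 (fun h => hne (Subtype.ext h.symm)), zero_mul]
  have hR' : ∀ (b : I) (t : I × I × R), t.2.1 ≠ b → Φ t * (b : MonoidAlgebra F G) = 0 := by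
    intro b t hne
    rw [← hΦr t, mul_assoc, hc.orth t.2.1 t.2.1.2 b b.2 (fun h => hne (Subtype.ext h)), mul_zero]
  -- projecting onto a block of the family
  have hproj : ∀ (a₀ b₀ : I) (c : (I × I × R) → F), ∑ t, c t • ((a₀ : MonoidAlgebra F G) * Φ t * b₀) =
      ∑ r : R, c (a₀, b₀, r) • Φ (a₀, b₀, r) := by
    intro a₀ b₀ c
    rw [Fintype.sum_prod_type, Finset.sum_eq_single a₀, Fintype.sum_prod_type, Finset.sum_eq_single b₀]
    · refine Finset.sum_congr rfl fun r _ => ?_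
      rw [show (a₀ : MonoidAlgebra F G) * Φ (a₀, b₀, r) = Φ (a₀, b₀, r) from hΦl (a₀, b₀, r),
        show Φ (a₀, b₀, r) * (b₀ : MonoidAlgebra F G) = Φ (a₀, b₀, r) from hΦr (a₀, b₀, r)]
    · intro b _ hb
      refine Finset.sum_eq_zero fun r _ => ?_
      rw [show (a₀ : MonoidAlgebra F G) * Φ (a₀, b, r) = Φ (a₀, b, r) from hΦl (a₀, b, r),
        show Φ (a₀, b, r) * (b₀ : MonoidAlgebra F G) = 0 from hR' b₀ (a₀, b, r) hb, smul_zero]
    · intro h
      exact absurd (Finset.mem_univ _) h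
    · intro a _ ha
      rw [Fintype.sum_prod_type]
      refine Finset.sum_eq_zero fun b _ => Finset.sum_eq_zero fun r _ => ?_
      rw [show (a₀ : MonoidAlgebra F G) * Φ (a, b, r) = 0 from hL a₀ (a, b, r) ha, zero_mul, smul_zero]
    · intro h
      exact absurd (Finset.mem_univ _) h
  have hpush : ∀ (a₀ b₀ : I) (c : (I × I × R) → F), (a₀ : MonoidAlgebra F G) * (∑ t, c t • Φ t) * b₀ =
      ∑ r : R, c (a₀, b₀, r) • Φ (a₀, b₀, r) := by
    intro a₀ b₀ c
    rw [← hproj, Finset.mul_sum, Finset.sum_mul]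
    refine Finset.sum_congr rfl fun t _ => ?_
    rw [mul_smul_comm, smul_mul_assoc]
  have hli : LinearIndependent F Φ := by
    rw [Fintype.linearIndependent_iff]
    rintro c hsum ⟨a₀, b₀, r₀⟩
    have h1 := hpush a₀ b₀ c
    rw [hsum, mul_zero, zero_mul] at h1
    set σ : MonoidAlgebra F G := ∑ r : R, c (a₀, b₀, r) • gg F (r : G) with hσ
    have hσm : σ ∈ sA F R := by
      rw [hσ]
      exact sum_mem fun r _ => (sA F R).smul_mem (gg_mem_sA r.2) _
    have h2 : gg F (y a₀) * (σ * i) * gg F (y b₀)⁻¹ = 0 := by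
      rw [h1, hσ, Finset.sum_mul, Finset.mul_sum, Finset.sum_mul]
      refine Finset.sum_congr rfl fun r _ => ?_
      rw [hΦdef]
      simp only [smul_mul_assoc, mul_smul_comm]
      simp only [mul_assoc]
    have h3 : σ * i = 0 := by
      have h4 : gg F (y a₀)⁻¹ * (gg F (y a₀) * (σ * i) * gg F (y b₀)⁻¹) * gg F (y b₀) = σ * i := by
        simp only [mul_assoc]
        rw [gg_inv_mul, mul_one, gg_cancel_left]
      rw [← h4, h2, mul_zero, zero_mul]
    have h5 := sA_mul_eq_zero hRp hc.idem hc.ne hifix hσm h3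
    have h6 : σ.coeff (r₀ : G) = c (a₀, b₀, r₀) := by
      rw [hσ, MonoidAlgebra.coeff_sum, Finset.sum_apply', Finset.sum_eq_single r₀]
      · simp [gg, MonoidAlgebra.coeff_smul_apply]
      · intro r _ hr
        have : (r : G) ≠ (r₀ : G) := fun h => hr (Subtype.ext h)
        simp [gg, MonoidAlgebra.coeff_smul_apply, MonoidAlgebra.single_apply, this]
      · intro h
        exact absurd (Finset.mem_univ _) h
    rw [← h6, h5]
    rfl
  have heI : ∀ a ∈ I, e * a = a := by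
    intro a ha
    rw [← hc.sum_mul ha, ← mul_assoc, hej]
  have hjI : ∀ a ∈ I, j * a = a := fun a ha => hc.sum_mul ha
  have hei : e * i = i := heI i hc.mem
  have hspan_le : Submodule.span F (Set.range Φ) ≤ corner F e := by
    rw [Submodule.span_le]
    rintro _ ⟨t, rfl⟩
    show e * Φ t = Φ t
    rw [← hΦl t, ← mul_assoc, heI _ t.1.2]
  have hspan_le' : Submodule.span F (Set.range Φ) ≤ corner F j := by
    rw [Submodule.span_le]
    rintro _ ⟨t, rfl⟩
    show j * Φ t = Φ t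
    rw [← hΦl t, ← mul_assoc, hjI _ t.1.2]
  have hcard : Fintype.card (I × I × R) = I.card * (I.card * Nat.card R) := by
    rw [Fintype.card_prod, Fintype.card_prod, Fintype.card_coe, Nat.card_eq_fintype_card]
  have hfr := finrank_span_eq_card hli
  have hle := Submodule.finrank_mono hspan_le
  rw [hfr, hcard] at hle
  have hn : I.card * Nat.card R = Nat.card H := hc.card_mul
  have hrpos : 0 < Nat.card R := Nat.card_pos
  have hnpos : 0 < Nat.card H := Nat.card_pos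
  have hcpos : 0 < I.card := Finset.card_pos.2 ⟨i, hc.mem⟩
  have hmpos : 0 < m := lt_of_lt_of_le hrpos hm
  set c := I.card with hc'
  set r := Nat.card R with hr'
  set n := Nat.card H with hn'
  set D := finrank F (corner F e) with hD
  have hkey : r = m := by
    apply le_antisymm hm
    have h1 : c * (c * r) * m ≤ D * m := Nat.mul_le_mul_right m hle
    rw [hdim, ← hn] at h1
    have h2 : c * (c * r) * m ≤ c * (c * r) * r := by
      calc c * (c * r) * m ≤ (c * r) ^ 2 := h1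
        _ = c * (c * r) * r := by ring
    exact Nat.le_of_mul_le_mul_left h2 (by positivity)
  have hDeq : D = c * (c * r) := by
    have h1 : D * m = c * (c * r) * m := by
      rw [hdim, ← hn, ← hkey]
      ring
    exact Nat.eq_of_mul_eq_mul_right hmpos h1
  have hspan : Submodule.span F (Set.range Φ) = corner F e := by
    apply Submodule.eq_of_le_of_finrank_eq hspan_le
    rw [hfr, hcard]
    exact hDeq.symm
  have hje : j = e := by
    have h1 : e ∈ corner F j := by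
      apply hspan_le'
      rw [hspan]
      exact he
    have h2 : j * e = e := h1
    rw [← h2, ← hce, hej]
  refine ⟨hkey, hje, hc.idem, hc.ne, hifix, ?_⟩
  intro t ht1 ht2
  have hte : t ∈ corner F e := by
    show e * t = t
    rw [← ht1, ← mul_assoc, hei]
  rw [← hspan] at hte
  obtain ⟨c', hc'⟩ := (Submodule.mem_span_range_iff_exists_fun F).1 hte
  have hi₀ : i ∈ I := hc.mem
  let i₀ : I := ⟨i, hi₀⟩
  have h1 := hpush i₀ i₀ c'
  rw [hc'] at h1
  have h2 : (i₀ : MonoidAlgebra F G) * t * i₀ = t := by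
    show i * t * i = t
    rw [ht1, ht2]
  rw [h2] at h1
  have hyi : y i ∈ R := by
    refine ⟨hyH i hi₀, ?_⟩
    exact (hy i hi₀).symm
  refine ⟨∑ r : R, c' (i₀, i₀, r) • (gg F (y i) * gg F (r : G) * gg F (y i)⁻¹), ?_, ?_⟩
  · refine sum_mem fun r _ => (sA F R).smul_mem ?_ _
    exact (sA F R).mul_mem ((sA F R).mul_mem (gg_mem_sA hyi) (gg_mem_sA r.2)) (gg_mem_sA (R.inv_mem hyi))
  · rw [h1, Finset.sum_mul]
    refine Finset.sum_congr rfl fun r _ => ?_
    rw [hΦdef, smul_mul_assoc]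
    congr 1
    show gg F (y i) * gg F (r : G) * i * gg F (y i)⁻¹ = gg F (y i) * gg F (r : G) * gg F (y i)⁻¹ * i
    rw [mul_assoc (gg F (y i) * gg F (r : G)) i, mul_assoc (gg F (y i) * gg F (r : G)) (gg F (y i)⁻¹),
      hr_comm _ (R.inv_mem hyi)]

end Count

section Fusion

variable {F G : Type*} [Field F] [Group G] [Fintype G]

/-- Fixed points under conjugation. -/
theorem exists_fixed_cj {p : ℕ} [hp : Fact p.Prime] [CharP F p] {K : Type*} [Field K] [CharP K p] {Q : Subgroup G}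
    (hQ : IsPGroup p Q) (f : MonoidAlgebra F G → K) (hf : ∀ z ∈ Q, ∀ x, f (cj F z x) = f x)
    (S : Finset (MonoidAlgebra F G)) (hS : ∀ z ∈ Q, ∀ x ∈ S, cj F z x ∈ S) (hsum : ∑ x ∈ S, f x ≠ 0) :
    ∃ x ∈ S, (∀ z ∈ Q, cj F z x = x) ∧ f x ≠ 0 := by
  letI : MulAction Q (MonoidAlgebra F G) :=
    { smul := fun y a => cj F (y : G) a
      one_smul := fun a => cj_one_apply (F := F) a
      mul_smul := fun x y a => cj_mul_apply (F := F) (x : G) (y : G) a }
  obtain ⟨x, hx, hx1, hx2⟩ := exists_fixed_of_sum_ne hQ f (fun z x => hf z z.2 x) _ S rfl (fun z x hx => hS z z.2 x hx) hsum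
  exact ⟨x, hx, fun z hz => hx1 ⟨z, hz⟩, hx2⟩

/-- An idempotent in the chain fixed by `Q`. -/
theorem exists_fixed_mem {p : ℕ} [hp : Fact p.Prime] [CharP F p] {H Q : Subgroup G} (hH : IsPGroup p H) (hQH : Q ≤ H)
    {i e : MonoidAlgebra F G} {I : Finset (MonoidAlgebra F G)} (hc : ChainOut H i e I) {c : G}
    (hcQ : c ∈ Subgroup.centralizer (Q : Set G)) (hcne : e.coeff c ≠ 0) : ∃ a ∈ I, ∀ z ∈ Q, cj F z a = a := by
  have hQ : IsPGroup p Q := hH.to_le hQH
  have hinv : ∀ z ∈ Q, z⁻¹ * c * z = c := by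
    intro z hz
    have := (Subgroup.mem_centralizer_iff.1 hcQ) z hz
    rw [mul_assoc, ← this, inv_mul_cancel_left]
  obtain ⟨a, ha, h1, -⟩ := exists_fixed_cj (F := F) hQ (fun a => a.coeff c)
    (fun z hz x => by
      rw [coeff_cj, hinv z hz]) I
    (fun z hz x hx => by
      obtain ⟨y, hy, rfl⟩ := hc.all x hx
      rw [← cj_mul_apply]
      exact hc.closed _ (H.mul_mem (hQH hz) hy))
    (by
      have h2 : ∑ x ∈ I, x.coeff c = e.coeff c := by
        rw [← hc.sum, MonoidAlgebra.coeff_sum, Finset.sum_apply']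
      rw [h2]
      exact hcne)
  exact ⟨a, ha, h1⟩

/-- **The fusion lemma**: `N_G(Q)` acts on `Q` as elements of `H` do. -/
theorem fusion {p : ℕ} [hp : Fact p.Prime] [CharP F p] {H Q : Subgroup G} (hH : IsPGroup p H)
    {i e : MonoidAlgebra F G} {I : Finset (MonoidAlgebra F G)} (hc : ChainOut H i e I)
    (hce : ∀ x, e * x = x * e) (hg : Good F i (stabS H i)) (hQH : Q ≤ H) {a₀ : MonoidAlgebra F G} (ha₀ : a₀ ∈ I)
    (hfix : ∀ z ∈ Q, cj F z a₀ = a₀) {x : G} (hx : ∀ z, z ∈ Q ↔ x * z * x⁻¹ ∈ Q) :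
    ∃ w ∈ H, ∀ z ∈ Q, x⁻¹ * z * x = w * z * w⁻¹ := by
  classical
  have hQp : IsPGroup p Q := hH.to_le hQH
  set R₀ := stabS H a₀ with hR₀
  have hR₀p : IsPGroup p R₀ := hH.to_le (stabS_le _ _)
  have hgood₀ : Good F a₀ R₀ := hg.chain hc ha₀
  have hQR₀ : Q ≤ R₀ := fun z hz => ⟨hQH hz, hfix z hz⟩
  set R₁ := conjS x R₀ with hR₁
  set i₁ := cj F x a₀ with hi₁
  have hgood₁ : Good F i₁ R₁ := hgood₀.conj x
  have hR₁p : IsPGroup p R₁ := hR₀p.map _
  have hinvx : ∀ z ∈ Q, x⁻¹ * z * x ∈ Q := by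
    intro z hz
    rw [hx]
    simpa [mul_assoc] using hz
  have hQR₁ : Q ≤ R₁ := by
    intro z hz
    rw [hR₁, mem_conjS]
    exact hQR₀ (hinvx z hz)
  have hi₁fix : ∀ z ∈ Q, cj F z i₁ = i₁ := fun z hz => cj_of_mem_fx hgood₁.fix (hQR₁ hz)
  have hsumI : ∀ a ∈ I, e * a = a := fun a ha => hc.sum_mul ha
  have hei₁ : e * i₁ = i₁ := by
    conv_lhs => rw [← cj_of_central hce x]
    rw [hi₁, ← map_mul, hsumI _ ha₀]
  have hie₁ : i₁ * e = i₁ := by rw [← hce, hei₁]
  have hi₁i₁ := hgood₁.idem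
  have hcor1 : ∀ a : MonoidAlgebra F G, i₁ * (i₁ * a * i₁) = i₁ * a * i₁ := by
    intro a
    rw [← mul_assoc, ← mul_assoc, hi₁i₁]
  have hcor2 : ∀ a : MonoidAlgebra F G, (i₁ * a * i₁) * i₁ = i₁ * a * i₁ := by
    intro a
    rw [mul_assoc, hi₁i₁]
  choose α hα hαt using fun a : MonoidAlgebra F G => hgood₁.cor (i₁ * a * i₁) (hcor1 a) (hcor2 a)
  have hsum : ∑ a ∈ I, α a = 1 := by
    have h1 : ((∑ a ∈ I, α a) - 1) * i₁ = 0 := by
      rw [sub_mul, Finset.sum_mul, one_mul, ← Finset.sum_congr rfl (fun a _ => hαt a), ← Finset.sum_mul,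
        ← Finset.mul_sum, hc.sum, hie₁, hi₁i₁, sub_self]
    have h2 := sA_mul_eq_zero hR₁p hi₁i₁ hgood₁.ne hgood₁.fix
      ((sA F R₁).sub_mem (sum_mem fun a _ => hα a) (sA F R₁).one_mem) h1
    exact sub_eq_zero.1 h2
  have hαinv : ∀ z ∈ Q, ∀ a, α (cj F z a) = cj F z (α a) := by
    intro z hz a
    have h1 : (α (cj F z a) - cj F z (α a)) * i₁ = 0 := by
      rw [sub_mul, ← hαt]
      have h2 : cj F z (α a) * i₁ = i₁ * cj F z a * i₁ := by
        conv_lhs => rw [← hi₁fix z hz]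
        rw [← map_mul, ← hαt, map_mul, map_mul, hi₁fix z hz]
      rw [h2, sub_self]
    have h2 := sA_mul_eq_zero hR₁p hi₁i₁ hgood₁.ne hgood₁.fix
      ((sA F R₁).sub_mem (hα _) (cj_mem_sA_self (hQR₁ hz) (hα a))) h1
    exact sub_eq_zero.1 h2
  obtain ⟨a, ha, hafix, haug⟩ := exists_fixed_cj (F := F) hQp (fun a => aug F (α a))
    (fun z hz y => by
      rw [hαinv z hz, aug_cj]) I
    (fun z hz y hy => by
      obtain ⟨u, hu, rfl⟩ := hc.all y hy
      rw [← cj_mul_apply]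
      exact hc.closed _ (H.mul_mem (hQH hz) hu))
    (by
      rw [← map_sum, hsum, map_one]
      exact one_ne_zero)
  obtain ⟨α', hα', h1, h2⟩ := exists_inv_of_aug_ne hR₁p (hα a) haug
  -- `a` is a conjugate of `a₀`
  obtain ⟨w₀, hw₀, haw⟩ : ∃ w₀ ∈ H, a = cj F w₀ a₀ := by
    obtain ⟨y₀, hy₀, h₀⟩ := hc.all a₀ ha₀
    obtain ⟨y, hy, h'⟩ := hc.all a ha
    refine ⟨y * y₀⁻¹, H.mul_mem hy (H.inv_mem hy₀), ?_⟩
    rw [cj_mul_apply, h₀, cj_inv_cj]
    exact h'
  have haa : a * a = a := hc.idem' ha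
  have ha₀a₀ : a₀ * a₀ = a₀ := hgood₀.idem
  have hi₁form : i₁ * gg F x = gg F x * a₀ := cj_mul_gg x a₀
  have hi₁form' : gg F x⁻¹ * i₁ = a₀ * gg F x⁻¹ := gg_inv_mul_cj x a₀
  have haform : a * gg F w₀ = gg F w₀ * a₀ := by rw [haw]; exact cj_mul_gg w₀ a₀
  have haform' : gg F w₀⁻¹ * a = a₀ * gg F w₀⁻¹ := by rw [haw]; exact gg_inv_mul_cj w₀ a₀
  have hα'comm : α' * i₁ = i₁ * α' := sA_commute hα' hgood₁.fix
  set t := gg F x⁻¹ * (i₁ * a) * gg F w₀ with ht
  set t' := gg F w₀⁻¹ * (a * i₁ * α') * gg F x with ht'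
  have huv : (i₁ * a) * (a * i₁ * α') = i₁ := by
    calc (i₁ * a) * (a * i₁ * α') = i₁ * (a * a) * i₁ * α' := by simp only [mul_assoc]
      _ = (α a * i₁) * α' := by rw [haa, hαt]
      _ = α a * α' * i₁ := by rw [mul_assoc, ← hα'comm, mul_assoc]
      _ = i₁ := by rw [h2, one_mul]
  have htt' : t * t' = a₀ := by
    calc t * t' = gg F x⁻¹ * (i₁ * a) * (gg F w₀ * (gg F w₀⁻¹ * (a * i₁ * α'))) * gg F x := by
          rw [ht, ht']; simp only [mul_assoc]
      _ = gg F x⁻¹ * ((i₁ * a) * (a * i₁ * α')) * gg F x := by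
          rw [gg_cancel_left']; simp only [mul_assoc]
      _ = a₀ := by
          rw [huv, mul_assoc, hi₁form, gg_cancel_left]
  have ht1 : a₀ * t = t := by
    have e1 : t = a₀ * (gg F x⁻¹ * (a * gg F w₀)) := by
      rw [ht, ← mul_assoc a₀, ← hi₁form']
      simp only [mul_assoc]
    rw [e1, ← mul_assoc, ha₀a₀]
  have ht2 : t * a₀ = t := by
    have e1 : t = (gg F x⁻¹ * i₁ * gg F w₀) * a₀ := by
      rw [ht, mul_assoc (gg F x⁻¹ * i₁) (gg F w₀), ← haform]
      simp only [mul_assoc]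
    rw [e1, mul_assoc, ha₀a₀]
  have ht'1 : a₀ * t' = t' := by
    have e1 : t' = a₀ * (gg F w₀⁻¹ * (i₁ * α' * gg F x)) := by
      rw [ht', ← mul_assoc a₀, ← haform']
      simp only [mul_assoc]
    rw [e1, ← mul_assoc, ha₀a₀]
  have ht'2 : t' * a₀ = t' := by
    have e1 : t' = (gg F w₀⁻¹ * a * α' * gg F x) * a₀ := by
      rw [ht', mul_assoc a i₁ α', hα'comm.symm]
      have : gg F w₀⁻¹ * a * α' * gg F x * a₀ = gg F w₀⁻¹ * a * α' * (gg F x * a₀) := by
        simp only [mul_assoc]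
      rw [this, ← hi₁form]
      simp only [mul_assoc]
    rw [e1, mul_assoc, ha₀a₀]
  obtain ⟨τ, hτ, htτ⟩ := hgood₀.cor t ht1 ht2
  obtain ⟨τ', hτ', ht'τ⟩ := hgood₀.cor t' ht'1 ht'2
  have hττ' : τ * τ' = 1 := by
    have h3 : (τ * τ' - 1) * a₀ = 0 := by
      have h4 : τ * τ' * a₀ = a₀ := by
        calc τ * τ' * a₀ = τ * (τ' * (a₀ * a₀)) := by rw [ha₀a₀, mul_assoc]
          _ = τ * (τ' * a₀ * a₀) := by simp only [mul_assoc]
          _ = τ * (a₀ * τ' * a₀) := by rw [sA_commute hτ' hgood₀.fix]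
          _ = (τ * a₀) * (τ' * a₀) := by simp only [mul_assoc]
          _ = a₀ := by rw [← htτ, ← ht'τ, htt']
      rw [sub_mul, h4, one_mul, sub_self]
    exact sub_eq_zero.1 (sA_mul_eq_zero hR₀p ha₀a₀ hgood₀.ne hgood₀.fix
      ((sA F R₀).sub_mem ((sA F R₀).mul_mem hτ hτ') (sA F R₀).one_mem) h3)
  have hτaug : aug F τ ≠ 0 := by
    intro h0
    have h3 := congrArg (aug F) hττ'
    rw [map_mul, h0, zero_mul, map_one] at h3
    exact zero_ne_one h3
  -- the twisted relation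
  have hrel : ∀ z ∈ Q, ∀ d, τ.coeff ((x⁻¹ * z * x) * d * (w₀⁻¹ * z * w₀)⁻¹) = τ.coeff d := by
    intro z hz d
    set ν := x⁻¹ * z * x with hν
    set μ := w₀⁻¹ * z * w₀ with hμ
    have hνQ : ν ∈ Q := hinvx z hz
    have hμR : μ ∈ R₀ := by
      refine ⟨H.mul_mem (H.mul_mem (H.inv_mem hw₀) (hQH hz)) hw₀, ?_⟩
      rw [hμ, cj_mul_apply, cj_mul_apply, ← haw, hafix z hz, haw, cj_inv_cj]
    have hza : gg F z * a = a * gg F z := mem_fx.1 (mem_fx_of_cj (S := Q) hafix) z hz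
    have hzi : gg F z * i₁ = i₁ * gg F z := mem_fx.1 (mem_fx_of_cj (S := Q) hi₁fix) z hz
    have hnut : gg F ν * t = t * gg F μ := by
      have e1 : gg F ν = gg F x⁻¹ * gg F z * gg F x := by rw [gg_mul, gg_mul]
      have e2 : gg F μ = gg F w₀⁻¹ * gg F z * gg F w₀ := by rw [gg_mul, gg_mul]
      rw [e1, e2, ht]
      calc gg F x⁻¹ * gg F z * gg F x * (gg F x⁻¹ * (i₁ * a) * gg F w₀)
          = gg F x⁻¹ * (gg F z * i₁) * a * gg F w₀ := by
            have : gg F x⁻¹ * gg F z * gg F x * (gg F x⁻¹ * (i₁ * a) * gg F w₀) =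
                gg F x⁻¹ * gg F z * (gg F x * (gg F x⁻¹ * (i₁ * (a * gg F w₀)))) := by simp only [mul_assoc]
            rw [this, gg_cancel_left']
            simp only [mul_assoc]
        _ = gg F x⁻¹ * i₁ * (gg F z * a) * gg F w₀ := by rw [hzi]; simp only [mul_assoc]
        _ = gg F x⁻¹ * i₁ * a * gg F z * gg F w₀ := by rw [hza]; simp only [mul_assoc]
        _ = gg F x⁻¹ * (i₁ * a) * gg F w₀ * (gg F w₀⁻¹ * gg F z * gg F w₀) := by
            have : gg F x⁻¹ * (i₁ * a) * gg F w₀ * (gg F w₀⁻¹ * gg F z * gg F w₀) =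
                gg F x⁻¹ * (i₁ * a) * (gg F w₀ * (gg F w₀⁻¹ * (gg F z * gg F w₀))) := by simp only [mul_assoc]
            rw [this, gg_cancel_left']
            simp only [mul_assoc]
    have hτrel : τ * gg F μ = gg F ν * τ := by
      have h3 : (τ * gg F μ - gg F ν * τ) * a₀ = 0 := by
        have h4 : τ * gg F μ * a₀ = t * gg F μ := by
          rw [htτ, mul_assoc τ a₀, mul_assoc τ (gg F μ), mem_fx.1 hgood₀.fix μ hμR]
        have h5 : gg F ν * τ * a₀ = gg F ν * t := by rw [htτ, mul_assoc]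
        rw [sub_mul, h4, h5, hnut, sub_self]
      exact sub_eq_zero.1 (sA_mul_eq_zero hR₀p ha₀a₀ hgood₀.ne hgood₀.fix
        ((sA F R₀).sub_mem ((sA F R₀).mul_mem hτ (gg_mem_sA hμR))
          ((sA F R₀).mul_mem (gg_mem_sA (hQR₀ hνQ)) hτ)) h3)
    have h3 := congrArg (fun u => MonoidAlgebra.coeff u (ν * d)) hτrel
    simp only [coeff_gg_mul, coeff_mul_gg] at h3
    rw [h3, inv_mul_cancel_left]
  -- the twisted action
  letI act : MulAction Q G :=
    { smul := fun z d => (x⁻¹ * (z : G) * x) * d * (w₀⁻¹ * (z : G) * w₀)⁻¹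
      one_smul := fun d => by
        show (x⁻¹ * ((1 : Q) : G) * x) * d * (w₀⁻¹ * ((1 : Q) : G) * w₀)⁻¹ = d
        simp
      mul_smul := fun y z d => by
        show (x⁻¹ * ((y * z : Q) : G) * x) * d * (w₀⁻¹ * ((y * z : Q) : G) * w₀)⁻¹ =
          (x⁻¹ * (y : G) * x) * ((x⁻¹ * (z : G) * x) * d * (w₀⁻¹ * (z : G) * w₀)⁻¹) * (w₀⁻¹ * (y : G) * w₀)⁻¹
        simp only [Subgroup.coe_mul]
        group }
  have hsmul : ∀ (z : Q) (d : G), z • d = (x⁻¹ * (z : G) * x) * d * (w₀⁻¹ * (z : G) * w₀)⁻¹ := fun _ _ => rfl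
  have hμR' : ∀ z ∈ Q, w₀⁻¹ * z * w₀ ∈ R₀ := by
    intro z hz
    refine ⟨H.mul_mem (H.mul_mem (H.inv_mem hw₀) (hQH hz)) hw₀, ?_⟩
    rw [cj_mul_apply, cj_mul_apply, ← haw, hafix z hz, haw, cj_inv_cj]
  obtain ⟨d, hd, hd1, -⟩ := exists_fixed_of_sum_ne hQp (fun d : G => τ.coeff d)
    (fun z d => by
      rw [hsmul]
      exact hrel z z.2 d) _ (Finset.univ.filter (· ∈ R₀)) rfl
    (fun z d hd => by
      rw [Finset.mem_filter] at hd ⊢
      refine ⟨Finset.mem_univ _, ?_⟩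
      rw [hsmul]
      exact R₀.mul_mem (R₀.mul_mem (hQR₀ (hinvx z z.2)) hd.2) (R₀.inv_mem (hμR' z z.2)))
    (by
      have h3 : ∑ d ∈ Finset.univ.filter (· ∈ R₀), τ.coeff d = aug F τ := by
        rw [aug_eq_sum, Finset.sum_filter]
        refine Finset.sum_congr rfl fun g _ => ?_
        split_ifs with hgR
        · rfl
        · exact (hτ g hgR).symm
      rw [h3]
      exact hτaug)
  rw [Finset.mem_filter] at hd
  refine ⟨d * w₀⁻¹, H.mul_mem (stabS_le _ _ hd.2) (H.inv_mem hw₀), ?_⟩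
  intro z hz
  have h3 := hd1 ⟨z, hz⟩
  rw [hsmul] at h3
  simp only at h3
  have h4 : x⁻¹ * z * x = d * (w₀⁻¹ * z * w₀) * d⁻¹ := by
    calc x⁻¹ * z * x = (x⁻¹ * z * x) * d * (w₀⁻¹ * z * w₀)⁻¹ * ((w₀⁻¹ * z * w₀) * d⁻¹) := by group
      _ = d * (w₀⁻¹ * z * w₀) * d⁻¹ := by rw [h3]; group
  rw [h4]
  group

/-- From the fusion relation to centralizing. -/
theorem mem_centralizer_of_fusion {p : ℕ} [hp : Fact p.Prime] {H Q : Subgroup G} (hH : IsPGroup p H) {x w : G}
    (hw : w ∈ H) (hx : ∀ z, z ∈ Q ↔ x * z * x⁻¹ ∈ Q) (hfus : ∀ z ∈ Q, x⁻¹ * z * x = w * z * w⁻¹)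
    (hreg : ¬ p ∣ orderOf x) : x ∈ Subgroup.centralizer (Q : Set G) := by
  obtain ⟨k, hk⟩ := hH ⟨w, hw⟩
  have hk' : w ^ (p ^ k) = 1 := by
    have := congrArg Subtype.val hk
    simpa using this
  have hinvx : ∀ z ∈ Q, x⁻¹ * z * x ∈ Q := by
    intro z hz
    rw [hx]
    simpa [mul_assoc] using hz
  have hind : ∀ n : ℕ, ∀ z ∈ Q, (x⁻¹) ^ n * z * x ^ n ∈ Q ∧ (x⁻¹) ^ n * z * x ^ n = w ^ n * z * (w ^ n)⁻¹ := by
    intro n
    induction n with
    | zero =>
      intro z hz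
      simpa using hz
    | succ n ih =>
      intro z hz
      obtain ⟨h1, h2⟩ := ih z hz
      have e1 : (x⁻¹) ^ (n + 1) * z * x ^ (n + 1) = x⁻¹ * ((x⁻¹) ^ n * z * x ^ n) * x := by
        rw [pow_succ' x⁻¹ n, pow_succ x n]
        group
      rw [e1]
      refine ⟨hinvx _ h1, ?_⟩
      rw [hfus _ h1, h2, pow_succ' w n]
      group
  have hcop : (p ^ k).Coprime (orderOf x) := by
    apply Nat.Coprime.pow_left
    exact (Nat.Prime.coprime_iff_not_dvd hp.out).2 hreg
  obtain ⟨m, hm⟩ := exists_pow_eq_self_of_coprime hcop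
  have hmem : x ^ p ^ k ∈ Subgroup.centralizer (Q : Set G) := by
    rw [Subgroup.mem_centralizer_iff]
    intro z hz
    have h1 := (hind (p ^ k) z hz).2
    rw [hk', one_mul, inv_one, mul_one] at h1
    have h2 : (x ^ p ^ k)⁻¹ * z * x ^ p ^ k = z := by rwa [inv_pow] at h1
    calc z * x ^ p ^ k = x ^ p ^ k * ((x ^ p ^ k)⁻¹ * z * x ^ p ^ k) := by group
      _ = x ^ p ^ k * z := by rw [h2]
  rw [← hm]
  exact Subgroup.pow_mem _ hmem _

/-- **Existence of a chain of conjugate idempotents** below a primitive idempotent of `(eF[G])^H`. -/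
theorem exists_chain_of_cover {p : ℕ} [hp : Fact p.Prime] [CharP F p] [IsAlgClosed F] {H : Subgroup G}
    (hH : IsPGroup p H) {e : MonoidAlgebra F G} (he : e * e = e) (hce : ∀ x, e * x = x * e) (he0 : e ≠ 0) {X : Finset G}
    (hX : ∀ g ∈ X, ∀ y ∈ H, y * g * y⁻¹ ∈ X) {m : ℕ}
    (hm : ∀ g ∈ X, Nat.card (H ⊓ Subgroup.centralizer ({g} : Set G) : Subgroup G) ≤ m)
    {y' : MonoidAlgebra F G} (hy' : y' ∈ fx F H) (hcov : y' * (e * oS F X) = e) :
    ∃ (j i : MonoidAlgebra F G) (I : Finset (MonoidAlgebra F G)), e * j = j ∧ ChainOut H i j I ∧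
      Nat.card (stabS H i) ≤ m := by
  classical
  haveI : FiniteDimensional F (MonoidAlgebra F G) := Module.Finite.of_basis (MonoidAlgebra.basis G F)
  have heH : e ∈ fx F H := mem_fx.2 fun s _ => (hce _).symm
  let P : MonoidAlgebra F G → Prop := fun j => j * j = j ∧ j ≠ 0 ∧ e * j = j ∧ j ∈ fx F H
  have hPe : P e := ⟨he, he0, he, heH⟩
  let d : {j // P j} → ℕ := fun j => finrank F (LinearMap.range (LinearMap.mulLeft F j.1))
  obtain ⟨j₀, -, hj₀⟩ := (measure d).wf.has_min Set.univ ⟨⟨e, hPe⟩, trivial⟩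
  obtain ⟨j, hjj, hj0, hej, hjH⟩ := j₀
  have hloc : IsLoc (fx F H) j := by
    refine isLoc_of_idem hjj hjH hj0 ?_
    intro y hy hyy
    by_contra hcon
    push_neg at hcon
    obtain ⟨hy0, hyj⟩ := hcon
    have hPy : P y := ⟨hyy, hy0, by rw [← hy.2.1, ← mul_assoc, hej], hy.1⟩
    refine hj₀ ⟨y, hPy⟩ trivial ?_
    show finrank F (LinearMap.range (LinearMap.mulLeft F y)) < finrank F (LinearMap.range (LinearMap.mulLeft F j))
    apply Submodule.finrank_lt_finrank_of_lt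
    refine lt_of_le_of_ne ?_ ?_
    · rintro _ ⟨t, rfl⟩
      refine ⟨y * t, ?_⟩
      simp only [LinearMap.mulLeft_apply]
      rw [← mul_assoc, hy.2.1]
    · intro heq
      have hmem : j ∈ LinearMap.range (LinearMap.mulLeft F y) := by
        rw [heq]
        exact ⟨j, hjj⟩
      obtain ⟨t, ht⟩ := hmem
      simp only [LinearMap.mulLeft_apply] at ht
      apply hyj
      calc y = y * j := hy.2.2.symm
        _ = (y * y) * t := by rw [← ht, mul_assoc]
        _ = j := by rw [hyy, ht]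
  have hje : j * e = j := by rw [← hce, hej]
  have hjc : j = (j * y' * e) * oS F X := by
    calc j = j * (y' * (e * oS F X)) := by rw [hcov, hje]
      _ = (j * y' * e) * oS F X := by simp only [mul_assoc]
  obtain ⟨i, I, h1, h2⟩ := chain (F := F) m _ H j (j * y' * e) X rfl hH hjj hj0 hjH hloc
    ((fx F H).mul_mem ((fx F H).mul_mem hjH hy') heH) hX hm hjc
  exact ⟨j, i, I, hej, h1, h2⟩

/-- **The structure of a block of least dimension.** -/
theorem min_chain {p : ℕ} [hp : Fact p.Prime] [CharP F p] [IsAlgClosed F] {H : Subgroup G}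
    (hH : IsPGroup p H) {e : MonoidAlgebra F G} (he : e * e = e) (hce : ∀ x, e * x = x * e) (he0 : e ≠ 0) {X : Finset G}
    (hX : ∀ g ∈ X, ∀ y ∈ H, y * g * y⁻¹ ∈ X) {m : ℕ}
    (hm : ∀ g ∈ X, Nat.card (H ⊓ Subgroup.centralizer ({g} : Set G) : Subgroup G) ≤ m)
    {y' : MonoidAlgebra F G} (hy' : y' ∈ fx F H) (hcov : y' * (e * oS F X) = e)
    (hdim : finrank F (corner F e) * m = (Nat.card H) ^ 2) :
    ∃ (i : MonoidAlgebra F G) (I : Finset (MonoidAlgebra F G)), ChainOut H i e I ∧ Good F i (stabS H i) := by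
  obtain ⟨j, i, I, hej, hc, hcard⟩ := exists_chain_of_cover hH he hce he0 hX hm hy' hcov
  obtain ⟨-, rfl, hg⟩ := dim_count hH hc he hce hej hcard hdim
  exact ⟨i, I, hc, hg⟩

/-- **The block of least dimension has no fusion**. -/
theorem min_mem_centralizer {p : ℕ} [hp : Fact p.Prime] [CharP F p] [IsAlgClosed F] {H Q : Subgroup G}
    (hH : IsPGroup p H) {e : MonoidAlgebra F G} (he : e * e = e) (hce : ∀ x, e * x = x * e) (he0 : e ≠ 0) {X : Finset G}
    (hX : ∀ g ∈ X, ∀ y ∈ H, y * g * y⁻¹ ∈ X) {m : ℕ}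
    (hm : ∀ g ∈ X, Nat.card (H ⊓ Subgroup.centralizer ({g} : Set G) : Subgroup G) ≤ m)
    {y' : MonoidAlgebra F G} (hy' : y' ∈ fx F H) (hcov : y' * (e * oS F X) = e)
    (hdim : finrank F (corner F e) * m = (Nat.card H) ^ 2) (hQH : Q ≤ H) {c : G}
    (hcQ : c ∈ Subgroup.centralizer (Q : Set G)) (hcne : e.coeff c ≠ 0) {x : G} (hx : ∀ z, z ∈ Q ↔ x * z * x⁻¹ ∈ Q)
    (hreg : ¬ p ∣ orderOf x) : x ∈ Subgroup.centralizer (Q : Set G) := by
  obtain ⟨i, I, hc, hg⟩ := min_chain hH he hce he0 hX hm hy' hcov hdim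
  obtain ⟨a₀, ha₀, hfix⟩ := exists_fixed_mem hH hQH hc hcQ hcne
  obtain ⟨w, hw, hfus⟩ := fusion hH hc hce hg hQH ha₀ hfix hx
  exact mem_centralizer_of_fusion hH hw hx hfus hreg

/-- Centralizers of conjugates: the `p`-parts. -/
theorem card_inf_centralizer_le {p : ℕ} [hp : Fact p.Prime] {H : Subgroup G} (hH : IsPGroup p H) {g₀ : G}
    (P : Sylow p (Subgroup.centralizer ({g₀} : Set G))) {u : G} (hu : IsConj g₀ u) :
    Nat.card (H ⊓ Subgroup.centralizer ({u} : Set G) : Subgroup G) ≤ Nat.card P := by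
  classical
  obtain ⟨y, rfl⟩ := isConj_iff.1 hu
  set K₀ : Subgroup G := H ⊓ Subgroup.centralizer ({y * g₀ * y⁻¹} : Set G) with hK₀
  set K : Subgroup G := conjS y⁻¹ K₀ with hK
  have hcard : Nat.card K = Nat.card K₀ := by
    rw [hK, conjS]
    exact Subgroup.card_map_of_injective (MulAut.conj y⁻¹).injective
  have hKp : IsPGroup p K := (hH.to_le inf_le_left).map _
  set C := Subgroup.centralizer ({g₀} : Set G) with hC
  have hKC : K ≤ C := by
    intro s hs
    rw [hK, mem_conjS, inv_inv] at hs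
    have h1 := (Subgroup.mem_inf.1 hs).2
    rw [Subgroup.mem_centralizer_singleton_iff] at h1
    rw [hC, Subgroup.mem_centralizer_singleton_iff]
    have h2 : y * (s * g₀) * y⁻¹ = y * (g₀ * s) * y⁻¹ := by
      calc y * (s * g₀) * y⁻¹ = (y * s * y⁻¹) * (y * g₀ * y⁻¹) := by group
        _ = (y * g₀ * y⁻¹) * (y * s * y⁻¹) := h1
        _ = y * (g₀ * s) * y⁻¹ := by group
    exact mul_left_cancel (mul_right_cancel h2)
  have hK'p : IsPGroup p (K.subgroupOf C) := by
    refine hKp.of_injective (Subgroup.subgroupOfEquivOfLe hKC).toMonoidHom ?_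
    exact (Subgroup.subgroupOfEquivOfLe hKC).injective
  obtain ⟨Q, hQ⟩ := hK'p.exists_le_sylow
  have h1 : Nat.card (K.subgroupOf C) = Nat.card K := Nat.card_congr (Subgroup.subgroupOfEquivOfLe hKC).toEquiv
  rw [← hcard, ← h1]
  exact (Subgroup.card_le_of_le hQ).trans (le_of_eq (by rw [Sylow.card_eq_multiplicity, Sylow.card_eq_multiplicity]))

end Fusion

end Cfsg.Agent.Lib.Modular
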