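import Mathlib
import Cfsg.Agent.Lib.Modular.MinDim

/-!
# The Brauer truncation on group algebras over a field of characteristic `p`

`br T a` is the truncation of `a` to `C_G(T)`; it is multiplicative on the `T`-fixed points when `T` is a `p`-group.
Also: decomposition of idempotents of a subalgebra into primitive ones and Green's splitting down to local idempotents.
-/

set_option autoImplicit false
set_option linter.unusedSectionVars false
set_option linter.unusedSimpArgs false
set_option linter.unusedVariables false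
set_option linter.style.haveILetI false
set_option linter.unnecessarySimpa false

namespace Cfsg.Agent.Lib.Modular

open Module Cfsg.Agent.Lib.Block

section Br

variable {F G : Type*} [Field F] [Group G] [Fintype G]

/-- Truncation to the centralizer. -/
noncomputable def br (T : Subgroup G) : MonoidAlgebra F G →ₗ[F] MonoidAlgebra F G where
  toFun a := by
    classical
    exact ofFun fun g => if g ∈ Subgroup.centralizer (T : Set G) then a.coeff g else 0
  map_add' a b := by
    classical
    apply ext_coeff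
    intro g
    have hadd : ∀ x y : MonoidAlgebra F G, (x + y).coeff g = x.coeff g + y.coeff g := fun x y => by
      rw [MonoidAlgebra.coeff_add]; rfl
    rw [hadd, coeff_ofFun, coeff_ofFun, coeff_ofFun, hadd]
    split_ifs <;> simp
  map_smul' c a := by
    classical
    apply ext_coeff
    intro g
    simp only [coeff_ofFun, RingHom.id_apply, MonoidAlgebra.coeff_smul, Finsupp.smul_apply]
    split_ifs <;> simp [MonoidAlgebra.coeff_smul]

theorem coeff_br_of_mem (T : Subgroup G) (a : MonoidAlgebra F G) {g : G} (hg : g ∈ Subgroup.centralizer (T : Set G)) :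
    (br T a).coeff g = a.coeff g := by
  classical
  show (ofFun _).coeff g = _
  rw [coeff_ofFun, if_pos hg]

theorem coeff_br_of_notMem (T : Subgroup G) (a : MonoidAlgebra F G) {g : G} (hg : g ∉ Subgroup.centralizer (T : Set G)) :
    (br T a).coeff g = 0 := by
  classical
  show (ofFun _).coeff g = _
  rw [coeff_ofFun, if_neg hg]

theorem br_mem_sA (T : Subgroup G) (a : MonoidAlgebra F G) : br T a ∈ sA F (Subgroup.centralizer (T : Set G)) :=
  fun _ hg => coeff_br_of_notMem T a hg

theorem br_eq_self {T : Subgroup G} {a : MonoidAlgebra F G} (h : a ∈ sA F (Subgroup.centralizer (T : Set G))) : br T a = a := by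
  classical
  apply ext_coeff
  intro g
  by_cases hg : g ∈ Subgroup.centralizer (T : Set G)
  · exact coeff_br_of_mem T a hg
  · rw [coeff_br_of_notMem T a hg, h g hg]

theorem br_one (T : Subgroup G) : br T (1 : MonoidAlgebra F G) = 1 :=
  br_eq_self (sA F _).one_mem

theorem sA_le_fx (T : Subgroup G) : sA F (Subgroup.centralizer (T : Set G)) ≤ fx F T := by
  intro a ha
  rw [mem_fx]
  intro s hs
  have h1 : gg F s ∈ fx F (Subgroup.centralizer (T : Set G)) := by
    rw [mem_fx]
    intro c hc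
    rw [gg_mul, gg_mul]
    congr 1
    exact (Subgroup.mem_centralizer_iff.1 hc s hs).symm
  exact (sA_commute ha h1).symm

/-- Conjugation action by a subgroup on the group algebra. -/
@[reducible] noncomputable def cjAct (T : Subgroup G) : MulAction T (MonoidAlgebra F G) :=
  { smul := fun t a => cj F (t : G) a
    one_smul := fun a => by
      show cj F ((1 : T) : G) a = a
      rw [Subgroup.coe_one, cj_one_apply]
    mul_smul := fun s t a => by
      show cj F ((s * t : T) : G) a = cj F (s : G) (cj F (t : G) a)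
      rw [Subgroup.coe_mul, cj_mul_apply] }

/-- Conjugation action by a subgroup on the group. -/
@[reducible] noncomputable def cjActG (T : Subgroup G) : MulAction T G :=
  { smul := fun t g => (t : G) * g * (t : G)⁻¹
    one_smul := fun a => by
      show ((1 : T) : G) * a * ((1 : T) : G)⁻¹ = a
      simp
    mul_smul := fun s t a => by
      show ((s * t : T) : G) * a * ((s * t : T) : G)⁻¹ = (s : G) * ((t : G) * a * (t : G)⁻¹) * (s : G)⁻¹
      simp only [Subgroup.coe_mul, mul_inv_rev]
      group }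

/-- Sums of invariant functions over sets with no fixed points vanish. -/
theorem sum_conj_eq_zero {p : ℕ} [hp : Fact p.Prime] [CharP F p] {T : Subgroup G} (hT : IsPGroup p T) (f : G → F)
    (hf : ∀ t ∈ T, ∀ x, f (t * x * t⁻¹) = f x) (S : Finset G) (hS : ∀ t ∈ T, ∀ x ∈ S, t * x * t⁻¹ ∈ S)
    (hfree : ∀ x ∈ S, x ∉ Subgroup.centralizer (T : Set G)) : ∑ x ∈ S, f x = 0 := by
  by_contra hne
  letI := cjActG T
  obtain ⟨x, hx, hfix, -⟩ := exists_fixed_of_sum_ne hT f (fun z x => hf z z.2 x) _ S rfl (fun z x hx => hS z z.2 x hx) hne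
  apply hfree x hx
  rw [Subgroup.mem_centralizer_iff]
  intro t ht
  have h1 : (t : G) * x * (t : G)⁻¹ = x := hfix ⟨t, ht⟩
  rw [mul_inv_eq_iff_eq_mul] at h1
  exact h1

theorem coeff_conj_of_fx {T : Subgroup G} {a : MonoidAlgebra F G} (ha : a ∈ fx F T) {t : G} (ht : t ∈ T) (g : G) :
    a.coeff (t * g * t⁻¹) = a.coeff g := by
  have h1 := congrArg (fun b : MonoidAlgebra F G => b.coeff (t * g * t⁻¹)) (cj_of_mem_fx ha ht)
  simp only [coeff_cj] at h1
  rw [← h1]
  congr 1
  group

/-- The Brauer map is multiplicative on fixed points. -/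
theorem br_mul {p : ℕ} [hp : Fact p.Prime] [CharP F p] {T : Subgroup G} (hT : IsPGroup p T) {a b : MonoidAlgebra F G}
    (ha : a ∈ fx F T) (hb : b ∈ fx F T) : br T (a * b) = br T a * br T b := by
  classical
  apply ext_coeff
  intro g
  by_cases hg : g ∈ Subgroup.centralizer (T : Set G)
  · rw [coeff_br_of_mem T _ hg, coeff_mul_eq, coeff_mul_eq]
    have hg' : ∀ t ∈ T, t * g * t⁻¹ = g := by
      intro t ht
      rw [mul_inv_eq_iff_eq_mul]
      exact (Subgroup.mem_centralizer_iff.1 hg t ht)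
    set C := Subgroup.centralizer (T : Set G) with hC
    have h1 : ∀ h, (br T a).coeff h * (br T b).coeff (h⁻¹ * g) = if h ∈ C then a.coeff h * b.coeff (h⁻¹ * g) else 0 := by
      intro h
      split_ifs with hh
      · rw [coeff_br_of_mem T _ hh, coeff_br_of_mem T _ (C.mul_mem (C.inv_mem hh) hg)]
      · rw [coeff_br_of_notMem T _ hh, zero_mul]
    simp only [h1]
    rw [← Finset.sum_filter_add_sum_filter_not Finset.univ (fun h => h ∈ C), Finset.sum_filter]
    have h2 := sum_conj_eq_zero hT (fun h => a.coeff h * b.coeff (h⁻¹ * g)) (by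
      intro t ht x
      show a.coeff (t * x * t⁻¹) * b.coeff ((t * x * t⁻¹)⁻¹ * g) = _
      rw [coeff_conj_of_fx ha ht]
      congr 1
      have e : (t * x * t⁻¹)⁻¹ * g = t * (x⁻¹ * g) * t⁻¹ := by
        conv_lhs => rw [← hg' t ht]
        group
      rw [e, coeff_conj_of_fx hb ht]) (Finset.univ.filter fun h => h ∉ C) (by
      intro t ht x hx
      rw [Finset.mem_filter] at hx ⊢
      refine ⟨Finset.mem_univ _, fun h => hx.2 ?_⟩
      have h3 : t⁻¹ * (t * x * t⁻¹) * t ∈ C := by
        have htC : ∀ s : G, s ∈ T → t * s * t⁻¹ ∈ T := fun s hs => T.mul_mem (T.mul_mem ht hs) (T.inv_mem ht)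
        rw [hC, Subgroup.mem_centralizer_iff]
        intro s hs
        rw [hC, Subgroup.mem_centralizer_iff] at h
        have h4 := h (t * s * t⁻¹) (htC s hs)
        have e : t⁻¹ * (t * x * t⁻¹) * t = x := by group
        rw [e]
        have h5 : t * (s * x) * t⁻¹ = t * (x * s) * t⁻¹ := by
          calc t * (s * x) * t⁻¹ = t * s * t⁻¹ * (t * x * t⁻¹) := by group
            _ = t * x * t⁻¹ * (t * s * t⁻¹) := h4
            _ = t * (x * s) * t⁻¹ := by group
        exact mul_left_cancel (mul_right_cancel h5)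
      have e : t⁻¹ * (t * x * t⁻¹) * t = x := by group
      rwa [e] at h3) (by
      intro x hx
      exact (Finset.mem_filter.1 hx).2)
    rw [h2, add_zero]
  · rw [coeff_br_of_notMem T _ hg]
    have h1 : br T a * br T b ∈ sA F (Subgroup.centralizer (T : Set G)) :=
      (sA F _).mul_mem (br_mem_sA T a) (br_mem_sA T b)
    rw [h1 g hg]

theorem br_pow {p : ℕ} [hp : Fact p.Prime] [CharP F p] {T : Subgroup G} (hT : IsPGroup p T) {a : MonoidAlgebra F G}
    (ha : a ∈ fx F T) (n : ℕ) : br T (a ^ n) = br T a ^ n := by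
  induction n with
  | zero => rw [pow_zero, pow_zero, br_one]
  | succ n ih => rw [pow_succ, pow_succ, br_mul hT ((fx F T).pow_mem ha n) ha, ih]

theorem br_isNilpotent {p : ℕ} [hp : Fact p.Prime] [CharP F p] {T : Subgroup G} (hT : IsPGroup p T) {a : MonoidAlgebra F G}
    (ha : a ∈ fx F T) (hn : IsNilpotent a) : IsNilpotent (br T a) := by
  obtain ⟨k, hk⟩ := hn
  refine ⟨k, ?_⟩
  rw [← br_pow hT ha, hk, map_zero]

theorem br_br {T T' : Subgroup G} (h : T ≤ T') (a : MonoidAlgebra F G) : br T' (br T a) = br T' a := by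
  classical
  apply ext_coeff
  intro g
  by_cases hg : g ∈ Subgroup.centralizer (T' : Set G)
  · rw [coeff_br_of_mem _ _ hg, coeff_br_of_mem _ _ hg, coeff_br_of_mem _ _ (Subgroup.centralizer_le h hg)]
  · rw [coeff_br_of_notMem _ _ hg, coeff_br_of_notMem _ _ hg]

theorem cj_br (x : G) (T : Subgroup G) (a : MonoidAlgebra F G) :
    cj F x (br T a) = br (conjS x T) (cj F x a) := by
  classical
  apply ext_coeff
  intro g
  rw [coeff_cj]
  have hiff : x⁻¹ * g * x ∈ Subgroup.centralizer (T : Set G) ↔ g ∈ Subgroup.centralizer ((conjS x T : Subgroup G) : Set G) := by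
    rw [Subgroup.mem_centralizer_iff, Subgroup.mem_centralizer_iff]
    constructor
    · intro h s hs
      have h1 := h _ (mem_conjS.1 hs)
      have h2 : x * (x⁻¹ * s * x * (x⁻¹ * g * x)) * x⁻¹ = x * (x⁻¹ * g * x * (x⁻¹ * s * x)) * x⁻¹ := by rw [h1]
      simpa [mul_assoc] using h2
    · intro h s hs
      have h1 := h (x * s * x⁻¹) (mem_conjS.2 (by simpa [mul_assoc] using hs))
      have h2 : x⁻¹ * (x * s * x⁻¹ * g) * x = x⁻¹ * (g * (x * s * x⁻¹)) * x := by rw [h1]
      simpa [mul_assoc] using h2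
  by_cases hg : g ∈ Subgroup.centralizer ((conjS x T : Subgroup G) : Set G)
  · rw [coeff_br_of_mem _ _ hg, coeff_br_of_mem _ _ (hiff.2 hg), coeff_cj]
  · rw [coeff_br_of_notMem _ _ hg, coeff_br_of_notMem _ _ (fun h => hg (hiff.1 h))]

/-- Sums over a `T`-stable set of group algebra elements only see the fixed ones. -/
theorem br_sum_fixed {p : ℕ} [hp : Fact p.Prime] [CharP F p] {T : Subgroup G} (hT : IsPGroup p T) [DecidableEq (MonoidAlgebra F G)]
    (I : Finset (MonoidAlgebra F G)) (hI : ∀ t ∈ T, ∀ a ∈ I, cj F t a ∈ I) [DecidablePred fun a : MonoidAlgebra F G => a ∈ fx F T] :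
    br T (∑ a ∈ I, a) = ∑ a ∈ I.filter (fun a => a ∈ fx F T), br T a := by
  classical
  apply ext_coeff
  intro g
  rw [map_sum]
  have hsum : ∀ (s : Finset (MonoidAlgebra F G)) (f : MonoidAlgebra F G → MonoidAlgebra F G),
      (∑ a ∈ s, f a).coeff g = ∑ a ∈ s, (f a).coeff g := by
    intro s f
    rw [MonoidAlgebra.coeff_sum, Finset.sum_apply']
  rw [hsum, hsum]
  by_cases hg : g ∈ Subgroup.centralizer (T : Set G)
  · simp only [coeff_br_of_mem T _ hg]
    rw [← Finset.sum_filter_add_sum_filter_not I (fun a => a ∈ fx F T)]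
    have hg' : ∀ t ∈ T, t⁻¹ * g * t = g := by
      intro t ht
      have h5 := Subgroup.mem_centralizer_iff.1 hg t ht
      calc t⁻¹ * g * t = t⁻¹ * (g * t) := by group
        _ = t⁻¹ * (t * g) := by rw [h5]
        _ = g := by group
    have h2 : ∑ a ∈ I.filter (fun a => ¬ a ∈ fx F T), a.coeff g = 0 := by
      by_contra hne
      letI := cjAct (F := F) T
      obtain ⟨x, hx, hfix, -⟩ := exists_fixed_of_sum_ne hT (fun a : MonoidAlgebra F G => a.coeff g) (fun z a => by
        show (cj F (z : G) a).coeff g = _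
        rw [coeff_cj, hg' z z.2]) _ (I.filter (fun a => ¬ a ∈ fx F T)) rfl (fun z a ha => by
        rw [Finset.mem_filter] at ha ⊢
        refine ⟨hI z z.2 a ha.1, fun h => ha.2 ?_⟩
        apply mem_fx_of_cj
        intro s hs
        have h5 : cj F (z : G) a ∈ fx F T := h
        have h7 := cj_of_mem_fx h5 (T.mul_mem (T.mul_mem z.2 hs) (T.inv_mem z.2))
        rw [← cj_mul_apply] at h7
        have e : (z : G) * s * (z : G)⁻¹ * z = (z : G) * s := by group
        rw [e, cj_mul_apply] at h7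
        exact cj_inj F (z : G) h7) hne
      rw [Finset.mem_filter] at hx
      apply hx.2
      apply mem_fx_of_cj
      intro s hs
      exact hfix ⟨s, hs⟩
    rw [h2, add_zero]
  · simp only [coeff_br_of_notMem T _ hg, Finset.sum_const_zero]

end Br

section Prim

variable {F A : Type*} [Field F] [Ring A] [Algebra F A]

/-- Induction on idempotents of a subalgebra. -/
theorem idem_induction [FiniteDimensional F A] [IsAlgClosed F] {S : Subalgebra F A} (P : A → Prop) (h0 : P 0)
    (hadd : ∀ x y, x ∈ S → y ∈ S → x * x = x → y * y = y → x * y = 0 → y * x = 0 → P x → P y → P (x + y))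
    (hprim : ∀ j ∈ S, j * j = j → j ≠ 0 → IsLoc S j → P j) :
    ∀ j ∈ S, j * j = j → P j := by
  classical
  have key : ∀ (n : ℕ) (j : A), finrank F (corner F j) = n → j ∈ S → j * j = j → P j := by
    intro n
    induction n using Nat.strong_induction_on with
    | _ n ih =>
      intro j hn hjS hj
      by_cases hj0 : j = 0
      · rw [hj0]; exact h0
      by_cases hid : ∀ y, IsCor S j y → y * y = y → y = 0 ∨ y = j
      · exact hprim j hjS hj hj0 (isLoc_of_idem hj hjS hj0 hid)
      push_neg at hid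
      obtain ⟨y, hy, hyy, hy0, hyj⟩ := hid
      have hz : IsCor S j (j - y) := (isCor_self hj hjS).sub hy
      have hzz : (j - y) * (j - y) = j - y := by
        rw [sub_mul, mul_sub, mul_sub, hj, hy.2.1, hy.2.2, hyy]
        abel
      have hyz : y * (j - y) = 0 := by rw [mul_sub, hy.2.2, hyy, sub_self]
      have hzy : (j - y) * y = 0 := by rw [sub_mul, hy.2.1, hyy, sub_self]
      have hlt : ∀ w, IsCor S j w → w ≠ j → finrank F (corner F w) < n := by
        intro w hw hwj
        rw [← hn]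
        apply Submodule.finrank_lt_finrank_of_lt
        refine lt_of_le_of_ne ?_ ?_
        · intro a ha
          show j * a = a
          have ha' : w * a = a := ha
          rw [← ha', ← mul_assoc, hw.2.1]
        · intro he
          have h1 : j ∈ corner F w := by
            rw [he]
            exact hj
          have h2 : w * j = j := h1
          rw [hw.2.2] at h2
          exact hwj h2
      have hy1 := ih _ (hlt y hy hyj) y rfl hy.1 hyy
      have hz1 := ih _ (hlt (j - y) hz (fun h => hy0 (by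
        have : y = j - (j - y) := by abel
        rw [this, h, sub_self]))) (j - y) rfl hz.1 hzz
      have := hadd y (j - y) hy.1 hz.1 hyy hzz hyz hzy hy1 hz1
      rwa [add_sub_cancel] at this
  exact fun j hj hjj => key _ j rfl hj hjj

end Prim

section ChainL

variable {F G : Type*} [Field F] [Group G] [Fintype G]

theorem stabS_eq_of_mem {H : Subgroup G} {j : MonoidAlgebra F G} (h : j ∈ fx F H) : stabS H j = H := by
  ext y
  rw [mem_stabS]
  exact ⟨fun hy => hy.1, fun hy => ⟨hy, cj_of_mem_fx h hy⟩⟩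

theorem mem_fx_stabS (H : Subgroup G) (i : MonoidAlgebra F G) : i ∈ fx F (stabS H i) :=
  mem_fx_of_cj fun _ hs => hs.2

theorem fx_conjS {x : G} {R : Subgroup G} {a : MonoidAlgebra F G} : cj F x a ∈ fx F (conjS x R) ↔ a ∈ fx F R := by
  constructor
  · intro h
    apply mem_fx_of_cj
    intro s hs
    have h1 : x * s * x⁻¹ ∈ conjS x R := mem_conjS.2 (by simpa [mul_assoc] using hs)
    have h2 := cj_of_mem_fx h h1
    rw [← cj_mul_apply] at h2
    have e : x * s * x⁻¹ * x = x * s := by group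
    rw [e, cj_mul_apply] at h2
    exact cj_inj F x h2
  · intro h
    apply mem_fx_of_cj
    intro s hs
    have hs' := mem_conjS.1 hs
    have e1 : s * x = x * (x⁻¹ * s * x) := by group
    rw [← cj_mul_apply, e1, cj_mul_apply, cj_of_mem_fx h hs']

theorem IsLoc.conj {R : Subgroup G} {i : MonoidAlgebra F G} (h : IsLoc (fx F R) i) (x : G) :
    IsLoc (fx F (conjS x R)) (cj F x i) := by
  intro y hy
  have h1 : cj F x⁻¹ y ∈ fx F R := by
    apply fx_conjS (x := x).1
    rw [cj_cj_inv]
    exact hy.1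
  have h2 : i * cj F x⁻¹ y = cj F x⁻¹ y := by
    conv_rhs => rw [← hy.2.1]
    rw [map_mul, cj_inv_cj]
  have h3 : cj F x⁻¹ y * i = cj F x⁻¹ y := by
    conv_rhs => rw [← hy.2.2]
    rw [map_mul, cj_inv_cj]
  obtain ⟨c, hc⟩ := h _ ⟨h1, h2, h3⟩
  refine ⟨c, ?_⟩
  have h4 := hc.map (cj F x)
  rwa [map_sub, cj_cj_inv, map_smul] at h4

theorem stabS_cj' {H : Subgroup G} {x : G} (hx : x ∈ H) (i : MonoidAlgebra F G) :
    stabS H (cj F x i) = conjS x (stabS H i) := by
  ext y
  rw [mem_conjS, mem_stabS, mem_stabS]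
  constructor
  · rintro ⟨hy, hy'⟩
    refine ⟨H.mul_mem (H.mul_mem (H.inv_mem hx) hy) hx, ?_⟩
    rw [cj_mul_apply, cj_mul_apply, hy', cj_inv_cj]
  · rintro ⟨hy, hy'⟩
    refine ⟨?_, ?_⟩
    · have := H.mul_mem (H.mul_mem hx hy) (H.inv_mem hx)
      simpa [mul_assoc] using this
    · rw [← cj_mul_apply]
      have e : y * x = x * (x⁻¹ * y * x) := by group
      rw [e, cj_mul_apply, hy']

/-- A local idempotent at its stabilizer. -/
def LocAt (R : Subgroup G) (i : MonoidAlgebra F G) : Prop :=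
  IsLoc (fx F R) i ∧ br R i ≠ 0

theorem LocAt.conj {R : Subgroup G} {i : MonoidAlgebra F G} (h : LocAt R i) (x : G) : LocAt (conjS x R) (cj F x i) := by
  refine ⟨h.1.conj x, fun h0 => h.2 ?_⟩
  rw [← cj_br] at h0
  exact cj_inj F x (by rw [h0, map_zero])

/-- A nilpotent weighted orbit decomposition. -/
theorem nil_split_w {H : Subgroup G} {j : MonoidAlgebra F G} (hj : j * j = j) (hjH : j ∈ fx F H) (hj0 : j ≠ 0)
    (hl : IsLoc (fx F H) j) :
    ∀ (n : ℕ) (X : Finset G), X.card = n → (∀ g ∈ X, ∀ y ∈ H, y * g * y⁻¹ ∈ X) →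
      (∀ g ∈ X, IsNilpotent (j * (j.coeff g • oS F (orbS H g)) * j)) →
      IsNilpotent (j * (∑ g ∈ X, j.coeff g • gg F g) * j) := by
  classical
  intro n
  induction n using Nat.strong_induction_on with
  | _ n ih =>
    intro X hn hX hnil
    rcases X.eq_empty_or_nonempty with rfl | ⟨g, hg⟩
    · simp
    · have hsub : orbS H g ⊆ X := by
        intro u hu
        obtain ⟨y, hy, rfl⟩ := mem_orbS.1 hu
        exact hX g hg y hy
      have hX' : ∀ u ∈ X \ orbS H g, ∀ y ∈ H, y * u * y⁻¹ ∈ X \ orbS H g := by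
        intro u hu y hy
        rw [Finset.mem_sdiff] at hu ⊢
        refine ⟨hX u hu.1 y hy, fun h => hu.2 ?_⟩
        have := orbS_stable H g _ h y⁻¹ (H.inv_mem hy)
        simpa [mul_assoc] using this
      have hcard : (X \ orbS H g).card < n := by
        rw [← hn]
        apply Finset.card_lt_card
        refine ⟨Finset.sdiff_subset, fun h => ?_⟩
        have hgg : g ∈ orbS H g := mem_orbS.2 ⟨1, H.one_mem, by simp⟩
        exact (Finset.mem_sdiff.1 (h hg)).2 hgg
      have h1 := ih _ hcard _ rfl hX' (fun u hu => hnil u (Finset.mem_sdiff.1 hu).1)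
      have h2 := hnil g hg
      have e : ∑ u ∈ X, j.coeff u • gg F u = j.coeff g • oS F (orbS H g) + ∑ u ∈ X \ orbS H g, j.coeff u • gg F u := by
        rw [← Finset.sum_sdiff hsub, add_comm]
        congr 1
        unfold oS
        rw [Finset.smul_sum]
        refine Finset.sum_congr rfl fun u hu => ?_
        obtain ⟨y, hy, rfl⟩ := mem_orbS.1 hu
        rw [coeff_conj_of_fx hjH hy]
      rw [e, mul_add, add_mul]
      have hcor : ∀ c, c ∈ fx F H → IsCor (fx F H) j (j * c * j) := by
        intro c hc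
        refine ⟨(fx F H).mul_mem ((fx F H).mul_mem hjH hc) hjH, ?_, ?_⟩
        · simp only [← mul_assoc, hj]
        · rw [mul_assoc _ j j, hj]
      have hm1 : j.coeff g • oS F (orbS H g) ∈ fx F H :=
        (fx F H).smul_mem (oS_mem_fx (orbS_stable H g)) _
      have hm2 : ∑ u ∈ X \ orbS H g, j.coeff u • gg F u ∈ fx F H := by
        rw [mem_fx]
        intro s hs
        rw [Finset.mul_sum, Finset.sum_mul]
        have hmem : ∀ u ∈ X \ orbS H g, s * u * s⁻¹ ∈ X \ orbS H g := fun u hu => hX' u hu s hs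
        refine Finset.sum_bij (fun u _ => s * u * s⁻¹) hmem ?_ ?_ ?_
        · intro a _ b _ h
          have : s * a = s * b := mul_right_cancel h
          exact mul_left_cancel this
        · intro b hb
          refine ⟨s⁻¹ * b * s, hX' b hb s⁻¹ (H.inv_mem hs) |> fun h => by simpa using h, by group⟩
        · intro u hu
          rw [mul_smul_comm, smul_mul_assoc, gg_mul, gg_mul, coeff_conj_of_fx hjH hs]
          congr 2
          group
      exact loc_nil_add hj hjH hj0 hl (hcor _ hm1) (hcor _ hm2) h2 h1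

/-- Any member of the orbit can serve as a base point. -/
theorem ChainOut.rebase {H : Subgroup G} {i j : MonoidAlgebra F G} {I : Finset (MonoidAlgebra F G)}
    (h : ChainOut H i j I) {a : MonoidAlgebra F G} (ha : a ∈ I) : ChainOut H a j I := by
  obtain ⟨y, hy, rfl⟩ := h.all a ha
  refine ⟨h.idem' ha, h.ne' ha, ha, ?_, ?_, h.orth, h.sum⟩
  · intro b hb
    obtain ⟨z, hz, rfl⟩ := h.all b hb
    refine ⟨z * y⁻¹, H.mul_mem hz (H.inv_mem hy), ?_⟩
    rw [← cj_mul_apply]
    congr 2
    group
  · intro z hz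
    rw [← cj_mul_apply]
    exact h.closed _ (H.mul_mem hz hy)

/-- **Green's splitting down to local idempotents.** -/
theorem chainL {p : ℕ} [hp : Fact p.Prime] [CharP F p] [IsAlgClosed F] :
    ∀ (n : ℕ) (H : Subgroup G) (j : MonoidAlgebra F G), Nat.card H = n → IsPGroup p H →
      j * j = j → j ≠ 0 → j ∈ fx F H → IsLoc (fx F H) j →
      ∃ (i : MonoidAlgebra F G) (I : Finset (MonoidAlgebra F G)), ChainOut H i j I ∧ ∀ a ∈ I, LocAt (stabS H a) a := by
  classical
  haveI : Nontrivial (MonoidAlgebra F G) := inferInstance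
  haveI hcharA : CharP (MonoidAlgebra F G) p := charP_of_injective_algebraMap (algebraMap F (MonoidAlgebra F G)).injective p
  intro n
  induction n using Nat.strong_induction_on with
  | _ n ih =>
    intro H j hn hH hj hj0 hjH hl
    by_cases hbr : br H j = 0
    swap
    · refine ⟨j, {j}, ?_, ?_⟩
      · refine ⟨hj, hj0, Finset.mem_singleton_self j, ?_, ?_, ?_, ?_⟩
        · intro a ha
          rw [Finset.mem_singleton] at ha
          exact ⟨1, H.one_mem, by rw [ha, cj_one_apply]⟩
        · intro y hy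
          rw [cj_of_mem_fx hjH hy]
          exact Finset.mem_singleton_self j
        · intro a ha b hb hab
          rw [Finset.mem_singleton] at ha hb
          exact absurd (ha.trans hb.symm) hab
        · simp
      · intro a ha
        rw [Finset.mem_singleton] at ha
        subst ha
        rw [stabS_eq_of_mem hjH]
        exact ⟨hl, hbr⟩
    -- a single orbit
    set X : Finset G := Finset.univ.filter fun g => g ∉ Subgroup.centralizer (H : Set G) with hX
    have hXst : ∀ g ∈ X, ∀ y ∈ H, y * g * y⁻¹ ∈ X := by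
      intro g hg y hy
      rw [hX, Finset.mem_filter] at hg ⊢
      refine ⟨Finset.mem_univ _, fun h => hg.2 ?_⟩
      rw [Subgroup.mem_centralizer_iff] at h ⊢
      intro s hs
      have h4 := h (y * s * y⁻¹) (H.mul_mem (H.mul_mem hy hs) (H.inv_mem hy))
      have h5 : y * (s * g) * y⁻¹ = y * (g * s) * y⁻¹ := by
        calc y * (s * g) * y⁻¹ = y * s * y⁻¹ * (y * g * y⁻¹) := by group
          _ = y * g * y⁻¹ * (y * s * y⁻¹) := h4
          _ = y * (g * s) * y⁻¹ := by group
      exact mul_left_cancel (mul_right_cancel h5)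
    have hjsum : ∑ g ∈ X, j.coeff g • gg F g = j := by
      conv_rhs => rw [eq_sum_gg j]
      rw [hX, Finset.sum_filter]
      refine Finset.sum_congr rfl fun g _ => ?_
      split_ifs with hg
      · have h1 := coeff_br_of_mem H j hg
        rw [hbr] at h1
        rw [← h1]
        simp
      · rfl
    have hexg : ∃ g ∈ X, ¬ IsNilpotent (j * (j.coeff g • oS F (orbS H g)) * j) := by
      by_contra hcon
      push_neg at hcon
      have h1 := nil_split_w hj hjH hj0 hl _ X rfl hXst hcon
      rw [hjsum, hj, hj] at h1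
      exact hj0 (idem_of_nil_eq_zero hj h1)
    obtain ⟨g, hgX, hgn⟩ := hexg
    have hΩ : ∀ u ∈ orbS H g, ∀ y ∈ H, y * u * y⁻¹ ∈ orbS H g := orbS_stable H g
    have hoS : oS F (orbS H g) ∈ fx F H := oS_mem_fx hΩ
    have hycor : IsCor (fx F H) j (j * (j.coeff g • oS F (orbS H g)) * j) := by
      refine ⟨(fx F H).mul_mem ((fx F H).mul_mem hjH ((fx F H).smul_mem hoS _)) hjH, ?_, ?_⟩
      · simp only [← mul_assoc, hj]
      · rw [mul_assoc _ j j, hj]
    obtain ⟨y', hy', hy'1, -⟩ := loc_inv_of_not_nil hj hjH hl hycor hgn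
    set c₁ : MonoidAlgebra F G := j.coeff g • (y' * j) with hc₁
    have hc₁H : c₁ ∈ fx F H := (fx F H).smul_mem ((fx F H).mul_mem hy'.1 hjH) _
    have hjc₁ : j * c₁ = c₁ := by rw [hc₁, mul_smul_comm, ← mul_assoc, hy'.2.1]
    have hj1 : j = c₁ * oS F (orbS H g) * j := by
      calc j = y' * (j * (j.coeff g • oS F (orbS H g)) * j) := hy'1.symm
        _ = c₁ * oS F (orbS H g) * j := by
          rw [hc₁, mul_smul_comm, smul_mul_assoc, smul_mul_assoc, smul_mul_assoc, mul_smul_comm]
          simp only [mul_assoc]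
    -- the subgroup
    have hCne : H ⊓ Subgroup.centralizer ({g} : Set G) ≠ H := by
      intro h
      have h1 : H ≤ Subgroup.centralizer ({g} : Set G) := by
        rw [← h]
        exact inf_le_right
      apply (Finset.mem_filter.1 hgX).2
      rw [Subgroup.mem_centralizer_iff]
      intro s hs
      have h2 := h1 hs
      rw [Subgroup.mem_centralizer_iff] at h2
      exact (h2 g rfl).symm
    obtain ⟨H₁, h, hCH₁, hH₁H, hhH, hnorm, hhp, hcov, hdisj, hcard⟩ := exists_max_sub hH inf_le_left hCne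
    have hH₁p : IsPGroup p H₁ := hH.to_le hH₁H
    have hconj : ∀ s ∈ H₁, h⁻¹ * s * h ∈ H₁ := by
      intro s hs
      have := hnorm h⁻¹ (H.inv_mem hhH) s hs
      simpa using this
    have hpow : ∀ k, h ^ k ∈ H := fun k => H.pow_mem hhH k
    have hfxH₁ : fx F H ≤ fx F H₁ := fx_mono hH₁H
    set σ : MonoidAlgebra F G →ₐ[F] MonoidAlgebra F G := cj F h with hσ
    have hσit : ∀ (k : ℕ) a, σ^[k] a = cj F (h ^ k) a := fun k a => cj_iterate F h k a
    -- the corner
    let B : Submodule F (MonoidAlgebra F G) :=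
      { carrier := {a | IsCor (fx F H₁) j a}
        add_mem' := fun ha hb => IsCor.add ha hb
        zero_mem' := ⟨(fx F H₁).zero_mem, by simp, by simp⟩
        smul_mem' := fun c _ ha => IsCor.smul c ha }
    have hσB : ∀ a ∈ B, σ a ∈ B := by
      intro a ha
      have hσj : σ j = j := cj_of_mem_fx hjH hhH
      refine ⟨mem_fx_of_cj fun s hs => ?_, ?_, ?_⟩
      · rw [hσ, ← cj_mul_apply]
        have : s * h = h * (h⁻¹ * s * h) := by group
        rw [this, cj_mul_apply, cj_of_mem_fx ha.1 (hconj s hs)]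
      · conv_lhs => rw [← hσj]
        rw [← map_mul, ha.2.1]
      · conv_lhs => rw [← hσj]
        rw [← map_mul, ha.2.2]
    have d : ASData (p := p) σ j B :=
      { hj := hj
        hσj := cj_of_mem_fx hjH hhH
        hjB := isCor_self hj (hfxH₁ hjH)
        hmul := fun a ha b hb => IsCor.mul ha hb
        hl := fun a ha => ha.2.1
        hr := fun a ha => ha.2.2
        hσ := hσB
        hσp := fun a ha => by rw [hσit]; exact cj_of_mem_fx ha.1 hhp }
    have hlocB : ∀ y ∈ B, σ y = y → ∃ c : F, IsNilpotent (y - c • j) := by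
      intro y hyB hσy
      apply hl
      refine ⟨mem_fx_of_cj fun u hu => ?_, hyB.2.1, hyB.2.2⟩
      obtain ⟨k, hk, z, hz, rfl⟩ := hcov u hu
      rw [cj_mul_apply, cj_of_mem_fx hyB.1 hz, ← hσit]
      exact Function.iterate_fixed hσy k
    set b : MonoidAlgebra F G := c₁ * oS F (orbS H₁ g) * j with hb
    have hbB : b ∈ B := by
      have hΩ₁ : ∀ u ∈ orbS H₁ g, ∀ y ∈ H₁, y * u * y⁻¹ ∈ orbS H₁ g := orbS_stable H₁ g
      refine ⟨(fx F H₁).mul_mem ((fx F H₁).mul_mem (hfxH₁ hc₁H) (oS_mem_fx hΩ₁)) (hfxH₁ hjH), ?_, ?_⟩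
      · rw [hb, ← mul_assoc, ← mul_assoc, hjc₁]
      · rw [hb, mul_assoc _ j j, hj]
    have hbsum : ∑ k ∈ Finset.range p, σ^[k] b = j := by
      have e1 : ∀ k, σ^[k] b = c₁ * cj F (h ^ k) (oS F (orbS H₁ g)) * j := by
        intro k
        rw [hσit, hb, map_mul, map_mul, cj_of_mem_fx hc₁H (hpow k), cj_of_mem_fx hjH (hpow k)]
      simp only [e1]
      rw [← Finset.sum_mul, ← Finset.mul_sum, ← orb_decomp hH₁H hhH hCH₁ hcov hdisj]
      exact hj1.symm
    obtain ⟨θ, hθB, hθ1, hθ2⟩ := as_theta d hbB hbsum hlocB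
    obtain ⟨i₀, hi₀B, hi₀i₀, hi₀orth, hi₀sum⟩ := as_idem d hθB hθ1 hθ2
    have hi₀0 : i₀ ≠ 0 := by
      rintro rfl
      apply hj0
      rw [← hi₀sum]
      refine Finset.sum_eq_zero fun k _ => ?_
      rw [hσit, map_zero]
    have hi₀loc : IsLoc (fx F H₁) i₀ := by
      intro y hy
      have hyB : y ∈ B := by
        refine ⟨hy.1, ?_, ?_⟩
        · rw [← hy.2.1, ← mul_assoc, hi₀B.2.1]
        · rw [← hy.2.2, mul_assoc, hi₀B.2.2]
      exact as_loc d hi₀B hi₀orth hi₀sum hlocB hyB hy.2.1 hy.2.2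
    obtain ⟨i, I₁, hI₁, hloc₁⟩ := ih (Nat.card H₁) (by rw [← hn]; exact hcard) H₁ i₀ rfl hH₁p hi₀i₀ hi₀0
      hi₀B.1 hi₀loc
    -- orthogonality across different levels
    have hcross : ∀ k < p, ∀ l < p, k ≠ l → ∀ a ∈ I₁, ∀ b' ∈ I₁, cj F (h ^ k) a * cj F (h ^ l) b' = 0 := by
      intro k hk l hl hkl a ha b' hb'
      have e1 : cj F (h ^ k) a = cj F (h ^ k) a * cj F (h ^ k) i₀ := by
        rw [← map_mul, hI₁.mul_sum ha]
      have e2 : cj F (h ^ l) b' = cj F (h ^ l) i₀ * cj F (h ^ l) b' := by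
        rw [← map_mul, hI₁.sum_mul hb']
      rw [e1, e2, mul_assoc, ← mul_assoc (cj F (h ^ k) i₀)]
      have := hi₀orth k hk l hl hkl
      rw [hσit, hσit] at this
      rw [this, zero_mul, mul_zero]
    have hne_a : ∀ k, ∀ a ∈ I₁, cj F (h ^ k) a ≠ 0 := by
      intro k a ha h0
      apply hI₁.ne' ha
      apply cj_inj F (h ^ k)
      rw [h0, map_zero]
    have hidem_a : ∀ k, ∀ a ∈ I₁, cj F (h ^ k) a * cj F (h ^ k) a = cj F (h ^ k) a := by
      intro k a ha
      rw [← map_mul, hI₁.idem' ha]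
    have hlev : ∀ k < p, ∀ l < p, ∀ a ∈ I₁, ∀ b' ∈ I₁, cj F (h ^ k) a = cj F (h ^ l) b' → k = l := by
      intro k hk l hl a ha b' hb' he
      by_contra hkl
      have h0 := hcross k hk l hl hkl a ha b' hb'
      rw [← he, hidem_a k a ha] at h0
      exact hne_a k a ha h0
    have hp0 : 0 < p := hp.out.pos
    set I : Finset (MonoidAlgebra F G) := (Finset.range p).biUnion fun k => I₁.image (cj F (h ^ k)) with hI
    have hmemI : ∀ a, a ∈ I ↔ ∃ k < p, ∃ a₁ ∈ I₁, a = cj F (h ^ k) a₁ := by
      intro a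
      simp only [hI, Finset.mem_biUnion, Finset.mem_image, Finset.mem_range]
      constructor
      · rintro ⟨k, hk, a₁, ha₁, rfl⟩
        exact ⟨k, hk, a₁, ha₁, rfl⟩
      · rintro ⟨k, hk, a₁, ha₁, rfl⟩
        exact ⟨k, hk, a₁, ha₁, rfl⟩
    refine ⟨i, I, ⟨hI₁.idem, hI₁.ne, ?_, ?_, ?_, ?_, ?_⟩, ?_⟩
    · rw [hmemI]
      exact ⟨0, hp0, i, hI₁.mem, by simp [cj_one_apply]⟩
    · intro a ha
      obtain ⟨k, hk, a₁, ha₁, rfl⟩ := (hmemI a).1 ha
      obtain ⟨z, hz, rfl⟩ := hI₁.all a₁ ha₁
      exact ⟨h ^ k * z, H.mul_mem (hpow k) (hH₁H hz), by rw [cj_mul_apply]⟩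
    · intro u hu
      obtain ⟨k, hk, z, hz, rfl⟩ := hcov u hu
      rw [hmemI]
      exact ⟨k, hk, cj F z i, hI₁.closed z hz, by rw [cj_mul_apply]⟩
    · intro a ha b' hb' hab
      obtain ⟨k, hk, a₁, ha₁, rfl⟩ := (hmemI a).1 ha
      obtain ⟨l, hl', b₁, hb₁, rfl⟩ := (hmemI b').1 hb'
      by_cases hkl : k = l
      · subst hkl
        have hne : a₁ ≠ b₁ := fun h' => hab (by rw [h'])
        rw [← map_mul, hI₁.orth a₁ ha₁ b₁ hb₁ hne, map_zero]
      · exact hcross k hk l hl' hkl a₁ ha₁ b₁ hb₁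
    · rw [hI, Finset.sum_biUnion]
      · have e1 : ∀ k ∈ Finset.range p, ∑ a ∈ I₁.image (cj F (h ^ k)), a = σ^[k] i₀ := by
          intro k _
          rw [Finset.sum_image (fun a _ b _ hab => cj_inj F (h ^ k) hab), hσit, ← hI₁.sum, map_sum]
        rw [Finset.sum_congr rfl e1, hi₀sum]
      · intro k hk l hl hkl
        rw [Function.onFun, Finset.disjoint_left]
        intro u hu hu'
        obtain ⟨a, ha, rfl⟩ := Finset.mem_image.1 hu
        obtain ⟨b', hb', he⟩ := Finset.mem_image.1 hu'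
        exact hkl (hlev k (Finset.mem_range.1 (Finset.mem_coe.1 hk)) l (Finset.mem_range.1 (Finset.mem_coe.1 hl)) a ha b' hb' he.symm)
    · intro a ha
      obtain ⟨k, hk, a₁, ha₁, rfl⟩ := (hmemI a).1 ha
      have hle : stabS H a₁ = stabS H₁ a₁ := by
        apply le_antisymm
        · rintro y ⟨hy, hy'⟩
          obtain ⟨k', hk', z, hz, rfl⟩ := hcov y hy
          have hza : cj F z a₁ ∈ I₁ := by
            obtain ⟨w, hw, rfl⟩ := hI₁.all a₁ ha₁
            rw [← cj_mul_apply]
            exact hI₁.closed _ (H₁.mul_mem hz hw)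
          have e1 : cj F (h ^ k') (cj F z a₁) = cj F (h ^ 0) a₁ := by
            rw [← cj_mul_apply, hy', pow_zero, cj_one_apply]
          have hk0 := hlev k' hk' 0 hp0 _ hza _ ha₁ e1
          subst hk0
          rw [pow_zero, one_mul] at hy' ⊢
          exact ⟨hz, hy'⟩
        · rintro y ⟨hy, hy'⟩
          exact ⟨hH₁H hy, hy'⟩
      rw [stabS_cj' (hpow k), hle]
      exact (hloc₁ a₁ ha₁).conj _

end ChainL

section Link

variable {F G : Type*} [Field F] [Group G] [Fintype G]

/-- **Conjugates of a primitive piece are linked.**  A primitive idempotent `x` of the `R`-fixed points below a local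
idempotent `i` of the `P`-fixed points (`R` a normal subgroup of index `p`, `br_P i ≠ 0`) is linked to one of its proper conjugates. -/
theorem exists_link {p : ℕ} [hp : Fact p.Prime] [CharP F p] {P R : Subgroup G} {h : G} (hP : IsPGroup p P) (hRP : R ≤ P)
    (hh : h ∈ P) (hnorm : ∀ x ∈ P, ∀ y ∈ R, x * y * x⁻¹ ∈ R) (hhp : h ^ p ∈ R)
    (hcov : ∀ u ∈ P, ∃ k < p, ∃ y ∈ R, u = h ^ k * y)
    {i x : MonoidAlgebra F G} (hi : i * i = i) (hiP : i ∈ fx F P) (hil : IsLoc (fx F P) i) (hbr : br P i ≠ 0)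
    (hx : x * x = x) (hxR : x ∈ fx F R) (hx0 : x ≠ 0) (hxl : IsLoc (fx F R) x) (hxi : x * i = x) (hix : i * x = x) :
    ∃ k, 0 < k ∧ k < p ∧ ∀ T : Subgroup G, T ≤ R → br T x ≠ 0 → br T (cj F (h ^ k) x) ≠ 0 := by
  classical
  have hp0 : 0 < p := hp.out.pos
  have hpow : ∀ k, h ^ k ∈ P := fun k => P.pow_mem hh k
  set xk : ℕ → MonoidAlgebra F G := fun k => cj F (h ^ k) x with hxk
  have hxkR : ∀ k, xk k ∈ fx F R := by
    intro k
    apply mem_fx_of_cj
    intro r hr
    show cj F r (cj F (h ^ k) x) = cj F (h ^ k) x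
    rw [← cj_mul_apply]
    have e : r * h ^ k = h ^ k * ((h ^ k)⁻¹ * r * h ^ k) := by group
    have hm : (h ^ k)⁻¹ * r * h ^ k ∈ R := by
      have := hnorm _ (P.inv_mem (hpow k)) r hr
      simpa using this
    rw [e, cj_mul_apply, cj_of_mem_fx hxR hm]
  set a : MonoidAlgebra F G := ∑ k ∈ Finset.range p, xk k with ha
  have hfixh : cj F h a = a := by
    rw [ha, map_sum]
    have h1 : ∀ k, cj F h (xk k) = xk (k + 1) := by
      intro k
      simp only [hxk]
      rw [← cj_mul_apply, pow_succ']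
    simp only [h1]
    obtain ⟨q, rfl⟩ : ∃ q, p = q + 1 := ⟨p - 1, by omega⟩
    rw [Finset.sum_range_succ, Finset.sum_range_succ' (fun k => xk k) q]
    have h2 : xk (q + 1) = xk 0 := by
      simp only [hxk]
      rw [cj_of_mem_fx hxR hhp, pow_zero, cj_one_apply]
    rw [h2]
  have hfixR : ∀ r ∈ R, cj F r a = a := by
    intro r hr
    rw [ha, map_sum]
    refine Finset.sum_congr rfl fun k _ => cj_of_mem_fx (hxkR k) hr
  have haP : a ∈ fx F P := by
    apply mem_fx_of_cj
    intro u hu
    obtain ⟨k, -, y, hy, rfl⟩ := hcov u hu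
    rw [cj_mul_apply, hfixR y hy]
    have : ∀ k : ℕ, cj F (h ^ k) a = a := by
      intro k
      induction k with
      | zero => rw [pow_zero, cj_one_apply]
      | succ k ih => rw [pow_succ, cj_mul_apply, hfixh, ih]
    exact this k
  have hxki : ∀ k, i * xk k = xk k := by
    intro k
    simp only [hxk]
    conv_lhs => rw [← cj_of_mem_fx hiP (hpow k)]
    rw [← map_mul, hix]
  have hxki' : ∀ k, xk k * i = xk k := by
    intro k
    simp only [hxk]
    conv_lhs => rw [← cj_of_mem_fx hiP (hpow k)]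
    rw [← map_mul, hxi]
  have hacor : IsCor (fx F P) i a := by
    refine ⟨haP, ?_, ?_⟩
    · rw [ha, Finset.mul_sum]
      exact Finset.sum_congr rfl fun k _ => hxki k
    · rw [ha, Finset.sum_mul]
      exact Finset.sum_congr rfl fun k _ => hxki' k
  have hbra : br P a = 0 := by
    apply ext_coeff
    intro g
    by_cases hg : g ∈ Subgroup.centralizer (P : Set G)
    · rw [coeff_br_of_mem _ _ hg, ha, MonoidAlgebra.coeff_sum, Finset.sum_apply']
      have h1 : ∀ k ∈ Finset.range p, (xk k).coeff g = x.coeff g := by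
        intro k _
        simp only [hxk]
        rw [coeff_cj]
        have h2 := Subgroup.mem_centralizer_iff.1 hg _ (hpow k)
        have e : (h ^ k)⁻¹ * g * h ^ k = g := by
          rw [mul_assoc, ← h2]
          group
        rw [e]
      rw [Finset.sum_congr rfl h1, Finset.sum_const, Finset.card_range, nsmul_eq_mul, CharP.cast_eq_zero, zero_mul]
      rfl
    · rw [coeff_br_of_notMem _ _ hg]
      rfl
  have hanil : IsNilpotent a := by
    obtain ⟨c, hc⟩ := hil a hacor
    by_cases hc0 : c = 0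
    · simpa [hc0] using hc
    exfalso
    obtain ⟨y', hy', h1, -⟩ := cor_inv hi hiP hacor hc0 hc
    apply hbr
    rw [← h1, br_mul hP hy'.1 haP, hbra, mul_zero]
  -- the ideal
  let Jx : MonoidAlgebra F G → Prop := fun y =>
    y ∈ fx F R ∧ ∀ w ∈ fx F R, ∀ w' ∈ fx F R, IsNilpotent (x * w * y * w' * x)
  have hcorx : ∀ y ∈ fx F R, IsCor (fx F R) x (x * y * x) := by
    intro y hy
    refine ⟨(fx F R).mul_mem ((fx F R).mul_mem hxR hy) hxR, ?_, ?_⟩
    · simp only [← mul_assoc, hx]
    · rw [mul_assoc _ x x, hx]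
  have hform : ∀ w y w' : MonoidAlgebra F G, x * w * y * w' * x = x * (w * y * w') * x := by
    intro w y w'
    simp only [mul_assoc]
  have hJadd : ∀ y₁ y₂, Jx y₁ → Jx y₂ → Jx (y₁ + y₂) := by
    intro y₁ y₂ h₁ h₂
    refine ⟨(fx F R).add_mem h₁.1 h₂.1, fun w hw w' hw' => ?_⟩
    have e : x * w * (y₁ + y₂) * w' * x = x * w * y₁ * w' * x + x * w * y₂ * w' * x := by
      simp only [mul_add, add_mul]
    rw [e]
    have hm : ∀ y ∈ fx F R, IsCor (fx F R) x (x * w * y * w' * x) := by
      intro y hy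
      rw [hform]
      exact hcorx _ ((fx F R).mul_mem ((fx F R).mul_mem hw hy) hw')
    exact loc_nil_add hx hxR hx0 hxl (hm _ h₁.1) (hm _ h₂.1) (h₁.2 w hw w' hw') (h₂.2 w hw w' hw')
  have hJl : ∀ v y, v ∈ fx F R → Jx y → Jx (v * y) := by
    intro v y hv hy
    refine ⟨(fx F R).mul_mem hv hy.1, fun w hw w' hw' => ?_⟩
    have e : x * w * (v * y) * w' * x = x * (w * v) * y * w' * x := by simp only [mul_assoc]
    rw [e]
    exact hy.2 _ ((fx F R).mul_mem hw hv) _ hw'
  have hJr : ∀ v y, v ∈ fx F R → Jx y → Jx (y * v) := by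
    intro v y hv hy
    refine ⟨(fx F R).mul_mem hy.1 hv, fun w hw w' hw' => ?_⟩
    have e : x * w * (y * v) * w' * x = x * w * y * (v * w') * x := by simp only [mul_assoc]
    rw [e]
    exact hy.2 _ hw _ ((fx F R).mul_mem hv hw')
  have hexk : ∃ k, 0 < k ∧ k < p ∧ ¬ Jx (xk k) := by
    by_contra hcon
    push_neg at hcon
    have hJ0 : Jx 0 := ⟨(fx F R).zero_mem, fun w _ w' _ => by simp⟩
    set b : MonoidAlgebra F G := ∑ k ∈ (Finset.range p).erase 0, xk k with hb
    have hbJ : Jx b := by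
      rw [hb]
      refine Finset.sum_induction _ Jx hJadd hJ0 ?_
      intro k hk
      rw [Finset.mem_erase, Finset.mem_range] at hk
      exact hcon k (Nat.pos_of_ne_zero hk.1) hk.2
    have hab : a = x + b := by
      rw [ha, hb, ← Finset.add_sum_erase _ _ (Finset.mem_range.2 hp0)]
      congr 1
      simp only [hxk]
      rw [pow_zero, cj_one_apply]
    have haR : a ∈ fx F R := fx_mono hRP haP
    have hpow' : ∀ n : ℕ, ∃ j₁, Jx j₁ ∧ a ^ (n + 1) = x + j₁ := by
      intro n
      induction n with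
      | zero => exact ⟨b, hbJ, by rw [zero_add, pow_one, hab]⟩
      | succ n ih =>
        obtain ⟨j₁, hj₁, he⟩ := ih
        refine ⟨x * b + j₁ * a, hJadd _ _ (hJl _ _ hxR hbJ) (hJr _ _ haR hj₁), ?_⟩
        rw [pow_succ, he, add_mul, ← add_assoc]
        congr 1
        rw [hab, mul_add, hx]
    obtain ⟨s, hs⟩ := hanil
    have hs' : a ^ (s + 1) = 0 := by rw [pow_succ, hs, zero_mul]
    obtain ⟨j₁, hj₁, he⟩ := hpow' s
    rw [hs'] at he
    have h1 := hj₁.2 1 (fx F R).one_mem 1 (fx F R).one_mem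
    have e2 : j₁ = -x := by
      rw [eq_neg_iff_add_eq_zero, add_comm]
      exact he.symm
    rw [e2] at h1
    have e3 : x * 1 * -x * 1 * x = -x := by
      simp only [mul_one, mul_neg, neg_mul, hx]
    rw [e3] at h1
    have h2 : IsNilpotent x := by
      have := h1.neg
      rwa [neg_neg] at this
    exact hx0 (idem_of_nil_eq_zero hx h2)
  obtain ⟨k, hk0, hkp, hk⟩ := hexk
  refine ⟨k, hk0, hkp, fun T hT hTx hT0 => ?_⟩
  have hk' : ¬ ∀ w ∈ fx F R, ∀ w' ∈ fx F R, IsNilpotent (x * w * xk k * w' * x) := fun h1 => hk ⟨hxkR k, h1⟩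
  push_neg at hk'
  obtain ⟨w, hw, w', hw', hn⟩ := hk'
  have hm : w * xk k * w' ∈ fx F R := (fx F R).mul_mem ((fx F R).mul_mem hw (hxkR k)) hw'
  have hcor : IsCor (fx F R) x (x * w * xk k * w' * x) := by
    rw [hform]
    exact hcorx _ hm
  obtain ⟨v, hv, h1, -⟩ := loc_inv_of_not_nil hx hxR hxl hcor hn
  have hTp : IsPGroup p T := hP.to_le (hT.trans hRP)
  have hfxT : fx F R ≤ fx F T := fx_mono hT
  apply hTx
  have e : x = (v * x * w) * xk k * (w' * x) := by
    conv_lhs => rw [← h1]
    simp only [mul_assoc]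
  rw [e, br_mul hTp (hfxT ((fx F R).mul_mem ((fx F R).mul_mem ((fx F R).mul_mem hv.1 hxR) hw) (hxkR k)))
    (hfxT ((fx F R).mul_mem hw' hxR)), br_mul hTp (hfxT ((fx F R).mul_mem ((fx F R).mul_mem hv.1 hxR) hw)) (hfxT (hxkR k))]
  have : br T (xk k) = 0 := hT0
  rw [this, mul_zero, zero_mul]

end Link

end Cfsg.Agent.Lib.Modular
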