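import Mathlib
import Cfsg.Agent.Lib.Modular.BrMap
import Cfsg.Agent.Lib.Block.ResField
import Cfsg.Agent.Lib.Block.SecondMain
import Cfsg.Agent.Lib.BPair.Basic

/-!
# Reduction modulo the local ideal, and lifting idempotents from the residue field to the local ring
-/

set_option autoImplicit false
set_option linter.unusedSectionVars false
set_option linter.unusedSimpArgs false
set_option linter.unusedVariables false
set_option linter.style.haveILetI false
set_option linter.unnecessarySimpa false

namespace Cfsg.Agent.Lib.Modular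

open Module Cfsg Cfsg.Agent.Lib.Block Cfsg.Agent.Lib.CharExtra Polynomial

section Integrality

variable {M : Ideal AlgInt} [hMp : M.IsPrime]

/-- Common denominators. -/
theorem exists_common_denom {ι : Type*} (s : Finset ι) (c : ι → ℂ) (hc : ∀ i ∈ s, MemLocalRing M (c i)) :
    ∃ b : AlgInt, b ∉ M ∧ ∀ i ∈ s, ∃ a : AlgInt, (a : ℂ) = (b : ℂ) * c i := by
  classical
  induction s using Finset.induction_on with
  | empty => exact ⟨1, one_notMem, by simp⟩
  | insert j s hj ih =>
    obtain ⟨b, hb, hs⟩ := ih fun i hi => hc i (Finset.mem_insert_of_mem hi)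
    obtain ⟨a₁, b₁, hb₁, he⟩ := hc j (Finset.mem_insert_self _ _)
    refine ⟨b * b₁, fun h => ?_, ?_⟩
    · rcases Ideal.IsPrime.mem_or_mem hMp h with h | h
      · exact hb h
      · exact hb₁ h
    · intro i hi
      rw [Finset.mem_insert] at hi
      have hb₁0 : (b₁ : ℂ) ≠ 0 := algInt_ne_zero_of_notMem hb₁
      rcases hi with rfl | hi
      · refine ⟨b * a₁, ?_⟩
        rw [← he]
        push_cast
        field_simp
      · obtain ⟨a, ha⟩ := hs i hi
        refine ⟨a * b₁, ?_⟩
        push_cast
        rw [ha]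
        ring

/-- The local ring is integrally closed in `ℂ`. -/
theorem memLocalRing_of_isIntegral_local {t : ℂ} (h : IsIntegral (localRing M) t) : MemLocalRing M t := by
  classical
  obtain ⟨f, hf, hft⟩ := h
  obtain ⟨b, hb, hs⟩ := exists_common_denom (M := M) (Finset.range (f.natDegree + 1))
    (fun i => ((f.coeff i : localRing M) : ℂ)) (fun i _ => (f.coeff i).2)
  have hb0 : (b : ℂ) ≠ 0 := algInt_ne_zero_of_notMem hb
  set bS : localRing M := ⟨(b : ℂ), memLocalRing_of_algInt b⟩ with hbS
  set g := Polynomial.scaleRoots f bS with hg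
  have hgm : g.Monic := (Polynomial.monic_scaleRoots_iff bS).2 hf
  have hroot : Polynomial.eval₂ (algebraMap (localRing M) ℂ) ((b : ℂ) * t) g = 0 := by
    have := Polynomial.scaleRoots_eval₂_mul (p := f) (algebraMap (localRing M) ℂ) t bS
    have e : (algebraMap (localRing M) ℂ) bS = (b : ℂ) := rfl
    rw [e] at this
    rw [this, hft, mul_zero]
  set P : ℂ[X] := g.map (algebraMap (localRing M) ℂ) with hP
  have hPm : P.Monic := hgm.map _
  let φ : AlgInt →+* ℂ := algebraMap AlgInt ℂ
  have hlift : P ∈ Polynomial.lifts φ := by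
    rw [Polynomial.lifts_iff_coeff_lifts]
    intro n
    by_cases hn : n < f.natDegree
    · have h1 : P.coeff n = ((f.coeff n : localRing M) : ℂ) * (b : ℂ) ^ (f.natDegree - n) := by
        rw [hP, Polynomial.coeff_map, hg, Polynomial.coeff_scaleRoots]
        rfl
      obtain ⟨a, ha⟩ := hs n (Finset.mem_range.2 (by omega))
      obtain ⟨k, hk⟩ : ∃ k, f.natDegree - n = k + 1 := ⟨f.natDegree - n - 1, by omega⟩
      refine ⟨a * b ^ k, ?_⟩
      rw [h1, hk, pow_succ]
      show (((a * b ^ k : AlgInt)) : ℂ) = _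
      push_cast
      rw [ha]
      ring
    · by_cases hn2 : n = f.natDegree
      · have h1 : P.coeff n = 1 := by
          rw [hP, Polynomial.coeff_map, hg, Polynomial.coeff_scaleRoots, hn2, Nat.sub_self, pow_zero, mul_one]
          have : f.coeff f.natDegree = 1 := hf
          rw [this, map_one]
        exact ⟨1, by rw [h1, map_one]⟩
      · have hgdeg : g.natDegree = f.natDegree := Polynomial.natDegree_scaleRoots f bS
        have h1 : P.coeff n = 0 := by
          rw [hP, Polynomial.coeff_map, Polynomial.coeff_eq_zero_of_natDegree_lt (by omega), map_zero]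
        exact ⟨0, by rw [h1, map_zero]⟩
  obtain ⟨q, hq, -, hqm⟩ := Polynomial.lifts_and_natDegree_eq_and_monic hlift hPm
  have hint : IsIntegral AlgInt ((b : ℂ) * t) := by
    refine ⟨q, hqm, ?_⟩
    have h1 : Polynomial.eval₂ φ ((b : ℂ) * t) q = Polynomial.eval ((b : ℂ) * t) (q.map φ) := by
      rw [Polynomial.eval_map]
    have h2 : Polynomial.eval₂ (algebraMap AlgInt ℂ) ((b : ℂ) * t) q = Polynomial.eval₂ φ ((b : ℂ) * t) q := rfl
    rw [h2, h1, hq, hP, Polynomial.eval_map, hroot]
  have hint2 : IsIntegral ℤ ((b : ℂ) * t) := isIntegral_trans ((b : ℂ) * t) hint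
  refine ⟨⟨_, hint2⟩, b, hb, ?_⟩
  show ((b : ℂ) * t) / (b : ℂ) = t
  field_simp

theorem isUnit_local_of_not_mem {x : localRing M} (h : ¬ MemLocalIdeal M (x : ℂ)) : IsUnit x := by
  have hx0 : (x : ℂ) ≠ 0 := ne_zero_of_not_memLocalIdeal h
  have hinv : MemLocalRing M ((x : ℂ)⁻¹) := memLocalRing_inv x.2 h
  refine IsUnit.of_mul_eq_one (⟨(x : ℂ)⁻¹, hinv⟩ : localRing M) ?_
  apply Subtype.ext
  change (x : ℂ) * (x : ℂ)⁻¹ = 1
  exact mul_inv_cancel₀ hx0

/-- The residue field of the local ring is algebraically closed. -/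
instance isAlgClosed_resField : IsAlgClosed (ResField M) := by
  classical
  refine IsAlgClosed.of_exists_root _ fun P hPm hPi => ?_
  let π : localRing M →+* ResField M := Ideal.Quotient.mk _
  have hπ : Function.Surjective π := Ideal.Quotient.mk_surjective
  have hlift : P ∈ Polynomial.lifts π := by
    rw [Polynomial.lifts_iff_coeff_lifts]
    intro n
    exact hπ _
  obtain ⟨q, hq, hdeg, hqm⟩ := Polynomial.lifts_and_natDegree_eq_and_monic hlift hPm
  have hqdeg : (q.map (algebraMap (localRing M) ℂ)).degree ≠ 0 := by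
    rw [Polynomial.degree_map_eq_of_injective (FaithfulSMul.algebraMap_injective _ _)]
    intro h0
    have h1 : q.natDegree = 0 := Polynomial.natDegree_eq_of_degree_eq_some h0
    have h2 : P.natDegree = 0 := by rw [← hdeg, h1]
    exact hPi.natDegree_pos.ne' h2
  obtain ⟨t, ht⟩ := IsAlgClosed.exists_root _ hqdeg
  have hint : IsIntegral (localRing M) t := by
    refine ⟨q, hqm, ?_⟩
    rw [Polynomial.IsRoot, Polynomial.eval_map] at ht
    exact ht
  have htl := memLocalRing_of_isIntegral_local hint
  refine ⟨π ⟨t, htl⟩, ?_⟩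
  rw [← hq, Polynomial.eval_map, Polynomial.eval₂_at_apply]
  have h0 : Polynomial.eval (⟨t, htl⟩ : localRing M) q = 0 := by
    apply Subtype.ext
    have h1 : ((Polynomial.eval (⟨t, htl⟩ : localRing M) q : localRing M) : ℂ) =
        Polynomial.eval₂ (algebraMap (localRing M) ℂ) t q := by
      have h2 := Polynomial.hom_eval₂ q (RingHom.id (localRing M)) (algebraMap (localRing M) ℂ) (⟨t, htl⟩ : localRing M)
      rw [Polynomial.eval₂_id] at h2
      rw [Polynomial.eval₂_eq_eval_map] at h2 ⊢
      exact h2.trans (by simp; rfl)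
    rw [h1]
    rw [Polynomial.IsRoot, Polynomial.eval_map] at ht
    exact ht
  rw [h0, map_zero]

end Integrality

section Rd

variable {G : Type*} [Group G] [Fintype G] (M : Ideal AlgInt) [hMp : M.IsPrime]

/-- Reduction modulo the local ideal. -/
noncomputable def rd (a : MonoidAlgebra ℂ G) : MonoidAlgebra (ResField M) G := ofFun fun g => red M (a.coeff g)

theorem coeff_rd (a : MonoidAlgebra ℂ G) (g : G) : (rd M a).coeff g = red M (a.coeff g) := coeff_ofFun _ _

variable {M}

theorem coeff_add' {R : Type*} [Semiring R] (x y : MonoidAlgebra R G) (g : G) : (x + y).coeff g = x.coeff g + y.coeff g := by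
  rw [MonoidAlgebra.coeff_add]; rfl

theorem coeff_sub' {R : Type*} [Ring R] (x y : MonoidAlgebra R G) (g : G) : (x - y).coeff g = x.coeff g - y.coeff g := by
  rw [sub_eq_add_neg, coeff_add', sub_eq_add_neg]
  congr 1

theorem rd_add {a b : MonoidAlgebra ℂ G} (ha : LocalCoeff M a) (hb : LocalCoeff M b) : rd M (a + b) = rd M a + rd M b := by
  apply ext_coeff
  intro g
  rw [coeff_add', coeff_rd, coeff_rd, coeff_rd, coeff_add', red_add (ha g) (hb g)]

theorem rd_zero : rd M (0 : MonoidAlgebra ℂ G) = 0 := by
  apply ext_coeff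
  intro g
  rw [coeff_rd]
  show red M 0 = 0
  exact red_zero

theorem rd_eq_iff {a b : MonoidAlgebra ℂ G} (ha : LocalCoeff M a) (hb : LocalCoeff M b) :
    rd M a = rd M b ↔ LocalIdealCoeff M (a - b) := by
  constructor
  · intro h g
    have h1 := congrArg (fun x : MonoidAlgebra (ResField M) G => x.coeff g) h
    simp only [coeff_rd] at h1
    rw [red_of_mem (ha g), red_of_mem (hb g), Ideal.Quotient.eq] at h1
    rw [coeff_sub']
    exact h1
  · intro h
    apply ext_coeff
    intro g
    rw [coeff_rd, coeff_rd]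
    have h1 := h g
    rw [coeff_sub'] at h1
    exact red_eq_of_sub (ha g) (hb g) h1

theorem rd_eq_zero_iff {a : MonoidAlgebra ℂ G} (ha : LocalCoeff M a) : rd M a = 0 ↔ LocalIdealCoeff M a := by
  have := rd_eq_iff ha (localCoeff_zero (M := M) (G := G))
  rwa [rd_zero, sub_zero] at this

theorem rd_sub {a b : MonoidAlgebra ℂ G} (ha : LocalCoeff M a) (hb : LocalCoeff M b) : rd M (a - b) = rd M a - rd M b := by
  have h1 := rd_add (localCoeff_sub ha hb) hb
  rw [sub_add_cancel] at h1
  rw [h1, add_sub_cancel_right]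

theorem rd_mul {a b : MonoidAlgebra ℂ G} (ha : LocalCoeff M a) (hb : LocalCoeff M b) : rd M (a * b) = rd M a * rd M b := by
  apply ext_coeff
  intro g
  rw [coeff_rd, coeff_mul_eq, coeff_mul_eq, red_sum _ _ fun h _ => memLocalRing_mul (ha h) (hb _)]
  refine Finset.sum_congr rfl fun h _ => ?_
  rw [red_mul (ha h) (hb _), coeff_rd, coeff_rd]

theorem rd_single (g : G) : rd M (MonoidAlgebra.single g (1 : ℂ)) = MonoidAlgebra.single g 1 := by
  classical
  apply ext_coeff
  intro h
  rw [coeff_rd, MonoidAlgebra.coeff_single, MonoidAlgebra.coeff_single, Finsupp.single_apply, Finsupp.single_apply]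
  split_ifs
  · exact red_one
  · exact red_zero

theorem rd_one : rd M (1 : MonoidAlgebra ℂ G) = 1 := rd_single 1

theorem localCoeff_sum_aux {ι : Type*} (s : Finset ι) (f : ι → MonoidAlgebra ℂ G) (h : ∀ i ∈ s, LocalCoeff M (f i)) :
    LocalCoeff M (∑ i ∈ s, f i) := by
  classical
  induction s using Finset.induction_on with
  | empty => simpa using localCoeff_zero
  | insert a s ha ih =>
    rw [Finset.sum_insert ha]
    exact localCoeff_add (h a (Finset.mem_insert_self _ _)) (ih fun b hb => h b (Finset.mem_insert_of_mem hb))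

theorem rd_sum {ι : Type*} (s : Finset ι) (f : ι → MonoidAlgebra ℂ G) (h : ∀ i ∈ s, LocalCoeff M (f i)) :
    rd M (∑ i ∈ s, f i) = ∑ i ∈ s, rd M (f i) := by
  classical
  induction s using Finset.induction_on with
  | empty => simpa using rd_zero
  | insert a s ha ih =>
    rw [Finset.sum_insert ha, Finset.sum_insert ha, rd_add (h a (Finset.mem_insert_self _ _))
      (localCoeff_sum_aux _ _ fun b hb => h b (Finset.mem_insert_of_mem hb)),
      ih fun b hb => h b (Finset.mem_insert_of_mem hb)]

theorem exists_lift (x : MonoidAlgebra (ResField M) G) : ∃ a, LocalCoeff M a ∧ rd M a = x := by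
  have h : ∀ g, ∃ r : ℂ, MemLocalRing M r ∧ red M r = x.coeff g := by
    intro g
    obtain ⟨r, hr⟩ := Ideal.Quotient.mk_surjective (x.coeff g)
    exact ⟨r, r.2, by rw [red_of_mem r.2]; exact hr⟩
  choose c hc hc2 using h
  refine ⟨ofFun c, localCoeff_ofFun hc, ?_⟩
  apply ext_coeff
  intro g
  rw [coeff_rd, coeff_ofFun, hc2]

/-- Lifts constant on the orbits of a subgroup. -/
theorem exists_lift_inv (T : Subgroup G) {x : MonoidAlgebra (ResField M) G} (hx : x ∈ fx (ResField M) T) :
    ∃ a, LocalCoeff M a ∧ rd M a = x ∧ IsInvBy T a := by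
  classical
  have h : ∀ g, ∃ r : ℂ, MemLocalRing M r ∧ red M r = x.coeff g := by
    intro g
    obtain ⟨r, hr⟩ := Ideal.Quotient.mk_surjective (x.coeff g)
    exact ⟨r, r.2, by rw [red_of_mem r.2]; exact hr⟩
  choose c hc hc2 using h
  let st : Setoid G :=
    { r := fun g g' => ∃ t ∈ T, g' = t * g * t⁻¹
      iseqv := ⟨fun g => ⟨1, T.one_mem, by simp⟩,
        fun {g g'} ⟨t, ht, he⟩ => ⟨t⁻¹, T.inv_mem ht, by rw [he]; group⟩,
        fun {g g' g''} ⟨t, ht, he⟩ ⟨t', ht', he'⟩ => ⟨t' * t, T.mul_mem ht' ht, by rw [he', he]; group⟩⟩ }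
  let rep : G → G := fun g => Quotient.out (Quotient.mk st g)
  have hrep : ∀ g, ∃ t ∈ T, rep g = t * g * t⁻¹ := by
    intro g
    have : Quotient.mk st (rep g) = Quotient.mk st g := Quotient.out_eq _
    obtain ⟨t, ht, he⟩ := Quotient.exact this
    refine ⟨t⁻¹, T.inv_mem ht, ?_⟩
    calc rep g = t⁻¹ * (t * rep g * t⁻¹) * t⁻¹⁻¹ := by group
      _ = t⁻¹ * g * t⁻¹⁻¹ := by rw [← he]
  have hrep2 : ∀ t ∈ T, ∀ g, rep (t * g * t⁻¹) = rep g := by
    intro t ht g
    have : Quotient.mk st (t * g * t⁻¹) = Quotient.mk st g :=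
      Quotient.sound (s := st) ⟨t⁻¹, T.inv_mem ht, by group⟩
    show Quotient.out _ = Quotient.out _
    rw [this]
  refine ⟨ofFun fun g => c (rep g), localCoeff_ofFun fun g => hc _, ?_, ?_⟩
  · apply ext_coeff
    intro g
    rw [coeff_rd, coeff_ofFun, hc2]
    obtain ⟨t, ht, he⟩ := hrep g
    rw [he, coeff_conj_of_fx hx ht]
  · intro u hu g
    rw [coeff_ofFun, coeff_ofFun, hrep2 u hu]

theorem rd_conjElt (x : G) (a : MonoidAlgebra ℂ G) : rd M (conjElt x a) = cj (ResField M) x (rd M a) := by
  apply ext_coeff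
  intro g
  rw [coeff_cj, coeff_rd, coeff_rd, coeff_conjElt]

theorem rd_resG (T : Subgroup G) (a : MonoidAlgebra ℂ G) :
    rd M (resG (Subgroup.centralizer (T : Set G)) a) = br T (rd M a) := by
  classical
  apply ext_coeff
  intro g
  rw [coeff_rd]
  by_cases hg : g ∈ Subgroup.centralizer (T : Set G)
  · rw [coeff_resG_of_mem _ _ hg, coeff_br_of_mem _ _ hg, coeff_rd]
  · rw [coeff_resG_of_notMem _ _ hg, coeff_br_of_notMem _ _ hg]
    exact red_zero

theorem rd_mem_fx {T : Subgroup G} {a : MonoidAlgebra ℂ G} (h : IsInvBy T a) : rd M a ∈ fx (ResField M) T := by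
  apply mem_fx_of_cj
  intro s hs
  apply ext_coeff
  intro g
  rw [coeff_cj, coeff_rd, coeff_rd]
  congr 1
  have := h s⁻¹ (T.inv_mem hs) g
  simpa using this

theorem charP_resField {p : ℕ} [hp : Fact p.Prime] (hM : IsPModular p M) : CharP (ResField M) p := by
  rw [CharP.charP_iff_prime_eq_zero hp.out, ← red_natCast]
  exact red_eq_zero (memLocalIdeal_p hM)

end Rd

section Eigen

variable {G : Type*} [Group G] [Fintype G] {M : Ideal AlgInt} [hMp : M.IsPrime]

theorem aeval_mul_eigen {a v : MonoidAlgebra ℂ G} {t : ℂ} (h : a * v = t • v) (f : ℂ[X]) :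
    aeval a f * v = f.eval t • v := by
  induction f using Polynomial.induction_on' with
  | add p q hp hq =>
    rw [map_add, add_mul, hp, hq, Polynomial.eval_add, add_smul]
  | monomial n c =>
    rw [Polynomial.aeval_monomial, Polynomial.eval_monomial]
    have hpow : ∀ n : ℕ, a ^ n * v = t ^ n • v := by
      intro n
      induction n with
      | zero => simp
      | succ n ih => rw [pow_succ', mul_assoc, ih, mul_smul_comm, h, smul_smul, pow_succ, mul_comm]
    rw [mul_assoc, hpow, ← Algebra.smul_def, smul_smul]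

/-- The subalgebra of elements with local coefficients is integral over the local ring. -/
theorem isIntegral_of_localCoeff {a : MonoidAlgebra ℂ G} (ha : LocalCoeff M a) :
    ∃ f : (localRing M)[X], f.Monic ∧ aeval a (f.map (algebraMap (localRing M) ℂ)) = 0 := by
  classical
  let S : Subalgebra (localRing M) (MonoidAlgebra ℂ G) :=
    { carrier := {z | LocalCoeff M z}
      mul_mem' := fun hz hw => localCoeff_mul hz hw
      add_mem' := fun hz hw => localCoeff_add hz hw
      algebraMap_mem' := fun c => by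
        show LocalCoeff M (MonoidAlgebra.single 1 ((c : localRing M) : ℂ))
        exact localCoeff_single 1 c.2 }
  have hfg : S.toSubmodule.FG := by
    refine ⟨Finset.univ.image fun g : G => MonoidAlgebra.single g (1 : ℂ), ?_⟩
    apply le_antisymm
    · rw [Submodule.span_le]
      intro z hz
      simp only [Finset.coe_image, Finset.coe_univ, Set.image_univ, Set.mem_range] at hz
      obtain ⟨g, rfl⟩ := hz
      exact localCoeff_single g memLocalRing_one
    · intro z hz
      have hz' : LocalCoeff M z := hz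
      have e : z = ∑ g : G, (⟨z.coeff g, hz' g⟩ : localRing M) • MonoidAlgebra.single g (1 : ℂ) := by
        conv_lhs => rw [eq_sum_single z]
        refine Finset.sum_congr rfl fun g _ => ?_
        show _ = ((z.coeff g) • MonoidAlgebra.single g (1 : ℂ))
        simp
      rw [e]
      refine Submodule.sum_mem _ fun g _ => Submodule.smul_mem _ _ (Submodule.subset_span ?_)
      simp
  obtain ⟨f, hf, h0⟩ := IsIntegral.of_mem_of_fg S hfg a ha
  refine ⟨f, hf, ?_⟩
  rw [Polynomial.aeval_map_algebraMap]
  exact h0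

/-- Eigenvalues of elements with local coefficients are local. -/
theorem memLocalRing_of_eigen {a v : MonoidAlgebra ℂ G} {t : ℂ} (ha : LocalCoeff M a) (hv : v ≠ 0) (h : a * v = t • v) :
    MemLocalRing M t := by
  obtain ⟨f, hf, h0⟩ := isIntegral_of_localCoeff ha
  apply memLocalRing_of_isIntegral_local
  refine ⟨f, hf, ?_⟩
  have h1 := aeval_mul_eigen h (f.map (algebraMap (localRing M) ℂ))
  rw [h0, zero_mul] at h1
  have h2 := (smul_eq_zero.1 h1.symm).resolve_right hv
  rwa [Polynomial.eval_map] at h2

/-- Eigenvalues of elements with coefficients in the local ideal lie in the local ideal. -/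
theorem memLocalIdeal_of_eigen {p : ℕ} [hp : Fact p.Prime] (hM : IsPModular p M) {a v : MonoidAlgebra ℂ G} {t : ℂ}
    (ha : LocalIdealCoeff M a) (hv : v ≠ 0) (h : a * v = t • v) : MemLocalIdeal M t := by
  classical
  have htl := memLocalRing_of_eigen (localCoeff_of_localIdealCoeff ha) hv h
  obtain ⟨L, hL⟩ := coeffIn_of_localIdeal hM ha
  have hp0 : (p : ℂ) ≠ 0 := by exact_mod_cast hp.out.ne_zero
  have hc : ∀ g, ∃ r : ℂ, MemLocalRing M r ∧ (a ^ L).coeff g = (p : ℂ) * r := by
    intro g
    obtain ⟨s, hs, hs2⟩ := hL g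
    rw [Ideal.mem_span_singleton'] at hs
    obtain ⟨t', rfl⟩ := hs
    refine ⟨(t' : ℂ), t'.2, ?_⟩
    rw [← hs2]
    push_cast
    ring
  choose r hr hr2 using hc
  set κ : MonoidAlgebra ℂ G := ofFun r with hκ
  have hκl : LocalCoeff M κ := localCoeff_ofFun hr
  have hpow : a ^ L = (p : ℂ) • κ := by
    apply ext_coeff
    intro g
    rw [hr2, MonoidAlgebra.coeff_smul, Finsupp.smul_apply, coeff_ofFun, smul_eq_mul]
  have hpow2 : a ^ L * v = t ^ L • v := by
    have := aeval_mul_eigen h (X ^ L)
    simpa using this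
  have hκv : κ * v = (t ^ L / p) • v := by
    have h3 : (p : ℂ) • (κ * v) = (p : ℂ) • ((t ^ L / p) • v) := by
      rw [← smul_mul_assoc, ← hpow, hpow2, smul_smul]
      congr 1
      field_simp
    exact smul_right_injective _ hp0 h3
  have h4 := memLocalRing_of_eigen hκl hv hκv
  have h5 : MemLocalIdeal M (t ^ L) := by
    have e : t ^ L = (p : ℂ) * (t ^ L / p) := by field_simp
    rw [e]
    exact memLocalIdeal_mul_right (memLocalIdeal_p hM) h4
  have h6 : ∀ L : ℕ, MemLocalIdeal M (t ^ L) → MemLocalIdeal M t := by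
    intro L
    induction L with
    | zero =>
      intro h0
      rw [pow_zero] at h0
      exact absurd h0 not_memLocalIdeal_one
    | succ n ih =>
      intro hn
      by_contra hcon
      rw [pow_succ] at hn
      by_cases hn2 : MemLocalIdeal M (t ^ n)
      · exact hcon (ih hn2)
      · have hl : MemLocalRing M (t ^ n) := by
          have : ∀ n : ℕ, MemLocalRing M (t ^ n) := by
            intro n
            induction n with
            | zero => simpa using memLocalRing_one
            | succ n ih => rw [pow_succ]; exact memLocalRing_mul ih htl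
          exact this n
        exact not_memLocalIdeal_mul hl htl hn2 hcon hn
  exact h6 L h5

/-- Elements congruent to `1` are invertible. -/
theorem exists_inv_of_congr_one {p : ℕ} [hp : Fact p.Prime] (hM : IsPModular p M) {w : MonoidAlgebra ℂ G}
    (hw : LocalIdealCoeff M (1 - w)) : ∃ w', w * w' = 1 ∧ w' * w = 1 := by
  classical
  haveI : FiniteDimensional ℂ (MonoidAlgebra ℂ G) := Module.Finite.of_basis (MonoidAlgebra.basis G ℂ)
  have hinj : Function.Injective (LinearMap.mulLeft ℂ w) := by
    rw [← LinearMap.ker_eq_bot, LinearMap.ker_eq_bot']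
    intro v hv
    by_contra hv0
    have h1 : w * v = 0 := hv
    have h2 : (1 - w) * v = (1 : ℂ) • v := by rw [sub_mul, one_mul, h1, sub_zero, one_smul]
    exact not_memLocalIdeal_one (memLocalIdeal_of_eigen hM hw hv0 h2)
  have hsurj := LinearMap.injective_iff_surjective.1 hinj
  obtain ⟨w', hw'⟩ := hsurj 1
  have h1 : w * w' = 1 := hw'
  refine ⟨w', h1, ?_⟩
  apply hinj
  show w * (w' * w) = w * 1
  rw [← mul_assoc, h1, one_mul, mul_one]

end Eigen

section Lift

variable {G : Type*} [Group G] [Fintype G] {M : Ideal AlgInt} [hMp : M.IsPrime]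

theorem localCoeff_aeval_map {a : MonoidAlgebra ℂ G} (ha : LocalCoeff M a) (f : (localRing M)[X]) :
    LocalCoeff M (aeval a (f.map (algebraMap (localRing M) ℂ))) := by
  induction f using Polynomial.induction_on' with
  | add p q hp hq =>
    rw [Polynomial.map_add, map_add]
    exact localCoeff_add hp hq
  | monomial n c =>
    rw [Polynomial.map_monomial, Polynomial.aeval_monomial, ← Algebra.smul_def]
    exact localCoeff_smul c.2 (localCoeff_pow ha n)

theorem localIdealCoeff_pow_sub {a : MonoidAlgebra ℂ G} (ha : LocalCoeff M a) (h2 : LocalIdealCoeff M (a * a - a)) (n : ℕ) :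
    LocalIdealCoeff M (a ^ (n + 1) - a) := by
  induction n with
  | zero => simpa using localIdealCoeff_zero
  | succ n ih =>
    have e : a ^ (n + 1 + 1) - a = (a ^ (n + 1) - a) * a + (a * a - a) := by
      rw [pow_succ _ (n + 1)]
      noncomm_ring
    rw [e]
    exact localIdealCoeff_add (localIdealCoeff_mul_right ih ha) h2

theorem congr_aeval {a : MonoidAlgebra ℂ G} (ha : LocalCoeff M a) (h2 : LocalIdealCoeff M (a * a - a)) (f : (localRing M)[X]) :
    LocalIdealCoeff M (aeval a (f.map (algebraMap (localRing M) ℂ)) -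
      (((f.eval 0 : localRing M) : ℂ) • (1 : MonoidAlgebra ℂ G) +
        (((f.eval 1 : localRing M) : ℂ) - ((f.eval 0 : localRing M) : ℂ)) • a)) := by
  induction f using Polynomial.induction_on' with
  | add p q hp hq =>
    have e : aeval a ((p + q).map (algebraMap (localRing M) ℂ)) -
        ((((p + q).eval 0 : localRing M) : ℂ) • (1 : MonoidAlgebra ℂ G) +
          ((((p + q).eval 1 : localRing M) : ℂ) - (((p + q).eval 0 : localRing M) : ℂ)) • a) =
        (aeval a (p.map (algebraMap (localRing M) ℂ)) -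
          (((p.eval 0 : localRing M) : ℂ) • (1 : MonoidAlgebra ℂ G) +
            (((p.eval 1 : localRing M) : ℂ) - ((p.eval 0 : localRing M) : ℂ)) • a)) +
        (aeval a (q.map (algebraMap (localRing M) ℂ)) -
          (((q.eval 0 : localRing M) : ℂ) • (1 : MonoidAlgebra ℂ G) +
            (((q.eval 1 : localRing M) : ℂ) - ((q.eval 0 : localRing M) : ℂ)) • a)) := by
      rw [Polynomial.map_add, map_add, Polynomial.eval_add, Polynomial.eval_add]
      push_cast
      simp only [add_smul, sub_smul]
      abel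
    rw [e]
    exact localIdealCoeff_add hp hq
  | monomial n c =>
    rcases n with _ | n
    · have e : aeval a ((Polynomial.monomial 0 c).map (algebraMap (localRing M) ℂ)) -
          ((((Polynomial.monomial 0 c).eval 0 : localRing M) : ℂ) • (1 : MonoidAlgebra ℂ G) +
            ((((Polynomial.monomial 0 c).eval 1 : localRing M) : ℂ) - (((Polynomial.monomial 0 c).eval 0 : localRing M) : ℂ)) • a) = 0 := by
        rw [Polynomial.map_monomial, Polynomial.aeval_monomial, Polynomial.eval_monomial, Polynomial.eval_monomial]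
        simp [Algebra.smul_def]
        exact sub_self _
      rw [e]
      exact localIdealCoeff_zero
    · have e : aeval a ((Polynomial.monomial (n + 1) c).map (algebraMap (localRing M) ℂ)) -
          ((((Polynomial.monomial (n + 1) c).eval 0 : localRing M) : ℂ) • (1 : MonoidAlgebra ℂ G) +
            ((((Polynomial.monomial (n + 1) c).eval 1 : localRing M) : ℂ) - (((Polynomial.monomial (n + 1) c).eval 0 : localRing M) : ℂ)) • a) =
          (c : ℂ) • (a ^ (n + 1) - a) := by
        rw [Polynomial.map_monomial, Polynomial.aeval_monomial, Polynomial.eval_monomial, Polynomial.eval_monomial,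
          ← Algebra.smul_def]
        simp [smul_sub]
        rfl
      rw [e]
      exact localIdealCoeff_smul_left c.2 (localIdealCoeff_pow_sub ha h2 n)

theorem isCoprime_multiset_prod {R : Type*} [CommRing R] (s t : Multiset R) (h : ∀ x ∈ s, ∀ y ∈ t, IsCoprime x y) :
    IsCoprime s.prod t.prod := by
  classical
  induction s using Multiset.induction_on with
  | empty => simpa using isCoprime_one_left
  | cons a s ih =>
    rw [Multiset.prod_cons]
    refine IsCoprime.mul_left ?_ (ih fun x hx y hy => h x (Multiset.mem_cons_of_mem hx) y hy)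
    have : ∀ t' : Multiset R, (∀ y ∈ t', IsCoprime a y) → IsCoprime a t'.prod := by
      intro t'
      induction t' using Multiset.induction_on with
      | empty => intro _; simpa using isCoprime_one_right
      | cons b t' ih' =>
        intro hy
        rw [Multiset.prod_cons]
        exact IsCoprime.mul_right (hy b (Multiset.mem_cons_self _ _)) (ih' fun y hy' => hy y (Multiset.mem_cons_of_mem hy'))
    exact this t fun y hy => h a (Multiset.mem_cons_self _ _) y hy

/-- **Lifting idempotents.** -/
theorem exists_idem_lift {p : ℕ} [hp : Fact p.Prime] (hM : IsPModular p M) {a : MonoidAlgebra ℂ G} (ha : LocalCoeff M a)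
    (h2 : LocalIdealCoeff M (a * a - a)) :
    ∃ q : ℂ[X], (a * aeval a q) * (a * aeval a q) = a * aeval a q ∧ LocalCoeff M (a * aeval a q) ∧
      LocalIdealCoeff M (a * aeval a q - a) := by
  classical
  haveI : FiniteDimensional ℂ (MonoidAlgebra ℂ G) := Module.Finite.of_basis (MonoidAlgebra.basis G ℂ)
  have hint : IsIntegral ℂ a := IsIntegral.of_finite ℂ a
  set m := minpoly ℂ a with hm
  have hmm : m.Monic := minpoly.monic hint
  have hmprod : m = (m.roots.map fun r => X - C r).prod := (IsAlgClosed.splits m).eq_prod_roots_of_monic hmm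
  have heig : ∀ r ∈ m.roots, ∃ v : MonoidAlgebra ℂ G, v ≠ 0 ∧ a * v = r • v := by
    intro r hr
    have hroot : m.IsRoot r := (Polynomial.mem_roots hmm.ne_zero).1 hr
    obtain ⟨g, hg⟩ := Polynomial.dvd_iff_isRoot.2 hroot
    have hgm : g.Monic := by
      have h3 : ((X - C r) * g).Monic := by rw [← hg]; exact hmm
      exact (Polynomial.monic_X_sub_C r).of_mul_monic_left h3
    refine ⟨aeval a g, fun h0 => ?_, ?_⟩
    · have h3 := minpoly.min ℂ a hgm h0
      rw [← hm, hg, Polynomial.degree_mul, Polynomial.degree_X_sub_C] at h3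
      have hg0 : g ≠ 0 := hgm.ne_zero
      rw [Polynomial.degree_eq_natDegree hg0] at h3
      norm_cast at h3
      omega
    · have h3 : aeval a m = 0 := minpoly.aeval ℂ a
      rw [hg, map_mul, map_sub, aeval_X, aeval_C, sub_mul] at h3
      rw [← Algebra.smul_def] at h3
      rw [sub_eq_zero] at h3
      simpa [Algebra.smul_def, smul_mul_assoc] using h3
  have hS : ∀ r ∈ m.roots, MemLocalRing M r := by
    intro r hr
    obtain ⟨v, hv, he⟩ := heig r hr
    exact memLocalRing_of_eigen ha hv he
  have hI : ∀ r ∈ m.roots, MemLocalIdeal M r ∨ MemLocalIdeal M (r - 1) := by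
    intro r hr
    obtain ⟨v, hv, he⟩ := heig r hr
    apply Cfsg.Agent.Lib.BPair.memLocalIdeal_or_of_idem (hS r hr)
    have h3 : (a * a - a) * v = (r * r - r) • v := by
      rw [sub_mul, mul_assoc, he, mul_smul_comm, he, smul_smul, sub_smul]
    have h4 := memLocalIdeal_of_eigen hM h2 hv h3
    have e : r - r * r = -(r * r - r) := by ring
    rw [e]
    exact memLocalIdeal_neg h4
  have hS' : ∀ r ∈ m.roots, r ∈ localRing M := hS
  set R' : Multiset (localRing M) := m.roots.pmap (fun r h => (⟨r, h⟩ : localRing M)) hS' with hR'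
  have hR'map : R'.map (algebraMap (localRing M) ℂ) = m.roots := by
    rw [hR', Multiset.map_pmap]
    exact Multiset.pmap_eq_map _ _ _ _ |>.trans (Multiset.map_id' _)
  have hR'mem : ∀ r ∈ R', MemLocalIdeal M (r : ℂ) ∨ MemLocalIdeal M ((r : ℂ) - 1) := by
    intro r hr
    rw [hR', Multiset.mem_pmap] at hr
    obtain ⟨r₀, hr₀, rfl⟩ := hr
    exact hI r₀ hr₀
  set R₀ := R'.filter (fun r : localRing M => MemLocalIdeal M (r : ℂ)) with hR₀
  set R₁ := R'.filter (fun r : localRing M => ¬ MemLocalIdeal M (r : ℂ)) with hR₁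
  have hR₀₁ : R₀ + R₁ = R' := Multiset.filter_add_not _ _
  let lin : localRing M → (localRing M)[X] := fun r => X - C r
  set P₀ : (localRing M)[X] := (R₀.map lin).prod with hP₀
  set P₁ : (localRing M)[X] := (R₁.map lin).prod with hP₁
  set A₀ : (localRing M)[X] := X * P₀ with hA₀
  set B₀ : (localRing M)[X] := (X - 1) * P₁ with hB₀
  have hcop : IsCoprime A₀ B₀ := by
    have e1 : A₀ = (((0 : localRing M) ::ₘ R₀).map lin).prod := by
      rw [Multiset.map_cons, Multiset.prod_cons]
      simp [hA₀, lin, hP₀]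
    have e2 : B₀ = (((1 : localRing M) ::ₘ R₁).map lin).prod := by
      rw [Multiset.map_cons, Multiset.prod_cons]
      simp [hB₀, lin, hP₁]
    rw [e1, e2]
    apply isCoprime_multiset_prod
    intro x hx y hy
    rw [Multiset.mem_map] at hx hy
    obtain ⟨r, hr, rfl⟩ := hx
    obtain ⟨r', hr', rfl⟩ := hy
    apply Polynomial.isCoprime_X_sub_C_of_isUnit_sub
    apply isUnit_local_of_not_mem
    have hr0 : MemLocalIdeal M (r : ℂ) := by
      rcases Multiset.mem_cons.1 hr with rfl | h
      · exact memLocalIdeal_zero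
      · exact (Multiset.mem_filter.1 h).2
    have hr1 : MemLocalIdeal M ((r' : ℂ) - 1) := by
      rcases Multiset.mem_cons.1 hr' with rfl | h
      · simpa using memLocalIdeal_zero
      · obtain ⟨h3, h4⟩ := Multiset.mem_filter.1 h
        exact (hR'mem _ h3).resolve_left h4
    intro hcon
    apply not_memLocalIdeal_one (M := M)
    have e : (1 : ℂ) = (r : ℂ) - ((r - r' : localRing M) : ℂ) - ((r' : ℂ) - 1) := by
      push_cast
      ring
    rw [e]
    exact memLocalIdeal_sub (memLocalIdeal_sub hr0 hcon) hr1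
  obtain ⟨g₀, g₁, hbez⟩ := hcop
  set φ := algebraMap (localRing M) ℂ with hφ
  set h : (localRing M)[X] := g₀ * A₀ with hh
  have hprodmap : (A₀ * B₀).map φ = X * (X - 1) * m := by
    have e1 : A₀ * B₀ = X * (X - 1) * (R'.map lin).prod := by
      rw [← hR₀₁, Multiset.map_add, Multiset.prod_add, hA₀, hB₀]
      ring
    rw [e1, Polynomial.map_mul, Polynomial.map_mul, Polynomial.map_X, Polynomial.map_sub, Polynomial.map_X, Polynomial.map_one]
    congr 1
    conv_rhs => rw [hmprod, ← hR'map, Multiset.map_map]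
    rw [Polynomial.map_multiset_prod, Multiset.map_map]
    congr 1
    apply Multiset.map_congr rfl
    intro r _
    simp [lin]
  have haev : aeval a ((A₀ * B₀).map φ) = 0 := by
    rw [hprodmap, map_mul, minpoly.aeval ℂ a, mul_zero]
  set q : ℂ[X] := (g₀ * P₀).map φ with hq
  have hhq : h.map φ = X * q := by
    rw [hh, hA₀, hq, Polynomial.map_mul, Polynomial.map_mul, Polynomial.map_mul, Polynomial.map_X]
    ring
  have hy : a * aeval a q = aeval a (h.map φ) := by
    rw [hhq, map_mul, aeval_X]
  refine ⟨q, ?_, ?_, ?_⟩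
  · rw [hy, ← map_mul, ← sub_eq_zero, ← map_sub, ← Polynomial.map_mul, ← Polynomial.map_sub]
    have e : h * h - h = (-(g₀ * g₁)) * (A₀ * B₀) := by
      have : h = 1 - g₁ * B₀ := by rw [← hbez]; rw [hh]; ring
      calc h * h - h = h * (h - 1) := by ring
        _ = h * (-(g₁ * B₀)) := by rw [this]; ring
        _ = _ := by rw [hh]; ring
    rw [e, Polynomial.map_mul, map_mul, haev, mul_zero]
  · rw [hy]
    exact localCoeff_aeval_map ha h
  · rw [hy]
    have h3 := congr_aeval ha h2 h
    have h0 : h.eval 0 = 0 := by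
      rw [hh, hA₀]
      simp
    have h1 : h.eval 1 = 1 := by
      have : h = 1 - g₁ * B₀ := by rw [← hbez]; rw [hh]; ring
      rw [this, hB₀]
      simp
    rw [h0, h1] at h3
    have e : ((0 : localRing M) : ℂ) • (1 : MonoidAlgebra ℂ G) + (((1 : localRing M) : ℂ) - ((0 : localRing M) : ℂ)) • a = a := by
      simp
    rw [e] at h3
    exact h3

theorem aeval_commute {a x : MonoidAlgebra ℂ G} (h : Commute a x) (q : ℂ[X]) : Commute (aeval a q) x := by
  induction q using Polynomial.induction_on' with
  | add p q hp hq =>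
    rw [map_add]
    exact hp.add_left hq
  | monomial n c =>
    rw [Polynomial.aeval_monomial]
    exact Commute.mul_left (Algebra.commutes c x) (h.pow_left n)

theorem aeval_mem_sA {C : Subgroup G} {a : MonoidAlgebra ℂ G} (h : a ∈ sA ℂ C) (q : ℂ[X]) : aeval a q ∈ sA ℂ C := by
  induction q using Polynomial.induction_on' with
  | add p q hp hq =>
    rw [map_add]
    exact (sA ℂ C).add_mem hp hq
  | monomial n c =>
    rw [Polynomial.aeval_monomial, ← Algebra.smul_def]
    exact (sA ℂ C).smul_mem ((sA ℂ C).pow_mem h n) c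

/-- Idempotents of the fixed points over the residue field lift. -/
theorem exists_idem_lift_fx {p : ℕ} [hp : Fact p.Prime] (hM : IsPModular p M) (T : Subgroup G)
    {x : MonoidAlgebra (ResField M) G} (hx : x ∈ fx (ResField M) T) (hxx : x * x = x) :
    ∃ y : MonoidAlgebra ℂ G, LocalCoeff M y ∧ y * y = y ∧ rd M y = x ∧ IsInvBy T y := by
  obtain ⟨a, hal, har, hai⟩ := exists_lift_inv T hx
  have h2 : LocalIdealCoeff M (a * a - a) := by
    rw [← rd_eq_iff (localCoeff_mul hal hal) hal, rd_mul hal hal, har, hxx]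
  obtain ⟨q, h3, h4, h5⟩ := exists_idem_lift hM hal h2
  refine ⟨_, h4, h3, ?_, ?_⟩
  · rw [← har]
    exact (rd_eq_iff h4 hal).2 h5
  · rw [isInvBy_iff_commute] at hai ⊢
    intro u hu
    have h6 : Commute a (MonoidAlgebra.single u 1) := (hai u hu).symm
    exact (h6.mul_left (aeval_commute h6 q)).eq.symm

end Lift

end Cfsg.Agent.Lib.Modular
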