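import Mathlib
import Cfsg.Agent.Lib.Modular.RedMap
import Cfsg.Agent.Lib.BPair.Max

/-!
# Local idempotents and Brauer pairs

A local idempotent `i` of the `P`-fixed points of `F[G]` (`br_P i ≠ 0`) determines a block `e` of `C_G(P)`, and whenever
`Q ≤ P` and `f` is a block of `C_G(Q)` with `br_Q(i) ē_f ≠ 0`, the pair `(Q, f)` lies below `(P, e)`.
-/

set_option autoImplicit false
set_option linter.unusedSectionVars false
set_option linter.unusedSimpArgs false
set_option linter.unusedVariables false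
set_option linter.style.haveILetI false
set_option linter.unnecessarySimpa false

namespace Cfsg.Agent.Lib.Modular

open Module Cfsg Cfsg.Agent.Lib.Block Cfsg.Agent.Lib.CharExtra Cfsg.Agent.Lib.BPair

attribute [local instance] Cfsg.Agent.Lib.BPair.subFintype

section Bar

variable {G : Type*} [Group G] [Fintype G] {M : Ideal AlgInt} [hMp : M.IsPrime] {p : ℕ} [hp : Fact p.Prime]

/-- The reduction of the idempotent of a block of `C_G(Q)`. -/
noncomputable def ebar (M : Ideal AlgInt) [M.IsPrime] (Q : Subgroup G) (f : Set (IrrCharacter (Cen Q))) :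
    MonoidAlgebra (ResField M) G := rd M (Ee Q f)

theorem rd_pow {x : MonoidAlgebra ℂ G} (hx : LocalCoeff M x) (n : ℕ) : rd M (x ^ n) = rd M x ^ n := by
  induction n with
  | zero => rw [pow_zero, pow_zero, rd_one]
  | succ n ih => rw [pow_succ, pow_succ, rd_mul (localCoeff_pow hx n) hx, ih]

theorem ebar_idem {Q : Subgroup G} {f : Set (IrrCharacter (Cen Q))} (hf : IsPBlock M f) :
    ebar M Q f * ebar M Q f = ebar M Q f := by
  unfold ebar
  rw [← rd_mul (localCoeff_Ee hf) (localCoeff_Ee hf), Ee_mul_self]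

theorem ebar_orth {Q : Subgroup G} {f f' : Set (IrrCharacter (Cen Q))} (hf : IsPBlock M f) (hf' : IsPBlock M f')
    (hne : f ≠ f') : ebar M Q f * ebar M Q f' = 0 := by
  unfold ebar
  rw [← rd_mul (localCoeff_Ee hf) (localCoeff_Ee hf'), Ee_mul_eq_zero hf hf' hne, rd_zero]

theorem ebar_mem_sA (Q : Subgroup G) (f : Set (IrrCharacter (Cen Q))) :
    ebar M Q f ∈ sA (ResField M) (Subgroup.centralizer (Q : Set G)) := by
  intro g hg
  unfold ebar
  rw [coeff_rd]
  unfold Ee
  rw [coeff_incl_of_notMem _ _ hg]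
  exact red_zero

theorem ebar_mem_fx (Q : Subgroup G) (f : Set (IrrCharacter (Cen Q))) :
    ebar M Q f ∈ fx (ResField M) (Subgroup.centralizer (Q : Set G)) :=
  rd_mem_fx (isInvBy_Ee_of_le le_rfl f)

theorem ebar_comm (Q : Subgroup G) (f : Set (IrrCharacter (Cen Q))) {a : MonoidAlgebra (ResField M) G}
    (ha : a ∈ sA (ResField M) (Subgroup.centralizer (Q : Set G))) : a * ebar M Q f = ebar M Q f * a :=
  sA_commute ha (ebar_mem_fx Q f)

theorem sum_ebar (Q : Subgroup G) : ∑ f : Blocks M (Cen Q), ebar M Q f.1 = 1 := by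
  classical
  unfold ebar
  rw [← rd_sum _ _ fun f _ => localCoeff_Ee f.2, ← rd_one (M := M)]
  congr 1
  unfold Ee
  rw [← map_sum, sum_blockElt_eq_one, map_one]

theorem exists_ebar_ne (Q : Subgroup G) {x : MonoidAlgebra (ResField M) G} (hx : x ≠ 0) :
    ∃ f : Set (IrrCharacter (Cen Q)), IsPBlock M f ∧ x * ebar M Q f ≠ 0 := by
  classical
  by_contra hcon
  push_neg at hcon
  apply hx
  rw [← mul_one x, ← sum_ebar (M := M) Q, Finset.mul_sum]
  exact Finset.sum_eq_zero fun f _ => hcon f.1 f.2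

theorem ebar_conj_of_normalizer {Q : Subgroup G} {x : G} (hx : x ∈ Subgroup.normalizer (Q : Set G))
    (f : Set (IrrCharacter (Cen Q))) :
    cj (ResField M) x (ebar M Q f) = ebar M Q (mapBlock (nConj (normalizer_le_normalizer_cen hx)) f) := by
  unfold ebar
  rw [Ee_mapBlock, rd_conjElt]

theorem ebar_conj (Q : Subgroup G) (x : G) (f : Set (IrrCharacter (Cen Q))) :
    cj (ResField M) x (ebar M Q f) = ebar M (Cfsg.Agent.Lib.BPair.cj x Q) (conjBlock Q x f) := by
  unfold ebar
  rw [Ee_conj, rd_conjElt]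

/-- The value `1` of a central character read from the Brauer image over the residue field. -/
theorem om_sub_one_of_ne (hM : IsPModular p M) {P : Subgroup G} (hP : IsPGroup p P) {z : MonoidAlgebra ℂ G}
    (hzl : LocalCoeff M z) (hzz : z * z = z) (hzP : IsInvBy P z) (hzc : IsInvBy (Cen P) z)
    {e : Set (IrrCharacter (Cen P))} (he : IsPBlock M e) (h : br P (rd M z) * ebar M P e ≠ 0) :
    ∀ ξ ∈ e, MemLocalIdeal M (om (ξ : Cen P → ℂ) (resAlg (Cen P) z) - 1) := by
  classical
  haveI : CharP (ResField M) p := charP_resField hM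
  obtain ⟨ξ₀, hξ₀⟩ := IsPBlock_nonempty he
  rcases om_idem_cases hM hP ξ₀ hzP hzc hzl hzz with h0 | h1
  · exfalso
    have hcent := isCentralElt_resAlg_of_isInvBy hzc
    have hrl := localCoeff_resAlg (Cen P) hzl
    set y₀ : MonoidAlgebra ℂ (Cen P) := resAlg (Cen P) z * blockElt e with hy₀
    have hy₀c : IsCentralElt y₀ := isCentralElt_mul hcent (isCentralElt_blockElt e)
    have hy₀l : LocalCoeff M y₀ := localCoeff_mul hrl (localCoeff_blockElt (isBlockUnion_of_isPBlock he))
    have hom : ∀ ξ : IrrCharacter (Cen P), MemLocalIdeal M (om (ξ : Cen P → ℂ) y₀) := by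
      intro ξ
      rw [hy₀, om_mul ξ.2 hcent]
      by_cases hξ : ξ ∈ e
      · rw [om_blockElt_of_mem hξ, mul_one]
        have h3 := memLocalIdeal_om_sub ξ.2 ξ₀.2 (sameBlock_of_mem he hξ hξ₀) hcent hrl
        have h4 := memLocalIdeal_add h3 h0
        simpa using h4
      · rw [om_blockElt_of_notMem hξ, mul_zero]
        exact memLocalIdeal_zero
    have hpw := localIdealCoeff_pow_of_om hy₀c hy₀l hom
    set n := Fintype.card (IrrCharacter (Cen P)) with hn
    set W := br P (rd M z) * ebar M P e with hW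
    have hincl : incl (Cen P) y₀ = resG (Cen P) z * Ee P e := by
      rw [hy₀, map_mul]
      congr 1
      apply ext_coeff
      intro g
      by_cases hg : g ∈ Cen P
      · have := coeff_incl_coe (Cen P) (resAlg (Cen P) z) ⟨g, hg⟩
        simp only at this
        rw [this, coeff_resAlg, coeff_resG_of_mem _ _ hg]
      · rw [coeff_incl_of_notMem _ _ hg, coeff_resG_of_notMem _ _ hg]
    have hrdW : rd M (incl (Cen P) y₀) = W := by
      rw [hincl, rd_mul (localCoeff_resG _ hzl) (localCoeff_Ee he), rd_resG]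
      rfl
    have hWn : W ^ n = 0 := by
      rw [← hrdW, ← rd_pow (localCoeff_incl _ hy₀l), ← map_pow]
      exact (rd_eq_zero_iff (localCoeff_of_localIdealCoeff (localIdealCoeff_incl _ hpw))).2 (localIdealCoeff_incl _ hpw)
    have hWW : W * W = W := by
      have hrz : rd M z ∈ fx (ResField M) P := rd_mem_fx hzP
      have h5 : br P (rd M z) * br P (rd M z) = br P (rd M z) := by
        rw [← br_mul hP hrz hrz, ← rd_mul hzl hzl, hzz]
      rw [hW, mul_assoc, ← mul_assoc (ebar M P e), ← ebar_comm P e (br_mem_sA P _), mul_assoc, ebar_idem he, ← mul_assoc, h5]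
    exact h (idem_of_nil_eq_zero hWW ⟨n, hWn⟩)
  · intro ξ hξ
    exact om_block_congr he hξ hξ₀ hzc hzl h1

end Bar

section Normal

variable {G : Type*} [Group G] [Fintype G] {M : Ideal AlgInt} [hMp : M.IsPrime] {p : ℕ} [hp : Fact p.Prime]

/-- **Normal steps.** -/
theorem normal_label (hM : IsPModular p M) {P Q : Subgroup G} (hP : IsPGroup p P) (hQP : Q ≤ P)
    (hPN : P ≤ Subgroup.normalizer (Q : Set G)) {i : MonoidAlgebra (ResField M) G} (hi : i * i = i)
    (hiP : i ∈ fx (ResField M) P) (hil : IsLoc (fx (ResField M) P) i) {e : Set (IrrCharacter (Cen P))} (he : IsPBlock M e)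
    {f : Set (IrrCharacter (Cen Q))} (hf : IsPBlock M f) (h1 : br P i * ebar M P e ≠ 0) (h2 : br Q i * ebar M Q f ≠ 0) :
    IsNormalSubpair p M Q f P e := by
  classical
  haveI : CharP (ResField M) p := charP_resField hM
  have hQp : IsPGroup p Q := hP.to_le hQP
  have hfxPQ : fx (ResField M) P ≤ fx (ResField M) Q := fx_mono hQP
  set F₀ := ResField M with hF₀
  set ē := ebar M Q f with hē
  have hē0 : ē ≠ 0 := by
    intro h0
    apply h2
    rw [h0, mul_zero]
  set O : Finset (MonoidAlgebra F₀ G) := Finset.univ.image fun x : P => cj F₀ (x : G) ē with hO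
  have hOmem : ∀ a, a ∈ O ↔ ∃ x ∈ P, a = cj F₀ x ē := by
    intro a
    rw [hO, Finset.mem_image]
    constructor
    · rintro ⟨x, -, rfl⟩
      exact ⟨x, x.2, rfl⟩
    · rintro ⟨x, hx, rfl⟩
      exact ⟨⟨x, hx⟩, Finset.mem_univ _, rfl⟩
  have hOb : ∀ a ∈ O, ∃ f' : Set (IrrCharacter (Cen Q)), IsPBlock M f' ∧ a = ebar M Q f' := by
    intro a ha
    obtain ⟨x, hx, rfl⟩ := (hOmem a).1 ha
    exact ⟨_, isPBlock_mapBlock _ hf, ebar_conj_of_normalizer (hPN hx) f⟩
  have hOorth : ∀ a ∈ O, ∀ b ∈ O, a ≠ b → a * b = 0 := by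
    intro a ha b hb hab
    obtain ⟨f₁, hf₁, rfl⟩ := hOb a ha
    obtain ⟨f₂, hf₂, rfl⟩ := hOb b hb
    exact ebar_orth hf₁ hf₂ fun h => hab (by rw [h])
  have hOidem : ∀ a ∈ O, a * a = a := by
    intro a ha
    obtain ⟨f₁, hf₁, rfl⟩ := hOb a ha
    exact ebar_idem hf₁
  have hOst : ∀ x ∈ P, ∀ a ∈ O, cj F₀ x a ∈ O := by
    intro x hx a ha
    obtain ⟨y, hy, rfl⟩ := (hOmem a).1 ha
    rw [hOmem]
    exact ⟨x * y, P.mul_mem hx hy, by rw [cj_mul_apply]⟩
  set E : MonoidAlgebra F₀ G := ∑ a ∈ O, a with hE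
  have hEs : E ∈ sA F₀ (Subgroup.centralizer (Q : Set G)) := by
    refine sum_mem fun a ha => ?_
    obtain ⟨f₁, hf₁, rfl⟩ := hOb a ha
    exact ebar_mem_sA Q f₁
  have hEc : ∀ s ∈ sA F₀ (Subgroup.centralizer (Q : Set G)), s * E = E * s := by
    intro s hs
    rw [hE, Finset.mul_sum, Finset.sum_mul]
    refine Finset.sum_congr rfl fun a ha => ?_
    obtain ⟨f₁, hf₁, rfl⟩ := hOb a ha
    exact ebar_comm Q f₁ hs
  have hEfix : E ∈ fx F₀ P := by
    apply mem_fx_of_cj
    intro x hx
    rw [hE, map_sum]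
    refine Finset.sum_nbij' (cj F₀ x) (cj F₀ x⁻¹) (hOst x hx) (hOst x⁻¹ (P.inv_mem hx)) ?_ ?_ ?_
    · intro a _
      exact cj_inv_cj x a
    · intro a _
      exact cj_cj_inv x a
    · intro a _
      rfl
  have hmulE : ∀ a ∈ O, a * E = a := by
    intro a ha
    rw [hE, Finset.mul_sum, Finset.sum_eq_single a]
    · exact hOidem a ha
    · intro b hb hne
      exact hOorth a ha b hb (Ne.symm hne)
    · intro h
      exact absurd ha h
  have hEE : E * E = E := by
    conv_lhs => rw [hE, Finset.sum_mul]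
    exact Finset.sum_congr rfl hmulE
  have hēO : ē ∈ O := (hOmem ē).2 ⟨1, P.one_mem, (cj_one_apply F₀ ē).symm⟩
  set y : MonoidAlgebra F₀ G := i * E * i with hy
  have hycor : IsCor (fx F₀ P) i y := by
    refine ⟨(fx F₀ P).mul_mem ((fx F₀ P).mul_mem hiP hEfix) hiP, ?_, ?_⟩
    · rw [hy, ← mul_assoc, ← mul_assoc, hi]
    · rw [hy, mul_assoc _ i i, hi]
  obtain ⟨c, hc⟩ := hil y hycor
  -- the image at `Q`
  set B := br Q i with hB
  have hBs : B ∈ sA F₀ (Subgroup.centralizer (Q : Set G)) := br_mem_sA Q i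
  have hBB : B * B = B := by rw [hB, ← br_mul hQp (hfxPQ hiP) (hfxPQ hiP), hi]
  have hbry : br Q y = B * E := by
    rw [hy, br_mul hQp ((fx F₀ Q).mul_mem (hfxPQ hiP) (hfxPQ hEfix)) (hfxPQ hiP),
      br_mul hQp (hfxPQ hiP) (hfxPQ hEfix), br_eq_self hEs, mul_assoc, ← hEc B hBs, ← mul_assoc, hBB]
  have hBEidem : (B * E) * (B * E) = B * E := by
    rw [mul_assoc, ← mul_assoc E, ← hEc B hBs, mul_assoc, hEE, ← mul_assoc, hBB]
  have hBEne : B * E ≠ 0 := by
    intro h0
    apply h2
    have : B * ē = (B * E) * ē := by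
      rw [mul_assoc, ← hEc ē (ebar_mem_sA Q f), hmulE ē hēO]
    rw [this, h0, zero_mul]
  have hc0 : c ≠ 0 := by
    rintro rfl
    rw [zero_smul, sub_zero] at hc
    have h3 := br_isNilpotent hQp (hfxPQ hycor.1) hc
    rw [hbry] at h3
    exact hBEne (idem_of_nil_eq_zero hBEidem h3)
  have hBp0 : br P i ≠ 0 := by
    intro h0
    apply h1
    rw [h0, zero_mul]
  have hBpp : br P i * br P i = br P i := by rw [← br_mul hP hiP hiP, hi]
  have hnilP : IsNilpotent (br P (y - c • i)) :=
    br_isNilpotent hP ((fx F₀ P).sub_mem hycor.1 ((fx F₀ P).smul_mem hiP c)) hc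
  -- stability
  have hst : ∀ x ∈ P, cj F₀ x ē = ē := by
    by_contra hcon
    push_neg at hcon
    obtain ⟨x₀, hx₀, hx₀ne⟩ := hcon
    have hno : ∀ a ∈ O, a ∉ fx F₀ P := by
      intro a ha hafix
      obtain ⟨x, hx, rfl⟩ := (hOmem a).1 ha
      apply hx₀ne
      have h3 := cj_of_mem_fx hafix (P.mul_mem (P.mul_mem hx hx₀) (P.inv_mem hx))
      rw [← cj_mul_apply] at h3
      have e1 : x * x₀ * x⁻¹ * x = x * x₀ := by group
      rw [e1, cj_mul_apply] at h3
      exact cj_inj F₀ x h3
    have hbrE : br P E = 0 := by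
      rw [hE, br_sum_fixed hP O hOst, Finset.filter_false_of_mem hno, Finset.sum_empty]
    have h3 : br P y = 0 := by
      rw [hy, br_mul hP ((fx F₀ P).mul_mem hiP hEfix) hiP, br_mul hP hiP hEfix, hbrE, mul_zero, zero_mul]
    rw [map_sub, h3, zero_sub, map_smul] at hnilP
    have h4 : IsNilpotent (br P i) := by
      have h5 := hnilP.neg
      rw [neg_neg] at h5
      obtain ⟨k, hk⟩ := h5
      refine ⟨k, ?_⟩
      rw [_root_.smul_pow] at hk
      exact (smul_eq_zero.1 hk).resolve_left (pow_ne_zero _ hc0)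
    exact hBp0 (idem_of_nil_eq_zero hBpp h4)
  have hEē : E = ē := by
    have hOone : O = {ē} := by
      ext a
      rw [hOmem, Finset.mem_singleton]
      constructor
      · rintro ⟨x, hx, rfl⟩
        exact hst x hx
      · rintro rfl
        exact ⟨1, P.one_mem, (cj_one_apply F₀ _).symm⟩
    rw [hE, hOone, Finset.sum_singleton]
  have hstab : ∀ x ∈ P, StabilizesBlock (Cen Q) f x := by
    intro x hx
    refine (stabilizes_iff hf).2 ⟨normalizer_le_normalizer_cen (hPN hx), ?_⟩
    by_contra hne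
    have h3 := ebar_orth (M := M) (isPBlock_mapBlock (nConj (normalizer_le_normalizer_cen (hPN hx))) hf) hf hne
    rw [← ebar_conj_of_normalizer (hPN hx), hst x hx] at h3
    rw [← hē, ebar_idem hf] at h3
    exact hē0 h3
  have hzP : IsInvBy P (Ee Q f) := isInvBy_Ee_of_stable hf hstab
  have hzc : IsInvBy (Cen P) (Ee Q f) := isInvBy_Ee_of_le (Subgroup.centralizer_le hQP) f
  -- the image at `P`
  set ēe := ebar M P e with hēe
  set w := br P ē with hw
  have hwne : w * ēe ≠ 0 := by
    intro h0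
    have hēfix : ē ∈ fx F₀ P := mem_fx_of_cj hst
    set Bp := br P i with hBp
    have hBps : Bp ∈ sA F₀ (Subgroup.centralizer (P : Set G)) := br_mem_sA P i
    have hws : w ∈ sA F₀ (Subgroup.centralizer (P : Set G)) := br_mem_sA P ē
    have hν : br P (y - c • i) = Bp * w * Bp - c • Bp := by
      rw [map_sub, map_smul, hy, hEē, br_mul hP ((fx F₀ P).mul_mem hiP hēfix) hiP, br_mul hP hiP hēfix]
    set ν := br P (y - c • i) with hνd
    have hνs : ν ∈ sA F₀ (Subgroup.centralizer (P : Set G)) := br_mem_sA P _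
    have hcomm : Commute ν ēe := ebar_comm P e hνs
    have h3 : IsNilpotent (ν * ēe) := hcomm.isNilpotent_mul_right hnilP
    have h4 : ν * ēe = -(c • (Bp * ēe)) := by
      rw [hν, sub_mul, mul_assoc (Bp * w), ebar_comm P e hBps, ← mul_assoc (Bp * w), mul_assoc Bp w, h0, mul_zero, zero_mul,
        zero_sub, smul_mul_assoc, ebar_comm P e hBps]
    rw [h4] at h3
    have h5 : IsNilpotent (Bp * ēe) := by
      have h6 := h3.neg
      rw [neg_neg] at h6
      obtain ⟨k, hk⟩ := h6
      refine ⟨k, ?_⟩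
      rw [_root_.smul_pow] at hk
      exact (smul_eq_zero.1 hk).resolve_left (pow_ne_zero _ hc0)
    have h6 : (Bp * ēe) * (Bp * ēe) = Bp * ēe := by
      rw [mul_assoc, ← mul_assoc ēe, ← ebar_comm P e hBps, mul_assoc, ebar_idem he, ← mul_assoc, hBpp]
    exact h1 (idem_of_nil_eq_zero h6 h5)
  refine isNormalSubpair_iff.2 ⟨⟨hQp, hf⟩, ⟨hP, he⟩, hQP, hPN, hstab, ?_⟩
  exact om_sub_one_of_ne hM hP (localCoeff_Ee hf) (Ee_mul_self Q f) hzP hzc he hwne

end Normal

section Below

variable {G : Type*} [Group G] [Fintype G] {M : Ideal AlgInt} [hMp : M.IsPrime] {p : ℕ} [hp : Fact p.Prime]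

/-- A primitive piece below `i` that still meets a given element at `Q`. -/
theorem exists_prim_below {R Q : Subgroup G} {i : MonoidAlgebra (ResField M) G} (hi : i * i = i)
    (hiR : i ∈ fx (ResField M) R) {E : MonoidAlgebra (ResField M) G} (h : br Q i * E ≠ 0) :
    ∃ x : MonoidAlgebra (ResField M) G, x ∈ fx (ResField M) R ∧ x * x = x ∧ x ≠ 0 ∧ IsLoc (fx (ResField M) R) x ∧
      x * i = x ∧ i * x = x ∧ br Q x * E ≠ 0 := by
  classical
  set F₀ := ResField M
  have key := idem_induction (S := fx F₀ R) (F := F₀)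
    (fun j => i * j = j → j * i = j → br Q j * E ≠ 0 → ∃ x : MonoidAlgebra F₀ G, x ∈ fx F₀ R ∧ x * x = x ∧ x ≠ 0 ∧
      IsLoc (fx F₀ R) x ∧ x * i = x ∧ i * x = x ∧ br Q x * E ≠ 0) ?_ ?_ ?_
  · exact key i hiR hi hi hi h
  · intro _ _ h3
    exact absurd (by rw [map_zero, zero_mul]) h3
  · intro x y hx hy hxx hyy hxy hyx Px Py h1 h2 h3
    have e1 : i * x = x := by
      have := congrArg (· * x) h1
      simp only [add_mul, mul_assoc, hxx, hyx, add_zero] at this
      exact this
    have e2 : i * y = y := by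
      have := congrArg (· * y) h1
      simp only [add_mul, mul_assoc, hyy, hxy, zero_add] at this
      exact this
    have e3 : x * i = x := by
      have := congrArg (x * ·) h2
      simp only [mul_add, ← mul_assoc, hxx, hxy, add_zero] at this
      exact this
    have e4 : y * i = y := by
      have := congrArg (y * ·) h2
      simp only [mul_add, ← mul_assoc, hyy, hyx, zero_add] at this
      exact this
    rw [map_add, add_mul] at h3
    by_cases h5 : br Q x * E = 0
    · rw [h5, zero_add] at h3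
      exact Py e2 e4 h3
    · exact Px e1 e3 h5
  · intro j hj hjj hj0 hjl h1 h2 h3
    exact ⟨j, hj, hjj, hj0, hjl, h2, h1, h3⟩

/-- **The fundamental comparison.**  If `i` is a local idempotent of the `P`-fixed points, with label `(P, e)`, and `Q ≤ P`
and `br_Q(i) ē_f ≠ 0`, then `(Q, f) ≤ (P, e)`. -/
theorem label_le (hM : IsPModular p M) :
    ∀ (n : ℕ) (P : Subgroup G), Nat.card P = n → IsPGroup p P → ∀ i : MonoidAlgebra (ResField M) G, i * i = i →
      i ∈ fx (ResField M) P → IsLoc (fx (ResField M) P) i → ∀ e : Set (IrrCharacter (Cen P)), IsPBlock M e →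
      br P i * ebar M P e ≠ 0 →
      ∀ (m : ℕ) (Q : Subgroup G), Nat.card P - Nat.card Q = m → Q ≤ P → ∀ f : Set (IrrCharacter (Cen Q)), IsPBlock M f →
        br Q i * ebar M Q f ≠ 0 → SubpairLE p M Q f P e := by
  classical
  haveI : CharP (ResField M) p := charP_resField hM
  intro n
  induction n using Nat.strong_induction_on with
  | _ n IHn =>
  intro P hn hP i hi hiP hil e he h1 m
  induction m using Nat.strong_induction_on with
  | _ m IHm =>
  intro Q hm hQP f hf h2
  by_cases hPN : P ≤ Subgroup.normalizer (Q : Set G)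
  · exact Relation.ReflTransGen.single (normal_label hM hP hQP hPN hi hiP hil he hf h1 h2)
  set F₀ := ResField M with hF₀
  set C := P ⊓ Subgroup.normalizer (Q : Set G) with hC
  have hCne : C ≠ P := by
    intro h3
    apply hPN
    rw [← h3]
    exact inf_le_right
  obtain ⟨R, h, hCR, hRP, hhP, hnorm, hhp, hcov, hdisj, hcard⟩ := exists_max_sub hP (inf_le_left : C ≤ P) hCne
  have hQC : Q ≤ C := le_inf hQP Subgroup.le_normalizer
  have hQR : Q ≤ R := hQC.trans hCR
  have hRp : IsPGroup p R := hP.to_le hRP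
  have hQp : IsPGroup p Q := hP.to_le hQP
  obtain ⟨x, hxR, hxx, hx0, hxl, hxi, hix, hxQ⟩ :=
    exists_prim_below (R := R) (Q := Q) hi (fx_mono hRP hiP) h2
  obtain ⟨a₀, I, hchain, hloc⟩ := chainL _ R x rfl hRp hxx hx0 hxR hxl
  have hIst : ∀ y ∈ R, ∀ a ∈ I, cj F₀ y a ∈ I := by
    intro y hy a ha
    obtain ⟨z, hz, rfl⟩ := hchain.all a ha
    rw [← cj_mul_apply]
    exact hchain.closed _ (R.mul_mem hy hz)
  have hbrs : br Q x = ∑ a ∈ I.filter (· ∈ fx F₀ Q), br Q a := by
    conv_lhs => rw [← hchain.sum]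
    exact br_sum_fixed hQp I fun y hy a ha => hIst y (hQR hy) a ha
  have hex : ∃ a ∈ I, a ∈ fx F₀ Q ∧ br Q a * ebar M Q f ≠ 0 := by
    rw [hbrs, Finset.sum_mul] at hxQ
    obtain ⟨a, ha, ha'⟩ := Finset.exists_ne_zero_of_sum_ne_zero hxQ
    rw [Finset.mem_filter] at ha
    exact ⟨a, ha.1, ha.2, ha'⟩
  obtain ⟨a, haI, haQ, haf⟩ := hex
  have hchain' := hchain.rebase haI
  have haa : a * a = a := hchain.idem' haI
  have hS : Q ≤ stabS R a := by
    intro q hq
    exact mem_stabS.2 ⟨hQR hq, cj_of_mem_fx haQ hq⟩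
  have hSR : stabS R a ≤ R := stabS_le R a
  have hSP : stabS R a ≤ P := hSR.trans hRP
  have haS : a ∈ fx F₀ (stabS R a) := mem_fx_stabS R a
  have hax : a * x = a := hchain.mul_sum haI
  have hai : a * i = a := by
    have : a * x * i = a := by rw [mul_assoc, hxi, hax]
    rwa [hax] at this
  by_cases hSQ : stabS R a = Q
  · exfalso
    have hbrQx : br Q x ≠ 0 := by
      intro h0
      rw [hbrs] at h0
      apply hxQ
      rw [hbrs, h0, zero_mul]
    have hbrP0 : br P i ≠ 0 := by
      intro h0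
      apply h1
      rw [h0, zero_mul]
    obtain ⟨k, hk0, hkp, hlink⟩ := exists_link hP hRP hhP hnorm hhp hcov hi hiP hil hbrP0 hxx hxR hx0 hxl hxi hix
    have h3 := hlink Q hQR hbrQx
    set t := h ^ k with ht
    have htP : t ∈ P := P.pow_mem hhP k
    set I' := I.image (cj F₀ t) with hI'
    have hI'st : ∀ q ∈ Q, ∀ c ∈ I', cj F₀ q c ∈ I' := by
      intro q hq c hc
      rw [hI', Finset.mem_image] at hc ⊢
      obtain ⟨b, hb, rfl⟩ := hc
      refine ⟨cj F₀ (t⁻¹ * q * t) b, hIst _ ?_ b hb, ?_⟩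
      · have := hnorm t⁻¹ (P.inv_mem htP) q (hQR hq)
        simpa using this
      · rw [← cj_mul_apply, ← cj_mul_apply]
        congr 2
        group
    have hcjsum : cj F₀ t x = ∑ c ∈ I', c := by
      rw [← hchain.sum, map_sum, hI', Finset.sum_image]
      intro u _ v _ huv
      exact cj_inj F₀ t huv
    rw [hcjsum, br_sum_fixed hQp I' hI'st] at h3
    obtain ⟨c, hc, -⟩ := Finset.exists_ne_zero_of_sum_ne_zero h3
    rw [Finset.mem_filter, hI', Finset.mem_image] at hc
    obtain ⟨⟨b, hb, rfl⟩, hcfix⟩ := hc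
    obtain ⟨r, hr, rfl⟩ := hchain'.all b hb
    set w := t * r with hw
    have hwP : w ∈ P := P.mul_mem htP (hRP hr)
    have hcw : cj F₀ t (cj F₀ r a) = cj F₀ w a := by
      rw [hw, cj_mul_apply]
    rw [hcw] at hcfix
    have hmem : ∀ q ∈ Q, w⁻¹ * q * w ∈ Q := by
      intro q hq
      rw [← hSQ]
      refine mem_stabS.2 ⟨?_, ?_⟩
      · have := hnorm w⁻¹ (P.inv_mem hwP) q (hQR hq)
        simpa using this
      · have h5 := cj_of_mem_fx hcfix hq
        rw [← cj_mul_apply] at h5
        have e1 : q * w = w * (w⁻¹ * q * w) := by group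
        rw [e1, cj_mul_apply] at h5
        exact cj_inj F₀ w h5
    have hle : Cfsg.Agent.Lib.BPair.cj w⁻¹ Q ≤ Q := by
      rintro _ ⟨q, hq, rfl⟩
      have := hmem q hq
      simpa [MulAut.conj_apply] using this
    have heq := eq_of_cj_le hle
    have hnormw := mem_normalizer_of_cj_eq heq
    have hwC : w ∈ C := ⟨hwP, by simpa using hnormw⟩
    have htR : t ∈ R := by
      have h5 := R.mul_mem (hCR hwC) (R.inv_mem hr)
      have e1 : w * r⁻¹ = t := by rw [hw]; group
      rwa [e1] at h5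
    have h5 := hdisj k hkp 0 hp.out.pos (by
      rw [pow_zero, mul_one]
      exact R.inv_mem htR)
    omega
  -- the proper step
  have hQS : Nat.card Q < Nat.card (stabS R a) := by
    have hle := Subgroup.card_le_of_le hS
    refine lt_of_le_of_ne hle fun h5 => hSQ ?_
    exact (Subgroup.eq_of_le_of_card_ge hS h5.ge).symm
  have hSPc : Nat.card (stabS R a) ≤ Nat.card P := Subgroup.card_le_of_le hSP
  have hSRc : Nat.card (stabS R a) < n := by
    rw [← hn]
    exact lt_of_le_of_lt (Subgroup.card_le_of_le hSR) hcard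
  obtain ⟨hal, habr⟩ := hloc a haI
  obtain ⟨fS, hfS, hfSne⟩ := exists_ebar_ne (M := M) (stabS R a) habr
  have hlow : SubpairLE p M Q f (stabS R a) fS :=
    IHn _ hSRc (stabS R a) rfl (hRp.to_le hSR) a haa haS hal fS hfS hfSne _ Q rfl hS f hf haf
  have hbrS : br (stabS R a) a = br (stabS R a) a * br (stabS R a) i := by
    rw [← br_mul (hRp.to_le hSR) haS (fx_mono hSP hiP), hai]
  have hup : br (stabS R a) i * ebar M (stabS R a) fS ≠ 0 := by
    intro h0
    apply hfSne
    rw [hbrS, mul_assoc, h0, mul_zero]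
  have hhigh : SubpairLE p M (stabS R a) fS P e :=
    IHm (Nat.card P - Nat.card (stabS R a)) (by
      have : Nat.card (stabS R a) ≤ Nat.card P := hSPc
      omega) (stabS R a) rfl hSP fS hfS hup
  exact Relation.ReflTransGen.trans hlow hhigh

/-- The pair labelling a local idempotent below `ē_B` belongs to `B`. -/
theorem isBrauerPairOf_of_label (hM : IsPModular p M) {B : Set (IrrCharacter G)} (hB : IsPBlock M B) {S : Subgroup G}
    (hS : IsPGroup p S) {f : Set (IrrCharacter (Cen S))} (hf : IsPBlock M f) {a : MonoidAlgebra (ResField M) G}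
    (ha : a ∈ fx (ResField M) S) (haB : a * rd M (blockElt B) = a) (h : br S a * ebar M S f ≠ 0) : IsBrauerPairOf p M B S f := by
  classical
  haveI : CharP (ResField M) p := charP_resField hM
  have hzl : LocalCoeff M (blockElt B) := localCoeff_blockElt (isBlockUnion_of_isPBlock hB)
  have hzc : ∀ (T : Subgroup G), IsInvBy T (blockElt B) := fun T => (isCentralElt_blockElt B).isInvBy T
  · refine isBrauerPairOf_iff.2 ⟨⟨hS, hf⟩, hB, ?_⟩
    refine om_sub_one_of_ne hM hS hzl ?_ (hzc _) (hzc _) hf ?_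
    · exact blockElt_mul_self B
    · intro h0
      apply h
      have h1 : br S a = br S a * br S (rd M (blockElt B)) := by
        rw [← br_mul hS ha (rd_mem_fx (hzc S)), haB]
      rw [h1, mul_assoc, h0, mul_zero]

end Below

end Cfsg.Agent.Lib.Modular
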