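import Mathlib
import Cfsg.Agent.Lib.Modular.RedMap

/-!
# Twisted traces of idempotents only depend on the reduction of the Brauer image
-/

set_option autoImplicit false
set_option linter.unusedSectionVars false
set_option linter.unusedSimpArgs false
set_option linter.unusedVariables false
set_option linter.style.haveILetI false
set_option linter.unnecessarySimpa false

namespace Cfsg.Agent.Lib.Modular

open Module Cfsg Cfsg.Agent.Lib.Block Cfsg.Agent.Lib.CharExtra Polynomial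

section Div

variable {G : Type*} [Group G] [Fintype G] {M : Ideal AlgInt} [hMp : M.IsPrime] {p : ℕ}

/-- Divisibility by a power of `p` with local coefficients. -/
def DivBy (M : Ideal AlgInt) (p l : ℕ) (x : MonoidAlgebra ℂ G) : Prop :=
  ∃ w, LocalCoeff M w ∧ x = ((p : ℂ) ^ l) • w

theorem DivBy.add {l : ℕ} {x y : MonoidAlgebra ℂ G} (hx : DivBy M p l x) (hy : DivBy M p l y) : DivBy M p l (x + y) := by
  obtain ⟨w, hw, rfl⟩ := hx
  obtain ⟨w', hw', rfl⟩ := hy
  exact ⟨w + w', localCoeff_add hw hw', by rw [smul_add]⟩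

theorem DivBy.zero {l : ℕ} : DivBy M p l (0 : MonoidAlgebra ℂ G) :=
  ⟨0, localCoeff_zero, by simp⟩

theorem DivBy.sum {ι : Type*} {l : ℕ} (s : Finset ι) (f : ι → MonoidAlgebra ℂ G) (h : ∀ i ∈ s, DivBy M p l (f i)) :
    DivBy M p l (∑ i ∈ s, f i) := by
  classical
  induction s using Finset.induction_on with
  | empty => simpa using DivBy.zero
  | insert a s ha ih =>
    rw [Finset.sum_insert ha]
    exact (h a (Finset.mem_insert_self _ _)).add (ih fun b hb => h b (Finset.mem_insert_of_mem hb))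

theorem DivBy.mul_right {l : ℕ} {x y : MonoidAlgebra ℂ G} (hx : DivBy M p l x) (hy : LocalCoeff M y) : DivBy M p l (x * y) := by
  obtain ⟨w, hw, rfl⟩ := hx
  exact ⟨w * y, localCoeff_mul hw hy, by rw [smul_mul_assoc]⟩

theorem DivBy.mul_left {l : ℕ} {x y : MonoidAlgebra ℂ G} (hx : DivBy M p l x) (hy : LocalCoeff M y) : DivBy M p l (y * x) := by
  obtain ⟨w, hw, rfl⟩ := hx
  exact ⟨y * w, localCoeff_mul hy hw, by rw [mul_smul_comm]⟩

theorem DivBy.mul {l l' : ℕ} {x y : MonoidAlgebra ℂ G} (hx : DivBy M p l x) (hy : DivBy M p l' y) : DivBy M p (l + l') (x * y) := by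
  obtain ⟨w, hw, rfl⟩ := hx
  obtain ⟨w', hw', rfl⟩ := hy
  refine ⟨w * w', localCoeff_mul hw hw', ?_⟩
  rw [smul_mul_smul_comm, pow_add]

theorem DivBy.mono {l l' : ℕ} (h : l ≤ l') {x : MonoidAlgebra ℂ G} (hx : DivBy M p l' x) : DivBy M p l x := by
  obtain ⟨w, hw, rfl⟩ := hx
  obtain ⟨k, rfl⟩ := Nat.exists_eq_add_of_le h
  refine ⟨((p : ℂ) ^ k) • w, localCoeff_smul (by
    have := memLocalRing_natCast (M := M) (p ^ k)
    simpa using this) hw, ?_⟩
  rw [smul_smul, pow_add]

theorem DivBy.localCoeff {l : ℕ} {x : MonoidAlgebra ℂ G} (hx : DivBy M p l x) : LocalCoeff M x := by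
  obtain ⟨w, hw, rfl⟩ := hx
  exact localCoeff_smul (by
    have := memLocalRing_natCast (M := M) (p ^ l)
    simpa using this) hw

theorem DivBy.natCast_mul {x : MonoidAlgebra ℂ G} (hx : LocalCoeff M x) : DivBy M p 1 (((p : ℕ) : MonoidAlgebra ℂ G) * x) := by
  refine ⟨x, hx, ?_⟩
  rw [pow_one]
  have : ((p : ℕ) : MonoidAlgebra ℂ G) = algebraMap ℂ (MonoidAlgebra ℂ G) (p : ℂ) := by simp
  rw [this, ← Algebra.smul_def]

theorem divBy_pow_sub {l : ℕ} {x y : MonoidAlgebra ℂ G} (hx : LocalCoeff M x) (hy : LocalCoeff M y) (hc : Commute x y)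
    (h : DivBy M p l (x - y)) (n : ℕ) : DivBy M p l (x ^ n - y ^ n) := by
  rw [← hc.mul_geom_sum₂]
  refine h.mul_right ?_
  exact localCoeff_sum_aux _ _ fun i _ => localCoeff_mul (localCoeff_pow hx _) (localCoeff_pow hy _)

theorem divBy_pow_step [hp : Fact p.Prime] {l : ℕ} {x y : MonoidAlgebra ℂ G} (hx : LocalCoeff M x) (hy : LocalCoeff M y)
    (hc : Commute x y) (hl : 1 ≤ l) (h : DivBy M p l (x - y)) : DivBy M p (l + 1) (x ^ p - y ^ p) := by
  rw [← hc.mul_geom_sum₂]
  refine h.mul ?_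
  have e : ∑ i ∈ Finset.range p, x ^ i * y ^ (p - 1 - i) =
      ∑ i ∈ Finset.range p, (x ^ i - y ^ i) * y ^ (p - 1 - i) + ((p : ℕ) : MonoidAlgebra ℂ G) * y ^ (p - 1) := by
    have e2 : ((p : ℕ) : MonoidAlgebra ℂ G) * y ^ (p - 1) = ∑ i ∈ Finset.range p, y ^ i * y ^ (p - 1 - i) := by
      have : ∀ i ∈ Finset.range p, y ^ i * y ^ (p - 1 - i) = y ^ (p - 1) := by
        intro i hi
        rw [← pow_add]
        congr 1
        have := Finset.mem_range.1 hi
        omega
      rw [Finset.sum_congr rfl this, Finset.sum_const, Finset.card_range, nsmul_eq_mul]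
    rw [e2, ← Finset.sum_add_distrib]
    refine Finset.sum_congr rfl fun i _ => ?_
    rw [← add_mul, sub_add_cancel]
  rw [e]
  refine DivBy.add (DivBy.sum _ _ fun i _ => ?_) (DivBy.natCast_mul (localCoeff_pow hy _))
  exact ((divBy_pow_sub hx hy hc h i).mono hl).mul_right (localCoeff_pow hy _)

theorem idem_pow {A : Type*} [Monoid A] {y : A} (hy : y * y = y) {n : ℕ} (hn : n ≠ 0) : y ^ n = y := by
  obtain ⟨k, rfl⟩ := Nat.exists_eq_succ_of_ne_zero hn
  exact (show IsIdempotentElem y from hy).pow_succ_eq k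

/-- Elements congruent to an idempotent they commute with converge to it under `p`-th powers. -/
theorem exists_pow_congr [hp : Fact p.Prime] (hM : IsPModular p M) {a y : MonoidAlgebra ℂ G} (ha : LocalCoeff M a)
    (hy : LocalCoeff M y) (hyy : y * y = y) (hc : Commute a y) (hn : LocalIdealCoeff M (a - y)) (l : ℕ) :
    ∃ m₀, ∀ m ≥ m₀, DivBy M p l (a ^ p ^ m - y) := by
  classical
  have hp1 := hp.out.one_lt
  have hp0 : ∀ k : ℕ, p ^ k ≠ 0 := fun k => (pow_pos hp.out.pos k).ne'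
  set n := a - y with hndef
  have hnl : LocalCoeff M n := localCoeff_of_localIdealCoeff hn
  obtain ⟨L, hL⟩ := coeffIn_pow_of_pow_localIdeal hM hnl (n := 1) (by simpa using hn) 1
  obtain ⟨s, hs⟩ : ∃ s, L ≤ p ^ s := ⟨L, (Nat.lt_pow_self hp1).le⟩
  have hcomm : Commute y n := (hc.sub_left (Commute.refl y)).symm
  have hnpow : DivBy M p 1 (n ^ p ^ s) := by
    have h1 := hL _ hs
    have hc' : ∀ g, ∃ r : ℂ, MemLocalRing M r ∧ (n ^ p ^ s).coeff g = (p : ℂ) * r := by
      intro g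
      obtain ⟨s', hs', hs2⟩ := h1 g
      rw [pow_one, Ideal.mem_span_singleton'] at hs'
      obtain ⟨t', rfl⟩ := hs'
      refine ⟨(t' : ℂ), t'.2, ?_⟩
      rw [← hs2]
      push_cast
      ring
    choose r hr hr2 using hc'
    refine ⟨ofFun r, localCoeff_ofFun hr, ?_⟩
    apply ext_coeff
    intro g
    rw [hr2, MonoidAlgebra.coeff_smul, Finsupp.smul_apply, coeff_ofFun, smul_eq_mul, pow_one]
  have hbase : DivBy M p 1 (a ^ p ^ s - y) := by
    have ea : a = y + n := by rw [hndef]; abel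
    have hexp := hcomm.add_pow (p ^ s)
    rw [ea, hexp, Finset.sum_range_succ]
    have htop : y ^ (p ^ s) * n ^ (p ^ s - p ^ s) * (((p ^ s).choose (p ^ s) : ℕ) : MonoidAlgebra ℂ G) = y := by
      rw [Nat.sub_self, pow_zero, mul_one, Nat.choose_self, Nat.cast_one, mul_one, idem_pow hyy (hp0 s)]
    rw [htop, add_sub_cancel_right]
    refine DivBy.sum _ _ fun k hk => ?_
    have hk' := Finset.mem_range.1 hk
    by_cases hk0 : k = 0
    · subst hk0
      simpa using hnpow
    · obtain ⟨c, hc'⟩ := Nat.Prime.dvd_choose_pow hp.out hk0 hk'.ne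
      rw [hc']
      push_cast
      have e : y ^ k * n ^ (p ^ s - k) * (((p : ℕ) : MonoidAlgebra ℂ G) * (c : MonoidAlgebra ℂ G)) =
          ((p : ℕ) : MonoidAlgebra ℂ G) * (y ^ k * n ^ (p ^ s - k) * (c : MonoidAlgebra ℂ G)) := by
        have : ∀ z : MonoidAlgebra ℂ G, z * ((p : ℕ) : MonoidAlgebra ℂ G) = ((p : ℕ) : MonoidAlgebra ℂ G) * z :=
          fun z => (Nat.cast_commute p z).symm.eq
        rw [← mul_assoc, this, mul_assoc, mul_assoc]
      rw [e]
      refine DivBy.natCast_mul (localCoeff_mul (localCoeff_mul (localCoeff_pow hy _) (localCoeff_pow hnl _)) ?_)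
      have : (c : MonoidAlgebra ℂ G) = algebraMap ℂ (MonoidAlgebra ℂ G) (c : ℂ) := by simp
      rw [this, ← mul_one (algebraMap ℂ (MonoidAlgebra ℂ G) (c : ℂ)), ← Algebra.smul_def]
      exact localCoeff_smul (memLocalRing_natCast c) localCoeff_one
  have hstep : ∀ k : ℕ, DivBy M p (k + 1) (a ^ p ^ (s + k) - y) := by
    intro k
    induction k with
    | zero => simpa using hbase
    | succ k ih =>
      have h1 := divBy_pow_step (localCoeff_pow ha (p ^ (s + k))) hy (hc.pow_left _) (by omega) ih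
      rw [idem_pow hyy hp.out.ne_zero, ← pow_mul, ← pow_succ] at h1
      exact h1
  refine ⟨s + l, fun m hm => ?_⟩
  obtain ⟨k, rfl⟩ := Nat.exists_eq_add_of_le hm
  have := hstep (l + k)
  rw [← add_assoc] at this
  exact this.mono (by omega)

theorem tr_divBy {l : ℕ} {x : MonoidAlgebra ℂ G} (hx : DivBy M p l x) {ψ : G → ℂ} (hψ : ∀ g, MemLocalRing M (ψ g)) :
    ∃ r, MemLocalRing M r ∧ tr ψ x = (p : ℂ) ^ l * r := by
  obtain ⟨w, hw, rfl⟩ := hx
  refine ⟨tr ψ w, ?_, tr_smul _ _ _⟩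
  unfold tr
  exact memLocalRing_sum _ _ fun g _ => memLocalRing_mul (hw g) (hψ g)

end Div

section Twist

variable {G : Type*} [Group G] [Fintype G] {M : Ideal AlgInt} [hMp : M.IsPrime] {p : ℕ} [hp : Fact p.Prime]

/-- The centralizer of a cyclic subgroup. -/
abbrev CU (u : G) : Subgroup G := Subgroup.centralizer ((Subgroup.zpowers u : Subgroup G) : Set G)

theorem mem_CU {u g : G} : g ∈ CU u ↔ u * g * u⁻¹ = g := by
  have hCeq : CU u = Subgroup.centralizer ({u} : Set G) := by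
    rw [CU, Subgroup.zpowers_eq_closure, Subgroup.centralizer_closure]
  rw [hCeq, mem_centralizer_singleton]
  constructor
  · intro h1
    rw [← h1]
    group
  · intro h1
    conv_lhs => rw [← h1]
    group

/-- **The rotation lemma for idempotents.** -/
theorem tr_eq_of_congr (hM : IsPModular p M) {u : G} {c : ℕ} (hu : u ^ p ^ c = 1) {z y : MonoidAlgebra ℂ G}
    (hzl : LocalCoeff M z) (hzz : z * z = z) (hzu : ∀ g, z.coeff (u * g * u⁻¹) = z.coeff g)
    (hyl : LocalCoeff M y) (hyy : y * y = y) (hc : Commute (resG (CU u) z) y)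
    (hn : LocalIdealCoeff M (resG (CU u) z - y))
    (χ : G → ℂ) (hχl : ∀ g, MemLocalRing M (χ g)) (hχc : ∀ x g, χ (x * g * x⁻¹) = χ g) :
    tr (fun g => χ (u * g)) z = tr (fun g => χ (u * g)) y := by
  have ha : LocalCoeff M (resG (CU u) z) := localCoeff_resG _ hzl
  rw [← sub_eq_zero]
  apply eq_zero_of_forall_pow_dvd hM
  intro l
  obtain ⟨m₀, hm₀⟩ := exists_pow_congr hM ha hyl hyy hc hn l
  set m := max m₀ l with hm
  have hψ : ∀ g, MemLocalRing M ((fun g => χ (u * g)) g) := fun g => hχl _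
  obtain ⟨r, hr, h1⟩ := exists_tr_twisted_sub (localRing M) hu (CU u) (fun g => mem_CU) z hzl hzu χ hχl hχc m
  obtain ⟨r', hr', h2⟩ := tr_divBy (hm₀ m (le_max_left _ _)) hψ
  rw [idem_pow hzz (pow_pos hp.out.pos m).ne'] at h1
  rw [tr_sub] at h2
  have hlm : l ≤ m := le_max_right _ _
  obtain ⟨k, hk⟩ := Nat.exists_eq_add_of_le hlm
  refine ⟨(p : ℂ) ^ k * r + r', memLocalRing_add (memLocalRing_mul ?_ hr) hr', ?_⟩
  · have := memLocalRing_natCast (M := M) (p ^ k)
    simpa using this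
  · have h3 : ((p ^ m : ℕ) : ℂ) = (p : ℂ) ^ l * (p : ℂ) ^ k := by
      rw [hk]
      push_cast
      rw [pow_add]
    rw [h3] at h1
    rw [mul_add, ← h2, ← mul_assoc, ← h1]
    ring

/-- Twisted traces are traces on the centralizer. -/
theorem tr_comm {u : G} {x y : MonoidAlgebra ℂ G} (hx : x ∈ sA ℂ (CU u)) (hy : y ∈ sA ℂ (CU u)) (χ : G → ℂ)
    (hχc : ∀ x g, χ (x * g * x⁻¹) = χ g) :
    tr (fun g => χ (u * g)) (x * y) = tr (fun g => χ (u * g)) (y * x) := by
  classical
  have key : ∀ (a b : MonoidAlgebra ℂ G) (φ : G → ℂ), tr φ (a * b) = ∑ h, ∑ k, a.coeff h * b.coeff k * φ (h * k) := by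
    intro a b φ
    unfold tr
    simp only [coeff_mul_eq, Finset.sum_mul]
    rw [Finset.sum_comm]
    refine Finset.sum_congr rfl fun h _ => ?_
    rw [← Equiv.sum_comp (Equiv.mulLeft h)]
    refine Finset.sum_congr rfl fun k _ => ?_
    simp
  rw [key, key, Finset.sum_comm]
  refine Finset.sum_congr rfl fun k _ => Finset.sum_congr rfl fun h _ => ?_
  by_cases hh : h ∈ CU u
  · by_cases hk : k ∈ CU u
    · rw [mul_comm (x.coeff h)]
      congr 1
      have h1 : u * k * u⁻¹ = k := mem_CU.1 hk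
      have h2 := hχc k (u * (h * k))
      have h3 : k * u = u * k := by
        calc k * u = (u * k * u⁻¹) * u := by rw [h1]
          _ = u * k := by group
      have e : k * (u * (h * k)) * k⁻¹ = u * (k * h) := by
        calc k * (u * (h * k)) * k⁻¹ = (k * u) * h := by group
          _ = u * (k * h) := by rw [h3, mul_assoc]
      rw [e] at h2
      exact h2.symm
    · rw [hy k hk]
      simp
  · rw [hx h hh]
    simp

/-- The inverse of an element of `sA` in `sA`. -/
theorem inv_mem_sA {C : Subgroup G} {w w' : MonoidAlgebra ℂ G} (hw : w ∈ sA ℂ C) (h1 : w * w' = 1) (h2 : w' * w = 1) :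
    w' ∈ sA ℂ C := by
  classical
  set t := resG C w' with ht
  have hts : t ∈ sA ℂ C := fun g hg => coeff_resG_of_notMem C w' hg
  have htw : t * w = 1 := by
    apply ext_coeff
    intro g
    by_cases hg : g ∈ C
    · rw [← h2, coeff_mul_eq, coeff_mul_eq]
      refine Finset.sum_congr rfl fun h _ => ?_
      by_cases hh : h ∈ C
      · rw [ht, coeff_resG_of_mem C _ hh]
      · have : h⁻¹ * g ∉ C := by
          intro h3
          apply hh
          have := C.mul_mem hg (C.inv_mem h3)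
          simpa using this
        rw [hw _ this, mul_zero, mul_zero]
    · have h3 : t * w ∈ sA ℂ C := (sA ℂ C).mul_mem hts hw
      rw [h3 g hg]
      have h4 : (1 : MonoidAlgebra ℂ G) ∈ sA ℂ C := (sA ℂ C).one_mem
      rw [h4 g hg]
  have : w' = t := by
    calc w' = (t * w) * w' := by rw [htw, one_mul]
      _ = t := by rw [mul_assoc, h1, mul_one]
  rw [this]
  exact hts

/-- Congruent idempotents in the centralizer have equal twisted traces. -/
theorem tr_eq_of_idem_congr (hM : IsPModular p M) {u : G} {y y' : MonoidAlgebra ℂ G} (hy : y ∈ sA ℂ (CU u)) (hy' : y' ∈ sA ℂ (CU u))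
    (hyl : LocalCoeff M y) (hyl' : LocalCoeff M y') (hyy : y * y = y) (hyy' : y' * y' = y')
    (hc : LocalIdealCoeff M (y' - y)) (χ : G → ℂ) (hχc : ∀ x g, χ (x * g * x⁻¹) = χ g) :
    tr (fun g => χ (u * g)) y' = tr (fun g => χ (u * g)) y := by
  set w : MonoidAlgebra ℂ G := y' * y + (1 - y') * (1 - y) with hw
  have hwS : w ∈ sA ℂ (CU u) := (sA ℂ _).add_mem ((sA ℂ _).mul_mem hy' hy)
    ((sA ℂ _).mul_mem (sub_mem (one_mem _) hy') (sub_mem (one_mem _) hy))
  have h1w : LocalIdealCoeff M (1 - w) := by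
    have e : 1 - w = (y' - y) + ((y' - y) * y + (y' - y) * y) * (-1) := by
      rw [hw]
      have : y * y = y := hyy
      noncomm_ring
      rw [hyy]
      abel
    rw [e]
    refine localIdealCoeff_add hc (localIdealCoeff_mul_right (localIdealCoeff_add
      (localIdealCoeff_mul_right hc hyl) (localIdealCoeff_mul_right hc hyl)) ?_)
    exact localCoeff_neg localCoeff_one
  obtain ⟨w', h1, h2⟩ := exists_inv_of_congr_one hM h1w
  have hw'S : w' ∈ sA ℂ (CU u) := inv_mem_sA hwS h1 h2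
  have h3 : y' * w = w * y := by
    have e1 : y' * w = y' * y := by
      rw [hw, mul_add, ← mul_assoc, hyy', ← mul_assoc, mul_sub y', mul_one, hyy', sub_self, zero_mul, add_zero]
    have e2 : w * y = y' * y := by
      rw [hw, add_mul, mul_assoc, hyy, mul_assoc (1 - y'), sub_mul (1 : MonoidAlgebra ℂ G) y y, one_mul, hyy, sub_self, mul_zero, add_zero]
    rw [e1, e2]
  have h4 : y' = w * (y * w') := by
    rw [← mul_assoc, ← h3, mul_assoc, h1, mul_one]
  rw [h4, tr_comm hwS ((sA ℂ _).mul_mem hy hw'S) χ hχc, mul_assoc, h2, mul_one]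

/-- The twisted trace of an idempotent lift. -/
def HasT (M : Ideal AlgInt) [M.IsPrime] (u : G) (χ : G → ℂ) (x : MonoidAlgebra (ResField M) G) (v : ℂ) : Prop :=
  ∃ y : MonoidAlgebra ℂ G, LocalCoeff M y ∧ y * y = y ∧ y ∈ sA ℂ (CU u) ∧ rd M y = x ∧ tr (fun g => χ (u * g)) y = v

theorem HasT.unique (hM : IsPModular p M) {u : G} {χ : G → ℂ} (hχc : ∀ x g, χ (x * g * x⁻¹) = χ g)
    {x : MonoidAlgebra (ResField M) G} {v v' : ℂ} (h : HasT M u χ x v) (h' : HasT M u χ x v') : v = v' := by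
  obtain ⟨y, h1, h2, h3, h4, rfl⟩ := h
  obtain ⟨y', h1', h2', h3', h4', rfl⟩ := h'
  refine tr_eq_of_idem_congr hM h3' h3 h1' h1 h2' h2 ?_ χ hχc
  rw [← rd_eq_iff h1 h1', h4, h4']

theorem hasT_zero (u : G) (χ : G → ℂ) : HasT M u χ 0 0 :=
  ⟨0, localCoeff_zero, by simp, (sA ℂ _).zero_mem, rd_zero, tr_zero _⟩

theorem HasT.add (hM : IsPModular p M) {u : G} {χ : G → ℂ} (hχc : ∀ x g, χ (x * g * x⁻¹) = χ g)
    {x₁ x₂ : MonoidAlgebra (ResField M) G} {v₁ v₂ : ℂ} (h₁ : HasT M u χ x₁ v₁) (h₂ : HasT M u χ x₂ v₂)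
    (h12 : x₁ * x₂ = 0) (h21 : x₂ * x₁ = 0) : HasT M u χ (x₁ + x₂) (v₁ + v₂) := by
  obtain ⟨y₁, a1, a2, a3, a4, rfl⟩ := h₁
  obtain ⟨y₂, b1, b2, b3, b4, rfl⟩ := h₂
  set a : MonoidAlgebra ℂ G := (1 - y₁) * y₂ * (1 - y₁) with ha
  have hd : LocalCoeff M (1 - y₁) := localCoeff_sub localCoeff_one a1
  have hal : LocalCoeff M a := localCoeff_mul (localCoeff_mul hd b1) hd
  have hrda : rd M a = x₂ := by
    rw [ha, rd_mul (localCoeff_mul hd b1) hd, rd_mul hd b1, rd_sub localCoeff_one a1, rd_one, a4, b4, sub_mul, one_mul, h12,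
      sub_zero, mul_sub, mul_one, h21, sub_zero]
  have hxx : x₂ * x₂ = x₂ := by
    rw [← b4, ← rd_mul b1 b1, b2]
  have haa : LocalIdealCoeff M (a * a - a) := by
    rw [← rd_eq_iff (localCoeff_mul hal hal) hal, rd_mul hal hal, hrda, hxx]
  obtain ⟨q, c1, c2, c3⟩ := exists_idem_lift hM hal haa
  set y := a * aeval a q with hy
  have hyS : y ∈ sA ℂ (CU u) := by
    have hd' : (1 - y₁) ∈ sA ℂ (CU u) := sub_mem (one_mem _) a3
    have has : a ∈ sA ℂ (CU u) := (sA ℂ _).mul_mem ((sA ℂ _).mul_mem hd' b3) hd'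
    exact (sA ℂ _).mul_mem has (aeval_mem_sA has q)
  have hrdy : rd M y = x₂ := by
    rw [← hrda]
    exact (rd_eq_iff c2 hal).2 c3
  have hy1a : y₁ * a = 0 := by
    rw [ha, ← mul_assoc, ← mul_assoc, mul_sub y₁, mul_one, a2, sub_self, zero_mul, zero_mul]
  have ha1 : a * y₁ = 0 := by
    rw [ha, mul_assoc, sub_mul (1 : MonoidAlgebra ℂ G) y₁ y₁, one_mul, a2, sub_self, mul_zero]
  have hy1y : y₁ * y = 0 := by
    rw [hy, ← mul_assoc, hy1a, zero_mul]
  have hyy1 : y * y₁ = 0 := by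
    have hcm : Commute a (aeval a q) := (aeval_commute (Commute.refl a) q).symm
    rw [hy, hcm.eq, mul_assoc, ha1, mul_zero]
  have htr : tr (fun g => χ (u * g)) y = tr (fun g => χ (u * g)) y₂ := by
    apply tr_eq_of_idem_congr hM b3 hyS b1 c2 b2 c1 _ χ hχc
    rw [← rd_eq_iff c2 b1, hrdy, b4]
  refine ⟨y₁ + y, localCoeff_add a1 c2, ?_, (sA ℂ _).add_mem a3 hyS, ?_, ?_⟩
  · rw [add_mul, mul_add, mul_add, a2, c1, hy1y, hyy1, add_zero, zero_add]
  · rw [rd_add a1 c2, a4, hrdy]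
  · rw [tr_add, htr]

theorem HasT.sum (hM : IsPModular p M) {u : G} {χ : G → ℂ} (hχc : ∀ x g, χ (x * g * x⁻¹) = χ g) {ι : Type*}
    (s : Finset ι) (x : ι → MonoidAlgebra (ResField M) G) (v : ι → ℂ) (h : ∀ i ∈ s, HasT M u χ (x i) (v i))
    (horth : ∀ i ∈ s, ∀ j ∈ s, i ≠ j → x i * x j = 0) :
    HasT M u χ (∑ i ∈ s, x i) (∑ i ∈ s, v i) := by
  classical
  induction s using Finset.induction_on with
  | empty => simpa using hasT_zero u χ
  | insert a s ha ih =>
    rw [Finset.sum_insert ha, Finset.sum_insert ha]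
    refine (h a (Finset.mem_insert_self _ _)).add hM hχc (ih (fun i hi => h i (Finset.mem_insert_of_mem hi))
      (fun i hi j hj => horth i (Finset.mem_insert_of_mem hi) j (Finset.mem_insert_of_mem hj))) ?_ ?_
    · rw [Finset.mul_sum]
      refine Finset.sum_eq_zero fun j hj => horth a (Finset.mem_insert_self _ _) j (Finset.mem_insert_of_mem hj) ?_
      rintro rfl
      exact ha hj
    · rw [Finset.sum_mul]
      refine Finset.sum_eq_zero fun j hj => horth j (Finset.mem_insert_of_mem hj) a (Finset.mem_insert_self _ _) ?_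
      rintro rfl
      exact ha hj

theorem isPGroup_zpowers {u : G} {c : ℕ} (hu : u ^ p ^ c = 1) : IsPGroup p (Subgroup.zpowers u) := by
  have h1 : orderOf u ∣ p ^ c := orderOf_dvd_of_pow_eq_one hu
  obtain ⟨k, -, hk⟩ := (Nat.dvd_prime_pow hp.out).1 h1
  apply IsPGroup.of_card (n := k)
  rw [Nat.card_zpowers, hk]

/-- **Twisted traces of idempotents only see the Brauer image.** -/
theorem hasT_of_idem (hM : IsPModular p M) {u : G} {c : ℕ} (hu : u ^ p ^ c = 1) {z : MonoidAlgebra ℂ G}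
    (hzl : LocalCoeff M z) (hzz : z * z = z) (hzu : IsInvBy (Subgroup.zpowers u) z)
    (χ : G → ℂ) (hχl : ∀ g, MemLocalRing M (χ g)) (hχc : ∀ x g, χ (x * g * x⁻¹) = χ g) :
    HasT M u χ (br (Subgroup.zpowers u) (rd M z)) (tr (fun g => χ (u * g)) z) := by
  classical
  have hP := isPGroup_zpowers (p := p) hu
  set a := resG (CU u) z with ha
  have hal : LocalCoeff M a := localCoeff_resG _ hzl
  have has : a ∈ sA ℂ (CU u) := fun g hg => coeff_resG_of_notMem _ z hg
  have haa : LocalIdealCoeff M (a * a - a) := by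
    have h1 := localIdealCoeff_resG_mul_sub hM hP hzu hzu hzl hzl
    rw [hzz] at h1
    have := localIdealCoeff_neg h1
    rwa [neg_sub] at this
  obtain ⟨q, c1, c2, c3⟩ := exists_idem_lift hM hal haa
  set y := a * aeval a q with hy
  refine ⟨y, c2, c1, (sA ℂ _).mul_mem has (aeval_mem_sA has q), ?_, ?_⟩
  · rw [← rd_resG, ← ha]
    exact (rd_eq_iff c2 hal).2 c3
  · symm
    refine tr_eq_of_congr hM hu hzl hzz (fun g => hzu u (Subgroup.mem_zpowers u) g) c2 c1 ?_ ?_ χ hχl hχc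
    · have hcm : Commute a (aeval a q) := (aeval_commute (Commute.refl a) q).symm
      exact (Commute.refl a).mul_right hcm
    · have := localIdealCoeff_neg c3
      rwa [neg_sub] at this

/-- Existence of twisted traces. -/
theorem exists_hasT (hM : IsPModular p M) (u : G) (χ : G → ℂ) {x : MonoidAlgebra (ResField M) G}
    (hx : x ∈ sA (ResField M) (CU u)) (hxx : x * x = x) : ∃ v, HasT M u χ x v := by
  classical
  obtain ⟨a₀, ha₀, hr⟩ := exists_lift x
  set a := resG (CU u) a₀ with ha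
  have has : a ∈ sA ℂ (CU u) := fun g hg => coeff_resG_of_notMem _ a₀ hg
  have hal : LocalCoeff M a := localCoeff_resG _ ha₀
  have hrd : rd M a = x := by
    apply ext_coeff
    intro g
    rw [coeff_rd]
    by_cases hg : g ∈ CU u
    · rw [ha, coeff_resG_of_mem _ _ hg, ← coeff_rd, hr]
    · rw [ha, coeff_resG_of_notMem _ _ hg, hx g hg]
      exact red_zero
  have haa : LocalIdealCoeff M (a * a - a) := by
    rw [← rd_eq_iff (localCoeff_mul hal hal) hal, rd_mul hal hal, hrd, hxx]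
  obtain ⟨q, c1, c2, c3⟩ := exists_idem_lift hM hal haa
  refine ⟨_, a * aeval a q, c2, c1, (sA ℂ _).mul_mem has (aeval_mem_sA has q), ?_, rfl⟩
  rw [← hrd]
  exact (rd_eq_iff c2 hal).2 c3

end Twist

end Cfsg.Agent.Lib.Modular
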