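import Mathlib
import Cfsg.Agent.Lib.Modular.Labels
import Cfsg.Agent.Lib.Modular.TraceLift
import Cfsg.Agent.Lib.BPair.Proj2
import Cfsg.Agent.Lib.Char.Brauer

/-!
# The star construction of Broué and Puig: definitions, the key identity and the inner product formula
-/

set_option autoImplicit false
set_option linter.unusedSectionVars false
set_option linter.unusedSimpArgs false
set_option linter.unusedVariables false
set_option linter.style.haveILetI false
set_option linter.unnecessarySimpa false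

open scoped ComplexConjugate

namespace Cfsg.Agent.Lib.Modular

open Module Cfsg Cfsg.Agent.Lib.Block Cfsg.Agent.Lib.CharExtra Cfsg.Agent.Lib.BPair Cfsg.Agent.Lib.Char

attribute [local instance] Cfsg.Agent.Lib.BPair.subFintype

section Tu

variable {G : Type*} [Group G] [Fintype G] {M : Ideal AlgInt} [hMp : M.IsPrime] {p : ℕ} [hp : Fact p.Prime]

open Classical in
/-- The twisted trace of an idempotent of the residue algebra. -/
noncomputable def Tu (M : Ideal AlgInt) [M.IsPrime] (u : G) (χ : G → ℂ) (x : MonoidAlgebra (ResField M) G) : ℂ :=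
  if h : ∃ v, HasT M u χ x v then h.choose else 0

theorem Tu_eq (hM : IsPModular p M) {u : G} {χ : G → ℂ} (hχc : ∀ x g, χ (x * g * x⁻¹) = χ g)
    {x : MonoidAlgebra (ResField M) G} {v : ℂ} (h : HasT M u χ x v) : Tu M u χ x = v := by
  classical
  have h1 : ∃ v, HasT M u χ x v := ⟨v, h⟩
  unfold Tu
  rw [dif_pos h1]
  exact h1.choose_spec.unique hM hχc h

theorem hasT_Tu (hM : IsPModular p M) (u : G) (χ : G → ℂ) {x : MonoidAlgebra (ResField M) G}
    (hx : x ∈ sA (ResField M) (CU u)) (hxx : x * x = x) : HasT M u χ x (Tu M u χ x) := by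
  classical
  have h1 := exists_hasT hM u χ hx hxx
  unfold Tu
  rw [dif_pos h1]
  exact h1.choose_spec

theorem Tu_zero (hM : IsPModular p M) {u : G} {χ : G → ℂ} (hχc : ∀ x g, χ (x * g * x⁻¹) = χ g) :
    Tu M u χ (0 : MonoidAlgebra (ResField M) G) = 0 :=
  Tu_eq hM hχc (hasT_zero u χ)

theorem Tu_sum (hM : IsPModular p M) {u : G} {χ : G → ℂ} (hχc : ∀ x g, χ (x * g * x⁻¹) = χ g) {ι : Type*}
    (s : Finset ι) (x : ι → MonoidAlgebra (ResField M) G) (hx : ∀ i ∈ s, x i ∈ sA (ResField M) (CU u))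
    (hxx : ∀ i ∈ s, x i * x i = x i) (horth : ∀ i ∈ s, ∀ j ∈ s, i ≠ j → x i * x j = 0) :
    Tu M u χ (∑ i ∈ s, x i) = ∑ i ∈ s, Tu M u χ (x i) :=
  Tu_eq hM hχc (HasT.sum hM hχc s x _ (fun i hi => hasT_Tu hM u χ (hx i hi) (hxx i hi)) horth)

end Tu

section Lab

variable {G : Type*} [Group G] [Fintype G] {p : ℕ} [hp : Fact p.Prime] {M : Ideal AlgInt} [hMp : M.IsPrime]

local notation "Bcj" => Cfsg.Agent.Lib.BPair.cj

theorem cj_mul_sub (x y : G) (Q : Subgroup G) : Bcj x (Bcj y Q) = Bcj (x * y) Q := by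
  ext u
  rw [mem_cj, mem_cj, mem_cj]
  have : y⁻¹ * (x⁻¹ * u * x) * y = (x * y)⁻¹ * u * (x * y) := by group
  rw [this]

theorem conjIdx_mul (x y : G) (a : BrauerPairIdx G) : conjIdx (x * y) a = conjIdx x (conjIdx y a) := by
  obtain ⟨Q, f⟩ := a
  symm
  show (⟨Bcj x (Bcj y Q), conjBlock (Bcj y Q) x (conjBlock Q y f)⟩ : BrauerPairIdx G) = ⟨Bcj (x * y) Q, conjBlock Q (x * y) f⟩
  apply sigma_eq_of (cj_mul_sub x y Q)
  intro ξ''
  constructor
  · rintro ⟨ξ₁, ⟨ξ, hξ, h2⟩, h1⟩
    refine ⟨mapIrr (cEquiv Q (x * y)) ξ, ?_, ?_⟩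
    · rw [conjBlock_eq]
      exact ⟨ξ, hξ, rfl⟩
    · intro c'' c hc
      rw [mapIrr_apply']
      have hc1 : y * (((cEquiv Q (x * y)).symm c : Cen Q) : G) * y⁻¹ ∈ Cen (Bcj y Q) := conj_mem_cen_cj.2 (Subtype.property _)
      rw [h1 ⟨_, hc1⟩ c'' ?_, h2 _ ⟨_, hc1⟩ rfl]
      rw [hc]
      show (c : G) = x * (y * ((x * y)⁻¹ * c * (x * y)) * y⁻¹) * x⁻¹
      group
  · rintro ⟨ξ₃, hξ₃, h⟩
    rw [conjBlock_eq] at hξ₃
    obtain ⟨ξ, hξ, rfl⟩ := hξ₃
    refine ⟨mapIrr (cEquiv Q y) ξ, ?_, ?_⟩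
    · rw [conjBlock_eq]
      exact ⟨ξ, hξ, rfl⟩
    · intro c₁ c'' hc
      have hc3 : (c'' : G) ∈ Cen (Bcj (x * y) Q) := by
        have h3 : (c'' : G) ∈ Cen (Bcj x (Bcj y Q)) := c''.2
        rwa [cj_mul_sub] at h3
      rw [h c'' ⟨_, hc3⟩ rfl, mapIrr_apply', mapIrr_apply']
      refine congrArg (ξ : Cen Q → ℂ) (Subtype.ext ?_)
      show (x * y)⁻¹ * c'' * (x * y) = y⁻¹ * c₁ * y
      rw [hc]
      group

theorem conjIdx_one (a : BrauerPairIdx G) : conjIdx (1 : G) a = a := by
  obtain ⟨Q, f⟩ := a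
  show (⟨Bcj 1 Q, conjBlock Q 1 f⟩ : BrauerPairIdx G) = ⟨Q, f⟩
  have hQ : Bcj (1 : G) Q = Q := by
    ext u
    rw [mem_cj]
    simp
  apply sigma_eq_of hQ
  intro ξ''
  constructor
  · rintro ⟨ξ, hξ, h⟩
    exact ⟨ξ, hξ, fun c'' c hc => h c c'' (by rw [hc]; simp)⟩
  · rintro ⟨ξ, hξ, h⟩
    exact ⟨ξ, hξ, fun c c'' hc => h c'' c (by rw [hc]; simp)⟩

variable (p M) (P : Subgroup G) (e : Set (IrrCharacter (Cen P)))

/-- Brauer pairs below `(P, e)` up to conjugation. -/
abbrev RT : BrauerPairIdx G → BrauerPairIdx G → Prop := Relation.ReflTransGen (NormalSubpairRel p M)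

open Classical in
/-- The label of a pair at an element. -/
noncomputable def Lb (lam : G → ℂ) (a : BrauerPairIdx G) (v : G) : ℂ :=
  if h : ∃ y : G, RT p M (conjIdx y a) ⟨P, e⟩ then lam (h.choose * v * h.choose⁻¹) else 0

/-- Fusion stability. -/
def FStable (lam : G → ℂ) : Prop :=
  ∀ (a : BrauerPairIdx G) (y y' : G), RT p M (conjIdx y a) ⟨P, e⟩ → RT p M (conjIdx y' a) ⟨P, e⟩ →
    ∀ v ∈ a.1, lam (y * v * y⁻¹) = lam (y' * v * y'⁻¹)

variable {p M P e}

theorem Lb_eq {lam : G → ℂ} (hs : FStable p M P e lam) {a : BrauerPairIdx G} {y : G} (h : RT p M (conjIdx y a) ⟨P, e⟩)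
    {v : G} (hv : v ∈ a.1) : Lb p M P e lam a v = lam (y * v * y⁻¹) := by
  classical
  have h1 : ∃ y : G, RT p M (conjIdx y a) ⟨P, e⟩ := ⟨y, h⟩
  unfold Lb
  rw [dif_pos h1]
  exact hs a _ _ h1.choose_spec h v hv

theorem Lb_of_not {lam : G → ℂ} {a : BrauerPairIdx G} (h : ¬ ∃ y : G, RT p M (conjIdx y a) ⟨P, e⟩) (v : G) :
    Lb p M P e lam a v = 0 := by
  classical
  unfold Lb
  rw [dif_neg h]

theorem Lb_conj {lam : G → ℂ} (hs : FStable p M P e lam) (x : G) (a : BrauerPairIdx G) {v : G} (hv : v ∈ a.1) :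
    Lb p M P e lam (conjIdx x a) (x * v * x⁻¹) = Lb p M P e lam a v := by
  classical
  by_cases h : ∃ y : G, RT p M (conjIdx y a) ⟨P, e⟩
  · obtain ⟨y, hy⟩ := h
    have h1 : RT p M (conjIdx (y * x⁻¹) (conjIdx x a)) ⟨P, e⟩ := by
      rw [conjIdx_mul, conjIdx_inv]
      exact hy
    have hv' : x * v * x⁻¹ ∈ (conjIdx x a).1 := conj_mem_cj.2 hv
    rw [Lb_eq hs h1 hv', Lb_eq hs hy hv]
    congr 1
    group
  · rw [Lb_of_not h]
    apply Lb_of_not
    rintro ⟨y, hy⟩
    apply h
    refine ⟨y * x, ?_⟩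
    rw [conjIdx_mul]
    exact hy


end Lab

section Sec

variable {G : Type*} [Group G] [Fintype G] {p : ℕ} [hp : Fact p.Prime] {M : Ideal AlgInt} [hMp : M.IsPrime]

local notation "Bcj" => Cfsg.Agent.Lib.BPair.cj

/-- The value on a section. -/
noncomputable def sv (χ : G → ℂ) (U : Subgroup G) (b : Set (IrrCharacter (Cen U))) (u s : G) : ℂ :=
  tr (fun g => χ (u * g)) (Ee U b * MonoidAlgebra.single s 1)

theorem tr_conjElt (φ : G → ℂ) (x : G) (z : MonoidAlgebra ℂ G) :
    tr φ (conjElt x z) = tr (fun h => φ (x * h * x⁻¹)) z := by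
  unfold tr
  rw [← Equiv.sum_comp (MulAut.conj x).toEquiv]
  refine Finset.sum_congr rfl fun h _ => ?_
  rw [coeff_conjElt]
  simp only [MulEquiv.toEquiv_eq_coe, EquivLike.coe_coe, MulAut.conj_apply]
  congr 2
  group

theorem conjElt_single (x s : G) :
    conjElt x (MonoidAlgebra.single s 1) = MonoidAlgebra.single (x * s * x⁻¹) (1 : ℂ) := by
  unfold conjElt
  simp [MonoidAlgebra.single_mul_single]

theorem sv_conj {χ : G → ℂ} (hχ : ∀ x g, χ (x * g * x⁻¹) = χ g) (x : G) (U : Subgroup G)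
    (b : Set (IrrCharacter (Cen U))) (u s : G) :
    sv χ (Bcj x U) (conjBlock U x b) (x * u * x⁻¹) (x * s * x⁻¹) = sv χ U b u s := by
  unfold sv
  rw [Ee_conj, ← conjElt_single, ← conjElt_mul_distrib, tr_conjElt]
  unfold tr
  refine Finset.sum_congr rfl fun h _ => ?_
  congr 1
  show χ (x * u * x⁻¹ * (x * h * x⁻¹)) = χ (u * h)
  have e : x * u * x⁻¹ * (x * h * x⁻¹) = x * (u * h) * x⁻¹ := by group
  rw [e, hχ]

theorem sum_blocks_conj {β : Type*} [AddCommMonoid β] (x : G) (U : Subgroup G)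
    (F : Set (IrrCharacter (Cen (Bcj x U))) → β) :
    ∑ b' : Blocks M (Cen (Bcj x U)), F b'.1 = ∑ b : Blocks M (Cen U), F (conjBlock U x b.1) := by
  classical
  let φ : Blocks M (Cen U) → Blocks M (Cen (Bcj x U)) := fun b => ⟨conjBlock U x b.1, isPBlock_conjBlock b.2⟩
  have hbij : Function.Bijective φ := by
    constructor
    · intro a b hab
      have h1 : conjBlock U x a.1 = conjBlock U x b.1 := congrArg Subtype.val hab
      rw [conjBlock_eq, conjBlock_eq] at h1
      apply Subtype.ext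
      have h2 := congrArg (mapBlock (cEquiv U x).symm) h1
      rwa [mapBlock_symm_mapBlock, mapBlock_symm_mapBlock] at h2
    · intro b'
      refine ⟨⟨mapBlock (cEquiv U x).symm b'.1, isPBlock_mapBlock _ b'.2⟩, ?_⟩
      apply Subtype.ext
      show conjBlock U x (mapBlock (cEquiv U x).symm b'.1) = b'.1
      rw [conjBlock_eq]
      have := mapBlock_symm_mapBlock (cEquiv U x).symm b'.1
      rwa [MulEquiv.symm_symm] at this
  exact (hbij.sum_comp (fun b' : Blocks M (Cen (Bcj x U)) => F b'.1)).symm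

/-- The section sum. -/
noncomputable def TT (M : Ideal AlgInt) (L : BrauerPairIdx G → G → ℂ) (χ : G → ℂ) (U : Subgroup G) (u s : G) : ℂ :=
  ∑ b : Blocks M (Cen U), L ⟨U, b.1⟩ u * sv χ U b.1 u s

theorem TT_conj {L : BrauerPairIdx G → G → ℂ} {χ : G → ℂ} (hχ : ∀ x g, χ (x * g * x⁻¹) = χ g) (x : G) (U : Subgroup G) {u : G}
    (hLc : ∀ (b : Set (IrrCharacter (Cen U))), L (conjIdx x ⟨U, b⟩) (x * u * x⁻¹) = L ⟨U, b⟩ u) (s : G) :
    TT M L χ (Bcj x U) (x * u * x⁻¹) (x * s * x⁻¹) = TT M L χ U u s := by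
  unfold TT
  rw [sum_blocks_conj (M := M) x U (fun b' => L ⟨Bcj x U, b'⟩ (x * u * x⁻¹) * sv χ (Bcj x U) b' (x * u * x⁻¹) (x * s * x⁻¹))]
  refine Finset.sum_congr rfl fun b _ => ?_
  rw [sv_conj hχ]
  congr 1
  exact hLc b.1

/-- The `p`-part of a group element. -/
noncomputable def pp (p : ℕ) [Fact p.Prime] (g : G) : G := (isPPart_exists (p := p) g).choose

/-- The `p'`-part of a group element. -/
noncomputable def pr (p : ℕ) [Fact p.Prime] (g : G) : G := (pp p g)⁻¹ * g

theorem isPPart_pp (g : G) : IsPPart p g (pp p g) := (isPPart_exists (p := p) g).choose_spec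

theorem pp_mul_pr (g : G) : pp p g * pr p g = g := by
  unfold pr
  group

theorem pp_pow (g : G) : ∃ k, orderOf (pp p g) = p ^ k := by
  obtain ⟨y, -, -, h, -⟩ := isPPart_pp (p := p) g
  exact h

theorem pr_reg (g : G) : ¬ p ∣ orderOf (pr p g) := by
  obtain ⟨y, h1, -, -, h⟩ := isPPart_pp (p := p) g
  have : pr p g = y := by
    unfold pr
    calc (pp p g)⁻¹ * g = (pp p g)⁻¹ * (pp p g * y) := by rw [h1]
      _ = y := by group
  rwa [this]

theorem commute_pp_pr (g : G) : Commute (pp p g) (pr p g) := by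
  obtain ⟨y, h1, h2, -, -⟩ := isPPart_pp (p := p) g
  have : pr p g = y := by
    unfold pr
    calc (pp p g)⁻¹ * g = (pp p g)⁻¹ * (pp p g * y) := by rw [h1]
      _ = y := by group
  rwa [this]

theorem pp_eq {g x y : G} (h : x * y = g) (hc : Commute x y) (hx : ∃ k, orderOf x = p ^ k) (hy : ¬ p ∣ orderOf y) :
    pp p g = x ∧ pr p g = y := by
  have h1 : pp p g = x := IsPPart_eq (isPPart_pp g) ⟨y, h, hc, hx, hy⟩
  refine ⟨h1, ?_⟩
  unfold pr
  rw [h1, ← h]
  group

/-- The star function attached to a labelling. -/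
noncomputable def star (M : Ideal AlgInt) (p : ℕ) [Fact p.Prime] (L : BrauerPairIdx G → G → ℂ) (χ : G → ℂ) (g : G) : ℂ :=
  TT M L χ (Subgroup.zpowers (pp p g)) (pp p g) (pr p g)

theorem star_mul {L : BrauerPairIdx G → G → ℂ} {χ : G → ℂ} {u s : G} (hc : Commute u s) (hu : ∃ k, orderOf u = p ^ k)
    (hs : ¬ p ∣ orderOf s) : star M p L χ (u * s) = TT M L χ (Subgroup.zpowers u) u s := by
  obtain ⟨h1, h2⟩ := pp_eq (p := p) rfl hc hu hs
  unfold star
  rw [h1, h2]

theorem zpowers_conj (x u : G) : Subgroup.zpowers (x * u * x⁻¹) = Bcj x (Subgroup.zpowers u) := by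
  show Subgroup.zpowers (x * u * x⁻¹) = Subgroup.map (MulAut.conj x).toMonoidHom (Subgroup.zpowers u)
  rw [MonoidHom.map_zpowers]
  rfl

theorem star_isClass {L : BrauerPairIdx G → G → ℂ} {χ : G → ℂ} (hχ : ∀ x g, χ (x * g * x⁻¹) = χ g)
    (hLc : ∀ (x : G) (a : BrauerPairIdx G) (v : G), v ∈ a.1 → L (conjIdx x a) (x * v * x⁻¹) = L a v) :
    IsClassFunction G (star M p L χ) := by
  intro g x
  have h1 : x * g * x⁻¹ = (x * pp p g * x⁻¹) * (x * pr p g * x⁻¹) := by
    conv_lhs => rw [← pp_mul_pr (p := p) g]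
    group
  have hc : Commute (x * pp p g * x⁻¹) (x * pr p g * x⁻¹) := by
    show (x * pp p g * x⁻¹) * (x * pr p g * x⁻¹) = (x * pr p g * x⁻¹) * (x * pp p g * x⁻¹)
    have := (commute_pp_pr (p := p) g).eq
    calc (x * pp p g * x⁻¹) * (x * pr p g * x⁻¹) = x * (pp p g * pr p g) * x⁻¹ := by group
      _ = x * (pr p g * pp p g) * x⁻¹ := by rw [this]
      _ = _ := by group
  have ho1 : ∃ k, orderOf (x * pp p g * x⁻¹) = p ^ k := by
    rw [orderOf_conj]
    exact pp_pow g
  have ho2 : ¬ p ∣ orderOf (x * pr p g * x⁻¹) := by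
    rw [orderOf_conj]
    exact pr_reg g
  rw [h1, star_mul hc ho1 ho2, zpowers_conj]
  rw [TT_conj hχ x (Subgroup.zpowers (pp p g)) (u := pp p g) (fun b => hLc x ⟨_, b⟩ _ (Subgroup.mem_zpowers _)) (pr p g)]
  rfl

/-- The subsection function. -/
noncomputable def sec (p : ℕ) (U : Subgroup G) (b : Set (IrrCharacter (Cen U))) (u : G) (ψ : G → ℂ) : Cen U → ℂ :=
  blockProj p b (fun c : Cen U => ψ (u * c))

theorem isClass_shift {U : Subgroup G} {u : G} (hu : u ∈ U) {ψ : G → ℂ} (hψ : IsClassFunction G ψ) :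
    IsClassFunction (Cen U) (fun c : Cen U => ψ (u * c)) := by
  intro c k
  have hk : (k : G) * u = u * k := (Subgroup.mem_centralizer_iff.1 k.2 u hu).symm
  have h1 : u * ((k * c * k⁻¹ : Cen U) : G) = (k : G) * (u * c) * (k : G)⁻¹ := by
    push_cast
    calc u * ((k : G) * c * (k : G)⁻¹) = (u * k) * c * (k : G)⁻¹ := by group
      _ = (k : G) * u * c * (k : G)⁻¹ := by rw [hk]
      _ = _ := by group
  show ψ _ = ψ _
  rw [h1, hψ]

theorem tr_incl (H : Subgroup G) (φ : G → ℂ) (z : MonoidAlgebra ℂ H) :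
    tr φ (incl H z) = tr (fun h : H => φ h) z := by
  unfold tr
  rw [sum_eq_sum_subgroup H _ (fun k hk => by rw [coeff_incl_of_notMem _ _ hk, zero_mul])]
  refine Finset.sum_congr rfl fun h _ => ?_
  rw [coeff_incl_coe]

theorem sv_eq_blockPart {U : Subgroup G} {u : G} (hu : u ∈ U) {ψ : G → ℂ} (hψ : IsClassFunction G ψ)
    (b : Set (IrrCharacter (Cen U))) (s : Cen U) :
    sv ψ U b u s = blockPart b (fun c : Cen U => ψ (u * c)) s := by
  rw [blockPart_eq_tr b _ (isClass_shift hu hψ)]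
  unfold sv Ee
  rw [← incl_single, ← map_mul, tr_incl]

theorem sec_of_reg {U : Subgroup G} {u : G} (hu : u ∈ U) {ψ : G → ℂ} (hψ : IsClassFunction G ψ)
    (b : Set (IrrCharacter (Cen U))) {s : Cen U} (hs : ¬ p ∣ orderOf s) :
    sec p U b u ψ s = sv ψ U b u s := by
  unfold sec
  rw [blockProj_eq, pRegularPart_eq_of_regular _ hs, sv_eq_blockPart hu hψ]

theorem sec_of_sing (U : Subgroup G) (u : G) (ψ : G → ℂ)
    (b : Set (IrrCharacter (Cen U))) {s : Cen U} (hs : p ∣ orderOf s) :
    sec p U b u ψ s = 0 := by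
  unfold sec
  rw [blockProj_eq, pRegularPart_eq_zero_of_dvd _ hs]

theorem sec_mem (hM : IsPModular p M) {U : Subgroup G} {b : Set (IrrCharacter (Cen U))} (hb : IsPBlock M b) (u : G)
    (ψ : G → ℂ) : sec p U b u ψ ∈ regSpan p b :=
  (isProj_blockProj hM hb).1 _

section OneGroup

variable {C : Type*} [Group C] [Fintype C]

theorem disjoint_blocks {b b' : Set (IrrCharacter C)} (hb : IsPBlock M b) (hb' : IsPBlock M b') (hne : b ≠ b')
    {ξ : IrrCharacter C} (hξ : ξ ∈ b) : ξ ∉ b' := by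
  intro h
  exact hne ((blockOf_eq_of_mem hb hξ).trans (blockOf_eq_of_mem hb' h).symm)

theorem blockProj_of_regSpan_ne (hM : IsPModular p M) {b b' : Set (IrrCharacter C)} (hb : IsPBlock M b) (hb' : IsPBlock M b')
    (hne : b ≠ b') {w : C → ℂ} (hw : w ∈ regSpan p b') : blockProj p b w = 0 := by
  classical
  rw [blockProj_apply]
  refine Finset.sum_eq_zero fun ξ _ => ?_
  split_ifs with hξ
  · rw [classInner_regSpan_of_notMem hM hb' hw (disjoint_blocks hb hb' hne hξ), zero_smul]
  · rfl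

theorem classInner_regSpan_orth (hM : IsPModular p M) {b b' : Set (IrrCharacter C)} (hb : IsPBlock M b) (hb' : IsPBlock M b')
    (hne : b ≠ b') {w w' : C → ℂ} (hw : w ∈ regSpan p b) (hw' : w' ∈ regSpan p b') : classInner w w' = 0 := by
  induction hw' using Submodule.span_induction with
  | mem f hf =>
    obtain ⟨χ, hχ, rfl⟩ := hf
    show classInner w (pRegularPart p (χ : C → ℂ)) = 0
    rw [classInner_reg_left (fun y hy => regSpan_vanish hw hy)]
    exact classInner_regSpan_of_notMem hM hb hw (disjoint_blocks hb' hb hne.symm hχ)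
  | zero => simp [classInner_def]
  | add x y _ _ hx hy => rw [classInner_add_right, hx, hy, add_zero]
  | smul a x _ hx => rw [classInner_smul_right, hx, mul_zero]

/-- The parts of a class function in the blocks add up to the function. -/
theorem sum_blockPart {f : C → ℂ} (hf : IsClassFunction C f) (x : C) : ∑ b : Blocks M C, blockPart b.1 f x = f x := by
  classical
  simp only [blockPart_eq_tr _ f hf]
  rw [← tr_sum, ← Finset.sum_mul, sum_blockElt_eq_one, one_mul, tr_single, one_mul]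

theorem sum_blockProj {f : C → ℂ} (hf : IsClassFunction C f) : ∑ b : Blocks M C, blockProj p b.1 f = pRegularPart p f := by
  classical
  funext x
  rw [Finset.sum_apply]
  by_cases hx : p ∣ orderOf x
  · rw [pRegularPart_eq_zero_of_dvd _ hx]
    refine Finset.sum_eq_zero fun b _ => ?_
    rw [blockProj_eq, pRegularPart_eq_zero_of_dvd _ hx]
  · rw [pRegularPart_eq_of_regular _ hx, ← sum_blockPart (M := M) hf x]
    refine Finset.sum_congr rfl fun b _ => ?_
    rw [blockProj_eq, pRegularPart_eq_of_regular _ hx]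

/-- The regular inner product in terms of blocks. -/
theorem classInner_reg_eq_sum (hM : IsPModular p M) {f f' : C → ℂ} (hf : IsClassFunction C f) (hf' : IsClassFunction C f') :
    classInner (pRegularPart p f) (pRegularPart p f') =
      ∑ b : Blocks M C, classInner (blockProj p b.1 f) (blockProj p b.1 f') := by
  classical
  rw [← sum_blockProj (M := M) hf, ← sum_blockProj (M := M) hf', classInner_sum_left]
  refine Finset.sum_congr rfl fun b _ => ?_
  rw [classInner_sum_right, Finset.sum_eq_single b]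
  · intro b' _ hne
    refine classInner_regSpan_orth hM b.2 b'.2 (fun h => hne (Subtype.ext h.symm)) ?_ ?_
    · exact (isProj_blockProj hM b.2).1 _
    · exact (isProj_blockProj hM b'.2).1 _
  · intro h
    exact absurd (Finset.mem_univ _) h

end OneGroup

/-- **The key identity.** -/
theorem sec_star (hM : IsPModular p M) {L : BrauerPairIdx G → G → ℂ} {χ : G → ℂ} (hχ : IsClassFunction G χ)
    (hLc : ∀ (x : G) (a : BrauerPairIdx G) (v : G), v ∈ a.1 → L (conjIdx x a) (x * v * x⁻¹) = L a v)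
    {u : G} (hu : ∃ k, orderOf u = p ^ k) {b : Set (IrrCharacter (Cen (Subgroup.zpowers u)))} (hb : IsPBlock M b) :
    sec p (Subgroup.zpowers u) b u (star M p L χ) = L ⟨Subgroup.zpowers u, b⟩ u • sec p (Subgroup.zpowers u) b u χ := by
  classical
  haveI := isPModular_isPrime hM
  have hχc : ∀ x g, χ (x * g * x⁻¹) = χ g := fun x g => hχ g x
  have huU : u ∈ Subgroup.zpowers u := Subgroup.mem_zpowers u
  set W : Cen (Subgroup.zpowers u) → ℂ := ∑ b' : Blocks M (Cen (Subgroup.zpowers u)), L ⟨Subgroup.zpowers u, b'.1⟩ u • sec p (Subgroup.zpowers u) b'.1 u χ with hW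
  have hWmem : ∀ b' : Blocks M (Cen (Subgroup.zpowers u)), IsClassFunction (Cen (Subgroup.zpowers u)) (sec p (Subgroup.zpowers u) b'.1 u χ) := fun b' =>
    regSpan_isClassFunction (sec_mem hM b'.2 u χ)
  have hWc : IsClassFunction (Cen (Subgroup.zpowers u)) W := by
    intro g h
    rw [hW]
    simp only [Finset.sum_apply, Pi.smul_apply]
    refine Finset.sum_congr rfl fun b' _ => ?_
    rw [hWmem b' g h]
  have hstarc : IsClassFunction G (star M p L χ) := star_isClass hχc hLc
  have h1 : blockProj p b ((fun c : Cen (Subgroup.zpowers u) => star M p L χ (u * c)) - W) = 0 := by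
    refine blockProj_eq_zero_of_reg hM (isBlockUnion_of_isPBlock hb) ?_ ?_
    · intro g h
      simp only [Pi.sub_apply]
      have h3 := isClass_shift huU hstarc g h
      simp only at h3
      rw [hWc g h, h3]
    · intro y hy
      simp only [Pi.sub_apply]
      have hcomm : Commute u (y : G) := (Subgroup.mem_centralizer_iff.1 y.2 u huU)
      rw [star_mul hcomm hu (by rwa [Subgroup.orderOf_coe]), hW, Finset.sum_apply]
      unfold TT
      rw [sub_eq_zero]
      refine Finset.sum_congr rfl fun b' _ => ?_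
      rw [Pi.smul_apply, sec_of_reg huU hχ _ hy, smul_eq_mul]
  rw [map_sub, sub_eq_zero] at h1
  have h2 : sec p (Subgroup.zpowers u) b u (star M p L χ) = blockProj p b W := h1
  rw [h2, hW, map_sum, Finset.sum_eq_single (⟨b, hb⟩ : Blocks M (Cen (Subgroup.zpowers u)))]
  · rw [map_smul]
    congr 1
    exact (isProj_blockProj hM hb).2 _ ((isProj_blockProj hM hb).1 _)
  · intro b' _ hne
    rw [map_smul, blockProj_of_regSpan_ne hM hb b'.2 (fun h => hne (Subtype.ext h.symm)) (sec_mem hM b'.2 u χ), smul_zero]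
  · intro h
    exact absurd (Finset.mem_univ _) h

open Classical in
/-- **The inner product formula.** -/
theorem inner_formula (hM : IsPModular p M) {f f' : G → ℂ} (hf : IsClassFunction G f) (hf' : IsClassFunction G f') :
    classInner f f' = ∑ u ∈ Finset.univ.filter (fun u : G => ∃ k, orderOf u = p ^ k),
      ((Nat.card (Cen (Subgroup.zpowers u)) : ℂ) / (Nat.card G : ℂ)) *
        ∑ b : Blocks M (Cen (Subgroup.zpowers u)),
          classInner (sec p (Subgroup.zpowers u) b.1 u f) (sec p (Subgroup.zpowers u) b.1 u f') := by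
  classical
  have hG : (Nat.card G : ℂ) ≠ 0 := by exact_mod_cast Nat.card_pos.ne'
  have hfib : ∀ g : G, pp p g ∈ Finset.univ.filter (fun u : G => ∃ k, orderOf u = p ^ k) := fun g =>
    Finset.mem_filter.2 ⟨Finset.mem_univ _, pp_pow g⟩
  rw [classInner_def, ← Finset.sum_fiberwise_of_maps_to (fun g _ => hfib g), Finset.mul_sum]
  refine Finset.sum_congr rfl fun u hu => ?_
  have hup : ∃ k, orderOf u = p ^ k := (Finset.mem_filter.1 hu).2
  set U := Subgroup.zpowers u with hU
  have huU : u ∈ U := Subgroup.mem_zpowers u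
  have hC : (Nat.card (Cen U) : ℂ) ≠ 0 := by exact_mod_cast Nat.card_pos.ne'
  have key : ∑ b : Blocks M (Cen U), classInner (sec p U b.1 u f) (sec p U b.1 u f') =
      classInner (pRegularPart p (fun c : Cen U => f (u * c))) (pRegularPart p (fun c : Cen U => f' (u * c))) :=
    (classInner_reg_eq_sum hM (isClass_shift huU hf) (isClass_shift huU hf')).symm
  rw [key, classInner_def]
  have hsum : ∑ g ∈ Finset.univ.filter (fun g : G => pp p g = u), f g * conj (f' g) =
      ∑ c : Cen U, pRegularPart p (fun c : Cen U => f (u * c)) c * conj (pRegularPart p (fun c : Cen U => f' (u * c)) c) := by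
    have h0 : ∀ c : Cen U, p ∣ orderOf c →
        pRegularPart p (fun c : Cen U => f (u * c)) c * conj (pRegularPart p (fun c : Cen U => f' (u * c)) c) = 0 := by
      intro c hc
      rw [pRegularPart_eq_zero_of_dvd _ hc, zero_mul]
    have h2 : ∑ c : Cen U, pRegularPart p (fun c : Cen U => f (u * c)) c * conj (pRegularPart p (fun c : Cen U => f' (u * c)) c) =
        ∑ c ∈ Finset.univ.filter (fun c : Cen U => ¬ p ∣ orderOf c), f (u * c) * conj (f' (u * c)) := by
      rw [Finset.sum_filter]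
      refine Finset.sum_congr rfl fun c _ => ?_
      by_cases hc : p ∣ orderOf c
      · rw [if_neg (not_not.2 hc)]
        exact h0 c hc
      · rw [if_pos hc, pRegularPart_eq_of_regular _ hc, pRegularPart_eq_of_regular _ hc]
    rw [h2]
    refine Finset.sum_bij' (fun g hg => (⟨pr p g, ?_⟩ : Cen U)) (fun c _ => u * c) ?_ ?_ ?_ ?_ ?_
    · have h3 := (Finset.mem_filter.1 hg).2
      rw [Subgroup.mem_centralizer_iff]
      intro v hv
      obtain ⟨n, rfl⟩ := Subgroup.mem_zpowers_iff.1 hv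
      have h4 : Commute u (pr p g) := by
        rw [← h3]
        exact commute_pp_pr g
      exact (h4.zpow_left n).eq
    · intro g hg
      simp only [Finset.mem_filter, Finset.mem_univ, true_and]
      rw [Subgroup.orderOf_mk]
      exact pr_reg g
    · intro c hc
      simp only [Finset.mem_filter, Finset.mem_univ, true_and] at hc ⊢
      exact (pp_eq rfl (Subgroup.mem_centralizer_iff.1 c.2 u huU) hup (by rwa [Subgroup.orderOf_coe])).1
    · intro g hg
      have h3 := (Finset.mem_filter.1 hg).2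
      show u * pr p g = g
      rw [← h3]
      exact pp_mul_pr g
    · intro c hc
      simp only [Finset.mem_filter, Finset.mem_univ, true_and] at hc
      apply Subtype.ext
      exact (pp_eq rfl (Subgroup.mem_centralizer_iff.1 c.2 u huU) hup (by rwa [Subgroup.orderOf_coe])).2
    · intro g hg
      have h3 := (Finset.mem_filter.1 hg).2
      have h4 : u * pr p g = g := by
        rw [← h3]
        exact pp_mul_pr g
      show f g * conj (f' g) = f (u * pr p g) * conj (f' (u * pr p g))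
      rw [h4]
  rw [hsum]
  field_simp

end Sec

end Cfsg.Agent.Lib.Modular
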