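import Mathlib
import Cfsg.Agent.Lib.Modular.StarDef

/-!
# The star construction: characters of `p`-subgroups attached to idempotents
-/

set_option autoImplicit false
set_option linter.unusedSectionVars false
set_option linter.unusedSimpArgs false
set_option linter.unusedVariables false
set_option linter.style.haveILetI false
set_option linter.unnecessarySimpa false

open scoped ComplexConjugate

namespace Cfsg.Agent.Lib.Modular

open Module Cfsg Cfsg.Agent.Lib.Block Cfsg.Agent.Lib.CharExtra Cfsg.Agent.Lib.BPair Cfsg.Agent.Lib.Char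

attribute [local instance] Cfsg.Agent.Lib.BPair.subFintype

section SubRep

variable {G : Type*} [Group G] [Fintype G] {H : Type*} [Group H]

/-- The twisted trace of an idempotent commuting with a subgroup is a character of the subgroup. -/
theorem isCharacter_tr_idem {χ : G → ℂ} (hχ : IsCharacter G χ) (φ : H →* G) {z : MonoidAlgebra ℂ G} (hzz : z * z = z)
    (hc : ∀ h, MonoidAlgebra.single (φ h) (1 : ℂ) * z = z * MonoidAlgebra.single (φ h) (1 : ℂ)) :
    IsCharacter H (fun h => tr (fun g => χ (φ h * g)) z) := by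
  classical
  obtain ⟨n, ρ, rfl⟩ := hχ
  set π : Module.End ℂ (Fin n → ℂ) := ρ.asAlgebraHom z with hπ
  have hππ : π * π = π := by
    rw [hπ, ← map_mul, hzz]
  have hcomm : ∀ h, ρ (φ h) * π = π * ρ (φ h) := by
    intro h
    have := congrArg ρ.asAlgebraHom (hc h)
    rw [map_mul, map_mul, Representation.asAlgebraHom_single, one_smul] at this
    exact this
  set W := LinearMap.range π with hW
  let ι : W →ₗ[ℂ] (Fin n → ℂ) := W.subtype
  let r : (Fin n → ℂ) →ₗ[ℂ] W := π.rangeRestrict
  have hιr : ι ∘ₗ r = π := by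
    ext v
    rfl
  have hπι : π ∘ₗ ι = ι := by
    ext v : 1
    obtain ⟨w, hw⟩ := v.2
    show π (v : Fin n → ℂ) = v
    rw [← hw]
    exact LinearMap.congr_fun hππ w
  have hrι : r ∘ₗ ι = LinearMap.id := by
    ext v : 1
    apply Subtype.ext
    show π (v : Fin n → ℂ) = v
    exact LinearMap.congr_fun hπι v
  let σ : Representation ℂ H W :=
    { toFun := fun h => r ∘ₗ ρ (φ h) ∘ₗ ι
      map_one' := by
        rw [map_one, map_one]
        exact hrι
      map_mul' := by
        intro a b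
        rw [map_mul, map_mul]
        show r ∘ₗ (ρ (φ a) * ρ (φ b)) ∘ₗ ι = (r ∘ₗ ρ (φ a) ∘ₗ ι) ∘ₗ r ∘ₗ ρ (φ b) ∘ₗ ι
        have e1 : ι ∘ₗ r ∘ₗ ρ (φ b) ∘ₗ ι = ρ (φ b) ∘ₗ ι := by
          rw [← LinearMap.comp_assoc, hιr]
          have h1 := hcomm b
          have h2 : π ∘ₗ ρ (φ b) = ρ (φ b) ∘ₗ π := h1.symm
          rw [← LinearMap.comp_assoc, h2, LinearMap.comp_assoc, hπι]
        calc r ∘ₗ (ρ (φ a) * ρ (φ b)) ∘ₗ ι = r ∘ₗ ρ (φ a) ∘ₗ (ρ (φ b) ∘ₗ ι) := rfl
          _ = r ∘ₗ ρ (φ a) ∘ₗ (ι ∘ₗ r ∘ₗ ρ (φ b) ∘ₗ ι) := by rw [e1]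
          _ = _ := rfl }
  have hchar : σ.character = fun h => tr (fun g => ρ.character (φ h * g)) z := by
    funext h
    show LinearMap.trace ℂ W (r ∘ₗ (ρ (φ h) ∘ₗ ι)) = _
    rw [LinearMap.trace_comp_comm', LinearMap.comp_assoc, hιr]
    have hπsum : π = ∑ g, z.coeff g • ρ g := by
      rw [hπ]
      conv_lhs => rw [eq_sum_single z]
      rw [map_sum]
      refine Finset.sum_congr rfl fun g _ => ?_
      rw [Representation.asAlgebraHom_single]
    rw [hπsum]
    unfold tr
    show LinearMap.trace ℂ _ (ρ (φ h) * ∑ g, z.coeff g • ρ g) = _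
    rw [Finset.mul_sum, map_sum]
    refine Finset.sum_congr rfl fun g _ => ?_
    rw [mul_smul_comm, map_smul, smul_eq_mul]
    congr 1
    show LinearMap.trace ℂ _ (ρ (φ h) * ρ g) = LinearMap.trace ℂ _ (ρ (φ h * g))
    rw [map_mul ρ]
  rw [← hchar]
  exact isCharacter_character σ

end SubRep

section Val

variable {G : Type*} [Group G] [Fintype G] {p : ℕ} [hp : Fact p.Prime] {M : Ideal AlgInt} [hMp : M.IsPrime]

local notation "Bcj" => Cfsg.Agent.Lib.BPair.cj
local notation "ZP" => Subgroup.zpowers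

/-- The value of the labelled twisted trace. -/
noncomputable def Val (p : ℕ) (M : Ideal AlgInt) [M.IsPrime] (L : BrauerPairIdx G → G → ℂ) (χ : G → ℂ)
    (a : MonoidAlgebra (ResField M) G) (u : G) : ℂ :=
  ∑ b : Blocks M (Cen (ZP u)), L ⟨ZP u, b.1⟩ u * Tu M u χ (ebar M (ZP u) b.1 * br (ZP u) a)

theorem piece_mem (u : G) (b : Set (IrrCharacter (Cen (ZP u)))) (a : MonoidAlgebra (ResField M) G) :
    ebar M (ZP u) b * br (ZP u) a ∈ sA (ResField M) (CU u) :=
  (sA (ResField M) (CU u)).mul_mem (ebar_mem_sA _ _) (br_mem_sA _ _)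

theorem piece_mul {u : G} {b b' : Set (IrrCharacter (Cen (ZP u)))} (a a' : MonoidAlgebra (ResField M) G) :
    (ebar M (ZP u) b * br (ZP u) a) * (ebar M (ZP u) b' * br (ZP u) a') =
      (ebar M (ZP u) b * ebar M (ZP u) b') * (br (ZP u) a * br (ZP u) a') := by
  rw [mul_assoc, ← mul_assoc (br (ZP u) a), ebar_comm _ _ (br_mem_sA _ _), mul_assoc, ← mul_assoc]

theorem Val_zero (hM : IsPModular p M) {L : BrauerPairIdx G → G → ℂ} {χ : G → ℂ} (hχc : ∀ x g, χ (x * g * x⁻¹) = χ g) (u : G) :
    Val p M L χ 0 u = 0 := by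
  unfold Val
  refine Finset.sum_eq_zero fun b _ => ?_
  rw [map_zero, mul_zero, Tu_zero hM hχc, mul_zero]

/-- Additivity on orthogonal idempotents fixed by the cyclic group. -/
theorem Val_sum (hM : IsPModular p M) {L : BrauerPairIdx G → G → ℂ} {χ : G → ℂ} (hχc : ∀ x g, χ (x * g * x⁻¹) = χ g) {u : G}
    (hU : IsPGroup p (ZP u)) {ι : Type*} (s : Finset ι) (a : ι → MonoidAlgebra (ResField M) G)
    (ha : ∀ i ∈ s, a i ∈ fx (ResField M) (ZP u)) (haa : ∀ i ∈ s, a i * a i = a i)
    (horth : ∀ i ∈ s, ∀ j ∈ s, i ≠ j → a i * a j = 0) {j : MonoidAlgebra (ResField M) G}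
    (hj : br (ZP u) j = ∑ i ∈ s, br (ZP u) (a i)) :
    Val p M L χ j u = ∑ i ∈ s, Val p M L χ (a i) u := by
  classical
  haveI : CharP (ResField M) p := charP_resField hM
  unfold Val
  rw [Finset.sum_comm]
  refine Finset.sum_congr rfl fun b _ => ?_
  rw [← Finset.mul_sum, hj, Finset.mul_sum, Tu_sum hM hχc s _ (fun i _ => piece_mem u b.1 _)]
  · intro i hi
    rw [piece_mul, ebar_idem b.2, ← br_mul hU (ha i hi) (ha i hi), haa i hi]
  · intro i hi i' hi' hne
    rw [piece_mul, ← br_mul hU (ha i hi) (ha i' hi'), horth i hi i' hi' hne, map_zero, mul_zero]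

/-- When all labels agree. -/
theorem Val_of_label (hM : IsPModular p M) {L : BrauerPairIdx G → G → ℂ} {χ : G → ℂ} (hχc : ∀ x g, χ (x * g * x⁻¹) = χ g) {u : G}
    (hU : IsPGroup p (ZP u)) {a : MonoidAlgebra (ResField M) G} (ha : a ∈ fx (ResField M) (ZP u)) (haa : a * a = a)
    {c : ℂ} (hlab : ∀ b : Blocks M (Cen (ZP u)), br (ZP u) a * ebar M (ZP u) b.1 ≠ 0 → L ⟨ZP u, b.1⟩ u = c) :
    Val p M L χ a u = c * Tu M u χ (br (ZP u) a) := by
  classical
  haveI : CharP (ResField M) p := charP_resField hM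
  have hbaa : br (ZP u) a * br (ZP u) a = br (ZP u) a := by rw [← br_mul hU ha ha, haa]
  have e1 : br (ZP u) a = ∑ b : Blocks M (Cen (ZP u)), ebar M (ZP u) b.1 * br (ZP u) a := by
    rw [← Finset.sum_mul, sum_ebar, one_mul]
  have e2 : Tu M u χ (br (ZP u) a) = ∑ b : Blocks M (Cen (ZP u)), Tu M u χ (ebar M (ZP u) b.1 * br (ZP u) a) := by
    conv_lhs => rw [e1]
    refine Tu_sum hM hχc _ _ (fun i _ => piece_mem u i.1 _) ?_ ?_
    · intro i _
      rw [piece_mul, ebar_idem i.2, hbaa]
    · intro i _ i' _ hne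
      rw [piece_mul, ebar_orth i.2 i'.2 (fun h => hne (Subtype.ext h)), zero_mul]
  rw [e2, Finset.mul_sum]
  unfold Val
  refine Finset.sum_congr rfl fun b _ => ?_
  by_cases h0 : br (ZP u) a * ebar M (ZP u) b.1 = 0
  · have h1 : ebar M (ZP u) b.1 * br (ZP u) a = 0 := by
      rw [← ebar_comm _ _ (br_mem_sA _ _)]
      exact h0
    rw [h1, Tu_zero hM hχc, mul_zero, mul_zero]
  · rw [hlab b h0]

end Val

section Point

variable {G : Type*} [Group G] [Fintype G] {p : ℕ} [hp : Fact p.Prime] {M : Ideal AlgInt} [hMp : M.IsPrime]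

local notation "Bcj" => Cfsg.Agent.Lib.BPair.cj
local notation "ZP" => Subgroup.zpowers

variable {P : Subgroup G} {e : Set (IrrCharacter (Cen P))} {lam : G → ℂ}

theorem pow_of_mem_pgroup {S : Subgroup G} (hS : IsPGroup p S) {u : G} (hu : u ∈ S) : ∃ c, u ^ p ^ c = 1 := by
  obtain ⟨k, hk⟩ := hS ⟨u, hu⟩
  exact ⟨k, by simpa using congrArg Subtype.val hk⟩

/-- The value of a local idempotent at a point of its stabilizer. -/
theorem val_point (hM : IsPModular p M) (hs : FStable p M P e lam) {χ : G → ℂ} (hχl : ∀ g, MemLocalRing M (χ g))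
    (hχc : ∀ x g, χ (x * g * x⁻¹) = χ g) {S : Subgroup G} (hSp : IsPGroup p S) {a : MonoidAlgebra (ResField M) G}
    (haa : a * a = a) (haS : a ∈ fx (ResField M) S) (hal : IsLoc (fx (ResField M) S) a)
    {f : Set (IrrCharacter (Cen S))} (hf : IsPBlock M f) (hne : br S a * ebar M S f ≠ 0) {y : G}
    (hy : RT p M (conjIdx y ⟨S, f⟩) ⟨P, e⟩) {â : MonoidAlgebra ℂ G} (hâl : LocalCoeff M â) (hââ : â * â = â)
    (hrd : rd M â = a) (hinv : IsInvBy S â) {u : G} (huS : u ∈ S) :
    Val p M (Lb p M P e lam) χ a u = lam (y * u * y⁻¹) * tr (fun g => χ (u * g)) â := by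
  classical
  haveI : CharP (ResField M) p := charP_resField hM
  obtain ⟨c, hc⟩ := pow_of_mem_pgroup hSp huS
  have hUS : ZP u ≤ S := by
    rw [Subgroup.zpowers_le]
    exact huS
  have hU : IsPGroup p (ZP u) := hSp.to_le hUS
  have haU : a ∈ fx (ResField M) (ZP u) := fx_mono hUS haS
  have hT := hasT_of_idem hM hc hâl hââ (fun v hv g => hinv v (hUS hv) g) χ hχl hχc
  rw [hrd] at hT
  rw [Val_of_label hM hχc hU haU haa (c := lam (y * u * y⁻¹)), Tu_eq hM hχc hT]
  intro b hb
  have hle : SubpairLE p M (ZP u) b.1 S f :=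
    label_le hM _ S rfl hSp a haa haS hal f hf hne _ (ZP u) rfl hUS b.1 b.2 hb
  have h1 : RT p M (conjIdx y ⟨ZP u, b.1⟩) ⟨P, e⟩ := (chain_conj y hle).trans hy
  exact Lb_eq hs h1 (Subgroup.mem_zpowers u)

/-- The conjugate form. -/
theorem val_point_conj (hM : IsPModular p M) (hs : FStable p M P e lam) {χ : G → ℂ} (hχl : ∀ g, MemLocalRing M (χ g))
    (hχc : ∀ x g, χ (x * g * x⁻¹) = χ g) {S : Subgroup G} (hSp : IsPGroup p S) {a : MonoidAlgebra (ResField M) G}
    (haa : a * a = a) (haS : a ∈ fx (ResField M) S) (hal : IsLoc (fx (ResField M) S) a)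
    {f : Set (IrrCharacter (Cen S))} (hf : IsPBlock M f) (hne : br S a * ebar M S f ≠ 0) {y : G}
    (hy : RT p M (conjIdx y ⟨S, f⟩) ⟨P, e⟩) {â : MonoidAlgebra ℂ G} (hâl : LocalCoeff M â) (hââ : â * â = â)
    (hrd : rd M â = a) (hinv : IsInvBy S â) (x : G) {v : G} (hv : v ∈ S) :
    Val p M (Lb p M P e lam) χ (cj (ResField M) x a) (x * v * x⁻¹) = lam (y * v * y⁻¹) * tr (fun g => χ (v * g)) â := by
  classical
  have h1 := val_point (S := Bcj x S) (a := cj (ResField M) x a) (f := conjBlock S x f) (y := y * x⁻¹)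
    (â := conjElt x â) (u := x * v * x⁻¹) hM hs hχl hχc (hSp.map _) ?_ ?_ (hal.conj x) (isPBlock_conjBlock hf) ?_ ?_
    (localCoeff_conjElt x hâl) ?_ (by rw [rd_conjElt, hrd]) ?_ (conj_mem_cj.2 hv)
  · rw [h1, tr_conjElt]
    congr 1
    · congr 1
      group
    · unfold tr
      refine Finset.sum_congr rfl fun g _ => ?_
      congr 1
      have e1 : x * v * x⁻¹ * (x * g * x⁻¹) = x * (v * g) * x⁻¹ := by group
      show χ (x * v * x⁻¹ * (x * g * x⁻¹)) = χ (v * g)
      rw [e1, hχc]
  · rw [← map_mul, haa]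
  · exact fx_conjS.2 haS
  · have e1 := cj_br (F := ResField M) x S a
    have e2 := ebar_conj (M := M) S x f
    have e3 : br (Bcj x S) (cj (ResField M) x a) * ebar M (Bcj x S) (conjBlock S x f) =
        cj (ResField M) x (br S a * ebar M S f) := by
      rw [map_mul, e2, e1]
      rfl
    rw [e3]
    intro h0
    apply hne
    exact cj_inj (ResField M) x (by rw [h0, map_zero])
  · have e1 : conjIdx (y * x⁻¹) (⟨Bcj x S, conjBlock S x f⟩ : BrauerPairIdx G) = conjIdx y ⟨S, f⟩ := by
      rw [conjIdx_mul]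
      congr 1
      exact conjIdx_inv x ⟨S, f⟩
    rw [e1]
    exact hy
  · rw [← conjElt_mul_distrib, hââ]
  · intro w hw g
    rw [coeff_conjElt, coeff_conjElt]
    have hw' := mem_cj.1 hw
    have h2 := hinv _ hw' (x⁻¹ * g * x)
    rw [← h2]
    congr 1
    group

end Point

section Main

variable {G : Type*} [Group G] [Fintype G] {p : ℕ} [hp : Fact p.Prime] {M : Ideal AlgInt} [hMp : M.IsPrime]

local notation "Bcj" => Cfsg.Agent.Lib.BPair.cj
local notation "ZP" => Subgroup.zpowers

variable {B : Set (IrrCharacter G)} {P : Subgroup G} {e : Set (IrrCharacter (Cen P))} {lamP : P → ℂ}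

theorem char_localRing {χ : G → ℂ} (hχ : IsCharacter G χ) (g : G) : MemLocalRing M (χ g) :=
  memLocalRing_of_isIntegral (IsCharacter.isIntegral' hχ g)

open Classical in
/-- The fibres of a Green orbit. -/
theorem card_fiber {Q : Subgroup G} {a₀ a : MonoidAlgebra (ResField M) G} {x₀ : Q} (ha : a = cj (ResField M) (x₀ : G) a₀) :
    (Finset.univ.filter (fun x : Q => cj (ResField M) (x : G) a₀ = a)).card = Nat.card ((stabS Q a₀).subgroupOf Q) := by
  classical
  rw [Nat.card_eq_fintype_card, ← Finset.card_univ]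
  refine Finset.card_bij' (fun x _ => ⟨x₀⁻¹ * x, ?_⟩) (fun s _ => x₀ * s) ?_ ?_ ?_ ?_
  · rename_i x hx
    have hx' := (Finset.mem_filter.1 hx).2
    rw [Subgroup.mem_subgroupOf]
    refine mem_stabS.2 ⟨(x₀⁻¹ * x).2, ?_⟩
    push_cast
    rw [cj_mul_apply, hx', ha, ← cj_mul_apply]
    rw [inv_mul_cancel, cj_one_apply]
  · intro x _
    exact Finset.mem_univ _
  · intro s _
    rw [Finset.mem_filter]
    refine ⟨Finset.mem_univ _, ?_⟩
    have hs : cj (ResField M) ((s : Q) : G) a₀ = a₀ := (mem_stabS.1 (Subgroup.mem_subgroupOf.1 s.2)).2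
    push_cast
    rw [cj_mul_apply, hs, ha]
  · intro x _
    simp
  · intro s _
    apply Subtype.ext
    simp

/-- **The main computation**: a primitive idempotent gives a function induced from its stabilizer. -/
theorem val_prim (hM : IsPModular p M) (hmax : IsMaximalBrauerPair p M B P e)
    (hs : FStable p M P e (extendByZero P lamP)) (hlamP : IsGeneralizedCharacter P lamP)
    {χ : G → ℂ} (hχ : IsCharacter G χ) {Q : Subgroup G} (hQ : IsPGroup p Q) {j : MonoidAlgebra (ResField M) G}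
    (hjQ : j ∈ fx (ResField M) Q) (hjj : j * j = j) (hj0 : j ≠ 0) (hjl : IsLoc (fx (ResField M) Q) j)
    (hjB : j * rd M (blockElt B) = j) :
    IsGeneralizedCharacter Q (fun u : Q => Val p M (Lb p M P e (extendByZero P lamP)) χ j u) := by
  classical
  haveI : CharP (ResField M) p := charP_resField hM
  have hχl : ∀ g, MemLocalRing M (χ g) := char_localRing hχ
  have hχc : ∀ x g, χ (x * g * x⁻¹) = χ g := fun x g => IsCharacter.isClassFunction hχ g x
  obtain ⟨hPe, hB, -⟩ := isBrauerPairOf_iff.1 hmax.1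
  obtain ⟨a₀, I, hchain, hloc⟩ := chainL _ Q j rfl hQ hjj hj0 hjQ hjl
  have hSQ : stabS Q a₀ ≤ Q := stabS_le Q a₀
  have hSp : IsPGroup p (stabS Q a₀) := hQ.to_le hSQ
  obtain ⟨hal, habr⟩ := hloc a₀ hchain.mem
  have haS : a₀ ∈ fx (ResField M) (stabS Q a₀) := mem_fx_stabS Q a₀
  have haa : a₀ * a₀ = a₀ := hchain.idem
  obtain ⟨â, hâl, hââ, hrd, hinv⟩ := exists_idem_lift_fx hM (stabS Q a₀) haS haa
  obtain ⟨f₀, hf₀, hne⟩ := exists_ebar_ne (M := M) (stabS Q a₀) habr
  have haB : a₀ * rd M (blockElt B) = a₀ := by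
    have h1 := hchain.mul_sum hchain.mem
    rw [← h1, mul_assoc, hjB]
  have hpair : IsBrauerPairOf p M B (stabS Q a₀) f₀ := isBrauerPairOf_of_label hM hB hSp hf₀ haS haB hne
  obtain ⟨y, hy⟩ := exists_conj_subpair hM hmax hpair
  have hy' : RT p M (conjIdx y ⟨stabS Q a₀, f₀⟩) ⟨P, e⟩ := hy
  have hyS : ∀ v ∈ stabS Q a₀, y * v * y⁻¹ ∈ P := fun v hv => chain_le hy' (conj_mem_cj.2 hv)
  set S' : Subgroup Q := (stabS Q a₀).subgroupOf Q with hS'
  let ψ : S' →* P :=
    { toFun := fun v => ⟨y * ((v : Q) : G) * y⁻¹, hyS _ (Subgroup.mem_subgroupOf.1 v.2)⟩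
      map_one' := by
        apply Subtype.ext
        simp
      map_mul' := by
        intro a b
        apply Subtype.ext
        show y * (((a : Q) : G) * ((b : Q) : G)) * y⁻¹ = y * ((a : Q) : G) * y⁻¹ * (y * ((b : Q) : G) * y⁻¹)
        group }
  let ι : S' →* G := Q.subtype.comp S'.subtype
  let W : S' → ℂ := (lamP ∘ ψ) * (fun v => tr (fun g => χ (ι v * g)) â)
  have hW : IsGeneralizedCharacter S' W := by
    refine IsGeneralizedCharacter.mul ?_ (IsGeneralizedCharacter.of_isCharacter ?_)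
    · obtain ⟨χ₁, χ₂, h₁, h₂, h⟩ := hlamP
      refine ⟨χ₁ ∘ ψ, χ₂ ∘ ψ, IsCharacter.comp ψ h₁, IsCharacter.comp ψ h₂, ?_⟩
      rw [h]
      rfl
    · refine isCharacter_tr_idem hχ ι hââ ?_
      intro v
      exact (isInvBy_iff_commute _ _).1 hinv _ (Subgroup.mem_subgroupOf.1 v.2)
  have hIst : ∀ x ∈ Q, ∀ a ∈ I, cj (ResField M) x a ∈ I := by
    intro x hx a ha
    obtain ⟨z, hz, rfl⟩ := hchain.all a ha
    rw [← cj_mul_apply]
    exact hchain.closed _ (Q.mul_mem hx hz)
  have key : (fun u : Q => Val p M (Lb p M P e (extendByZero P lamP)) χ j u) = indFun S' W := by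
    funext u
    have hUQ : ZP (u : G) ≤ Q := by
      rw [Subgroup.zpowers_le]
      exact u.2
    have hU : IsPGroup p (ZP (u : G)) := hQ.to_le hUQ
    have hbr : br (ZP (u : G)) j = ∑ a ∈ I.filter (· ∈ fx (ResField M) (ZP (u : G))), br (ZP (u : G)) a := by
      conv_lhs => rw [← hchain.sum]
      exact br_sum_fixed hU I fun x hx a ha => hIst x (hUQ hx) a ha
    have h1 := Val_sum (L := Lb p M P e (extendByZero P lamP)) (χ := χ) hM hχc hU (I.filter (· ∈ fx (ResField M) (ZP (u : G))))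
      (fun a => a) (fun a ha => (Finset.mem_filter.1 ha).2) (fun a ha => hchain.idem' (Finset.mem_filter.1 ha).1)
      (fun a ha b hb hab => hchain.orth a (Finset.mem_filter.1 ha).1 b (Finset.mem_filter.1 hb).1 hab) hbr
    rw [h1]
    set F : MonoidAlgebra (ResField M) G → ℂ := fun a =>
      if a ∈ fx (ResField M) (ZP (u : G)) then Val p M (Lb p M P e (extendByZero P lamP)) χ a u else 0 with hF
    have hterm : ∀ x : Q, extendByZero S' W (x⁻¹ * u * x) = F (cj (ResField M) (x : G) a₀) := by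
      intro x
      by_cases hv : x⁻¹ * u * x ∈ S'
      · have hvS : ((x⁻¹ * u * x : Q) : G) ∈ stabS Q a₀ := Subgroup.mem_subgroupOf.1 hv
        have hgx : (u : G) = (x : G) * ((x⁻¹ * u * x : Q) : G) * (x : G)⁻¹ := by
          push_cast
          group
        have hfix : cj (ResField M) (x : G) a₀ ∈ fx (ResField M) (ZP (u : G)) := by
          refine fx_mono ?_ (fx_conjS.2 haS)
          rw [Subgroup.zpowers_le, mem_conjS]
          have : (x : G)⁻¹ * (u : G) * (x : G) = ((x⁻¹ * u * x : Q) : G) := by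
            push_cast
            rfl
          rw [this]
          exact hvS
        rw [extendByZero_of_mem S' W hv, hF]
        simp only
        rw [if_pos hfix]
        have h3 := val_point_conj hM hs hχl hχc hSp haa haS hal hf₀ hne hy' hâl hââ hrd hinv (x : G) hvS
        rw [← hgx] at h3
        rw [h3]
        show lamP (ψ ⟨x⁻¹ * u * x, hv⟩) * tr (fun g => χ (ι ⟨x⁻¹ * u * x, hv⟩ * g)) â = _
        rw [extendByZero_of_mem P lamP (hyS _ hvS)]
        rfl
      · rw [extendByZero_of_not_mem S' W hv, hF]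
        simp only
        rw [if_neg]
        intro hfix
        apply hv
        rw [hS', Subgroup.mem_subgroupOf]
        refine mem_stabS.2 ⟨(x⁻¹ * u * x).2, ?_⟩
        have h4 := cj_of_mem_fx hfix (Subgroup.mem_zpowers (u : G))
        rw [← cj_mul_apply] at h4
        have e1 : (u : G) * (x : G) = (x : G) * ((x⁻¹ * u * x : Q) : G) := by
          push_cast
          group
        rw [e1, cj_mul_apply] at h4
        exact cj_inj (ResField M) (x : G) h4
    have hcard0 : (Nat.card S' : ℂ) ≠ 0 := by exact_mod_cast Nat.card_pos.ne'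
    unfold indFun
    simp only [hterm]
    rw [← Finset.sum_fiberwise_of_maps_to (s := Finset.univ) (t := I) (g := fun x : Q => cj (ResField M) (x : G) a₀)
      (fun x _ => hchain.closed _ x.2)]
    have hfib : ∀ a ∈ I, ∑ x ∈ Finset.univ.filter (fun x : Q => cj (ResField M) (x : G) a₀ = a), F (cj (ResField M) (x : G) a₀) =
        (Nat.card S' : ℂ) * F a := by
      intro a ha
      obtain ⟨x₀, hx₀, hax⟩ := hchain.all a ha
      have hc := card_fiber (x₀ := (⟨x₀, hx₀⟩ : Q)) hax
      rw [Finset.sum_congr rfl (g := fun _ => F a) (fun x hx => by rw [(Finset.mem_filter.1 hx).2]),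
        Finset.sum_const, nsmul_eq_mul, hc]
    rw [Finset.sum_congr rfl hfib, ← Finset.mul_sum, ← mul_assoc, inv_mul_cancel₀ hcard0, one_mul, Finset.sum_filter]
  rw [key]
  exact indFun_isGeneralized S' hW

theorem Val_add (hM : IsPModular p M) {L : BrauerPairIdx G → G → ℂ} {χ : G → ℂ} (hχc : ∀ x g, χ (x * g * x⁻¹) = χ g) {u : G}
    (hU : IsPGroup p (ZP u)) {x y : MonoidAlgebra (ResField M) G} (hx : x ∈ fx (ResField M) (ZP u))
    (hy : y ∈ fx (ResField M) (ZP u)) (hxx : x * x = x) (hyy : y * y = y) (hxy : x * y = 0) (hyx : y * x = 0) :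
    Val p M L χ (x + y) u = Val p M L χ x u + Val p M L χ y u := by
  classical
  have h := Val_sum (L := L) (χ := χ) hM hχc hU (Finset.univ : Finset Bool) (fun b => cond b x y) (j := x + y)
    (fun b _ => by cases b <;> assumption) (fun b _ => by cases b <;> assumption)
    (fun b _ b' _ hne => by
      cases b <;> cases b' <;> first | exact absurd rfl hne | assumption)
    (by simp [map_add])
  simpa using h

/-- **Theorem D.** -/
theorem val_isGeneralized (hM : IsPModular p M) (hmax : IsMaximalBrauerPair p M B P e)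
    (hs : FStable p M P e (extendByZero P lamP)) (hlamP : IsGeneralizedCharacter P lamP)
    {χ : G → ℂ} (hχ : IsCharacter G χ) {Q : Subgroup G} (hQ : IsPGroup p Q) {j : MonoidAlgebra (ResField M) G}
    (hjQ : j ∈ fx (ResField M) Q) (hjj : j * j = j) (hjB : j * rd M (blockElt B) = j) :
    IsGeneralizedCharacter Q (fun u : Q => Val p M (Lb p M P e (extendByZero P lamP)) χ j u) := by
  classical
  have hχc : ∀ x g, χ (x * g * x⁻¹) = χ g := fun x g => IsCharacter.isClassFunction hχ g x
  refine idem_induction (S := fx (ResField M) Q) (F := ResField M)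
    (fun j => j * rd M (blockElt B) = j →
      IsGeneralizedCharacter Q (fun u : Q => Val p M (Lb p M P e (extendByZero P lamP)) χ j u)) ?_ ?_ ?_ j hjQ hjj hjB
  · intro _
    have : (fun u : Q => Val p M (Lb p M P e (extendByZero P lamP)) χ 0 (u : G)) = 0 := by
      funext u
      exact Val_zero hM hχc _
    rw [this]
    exact IsGeneralizedCharacter.zero
  · intro x y hx hy hxx hyy hxy hyx Px Py h
    have e1 : x * rd M (blockElt B) = x := by
      have := congrArg (x * ·) h
      simp only [← mul_assoc, mul_add, add_mul, hxx, hxy, zero_mul, add_zero] at this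
      exact this
    have e2 : y * rd M (blockElt B) = y := by
      have := congrArg (y * ·) h
      simp only [← mul_assoc, mul_add, add_mul, hyy, hyx, zero_mul, zero_add] at this
      exact this
    have : (fun u : Q => Val p M (Lb p M P e (extendByZero P lamP)) χ (x + y) (u : G)) =
        (fun u : Q => Val p M (Lb p M P e (extendByZero P lamP)) χ x (u : G)) +
          (fun u : Q => Val p M (Lb p M P e (extendByZero P lamP)) χ y (u : G)) := by
      funext u
      have hUQ : ZP (u : G) ≤ Q := by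
        rw [Subgroup.zpowers_le]
        exact u.2
      exact Val_add hM hχc (hQ.to_le hUQ) (fx_mono hUQ hx) (fx_mono hUQ hy) hxx hyy hxy hyx
    rw [this]
    exact IsGeneralizedCharacter.add (Px e1) (Py e2)
  · intro j hj hjj' hj0 hjl h
    exact val_prim hM hmax hs hlamP hχ hQ hj hjj' hj0 hjl h

end Main

end Cfsg.Agent.Lib.Modular
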