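import Mathlib
import Cfsg.Agent.Lib.Modular.ThmD

/-!
# The star construction: generalized characters
-/

set_option autoImplicit false
set_option linter.unusedSectionVars false
set_option linter.unusedSimpArgs false
set_option linter.unusedVariables false
set_option linter.style.haveILetI false
set_option linter.unnecessarySimpa false

open scoped ComplexConjugate

namespace Cfsg.Agent.Lib.Modular

open Module Cfsg Cfsg.Agent.Lib.Block Cfsg.Agent.Lib.CharExtra Cfsg.Agent.Lib.BPair Cfsg.Agent.Lib.Char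

attribute [local instance] Cfsg.Agent.Lib.BPair.subFintype

section Decomp

/-- An elementary group is the direct product of a `p`-group and a `p'`-group. -/
theorem exists_decomp {E : Type*} [Group E] [Fintype E] {ℓ p : ℕ} (hℓ : ℓ.Prime) [hp : Fact p.Prime] (hE : IsElementary ℓ E) :
    ∃ Q H : Subgroup E, IsPGroup p Q ∧ (∀ s ∈ H, ¬ p ∣ orderOf s) ∧ (∀ q ∈ Q, ∀ s ∈ H, Commute q s) ∧
      ∀ e : E, ∃! qs : Q × H, (qs.1 : E) * qs.2 = e := by
  classical
  obtain ⟨x, hxc, hcop, k, hk⟩ := hE
  have hcent : ∀ n ∈ Subgroup.zpowers x, ∀ g : E, Commute n g := by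
    intro n hn g
    obtain ⟨m, rfl⟩ := Subgroup.mem_zpowers_iff.1 hn
    have h1 : Commute x g := (Subgroup.mem_center_iff.1 hxc g).symm
    exact h1.zpow_left m
  have hcardE : Nat.card (Subgroup.zpowers x) * ℓ ^ k = Nat.card E := by
    rw [← hk, mul_comm]
    exact Subgroup.index_mul_card _
  by_cases hℓp : ℓ = p
  · subst hℓp
    haveI hN : (Subgroup.zpowers x).Normal := by
      constructor
      intro n hn g
      have : g * n * g⁻¹ = n := by
        have h1 := (hcent n hn g).eq
        rw [← h1]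
        group
      rwa [this]
    have hco : Nat.Coprime (Nat.card (Subgroup.zpowers x)) (Subgroup.zpowers x).index := by
      rw [hk, Nat.card_zpowers]
      exact Nat.Coprime.pow_right k hcop
    obtain ⟨K, hK⟩ := Subgroup.exists_right_complement'_of_coprime hco
    have hKc : Nat.card K = ℓ ^ k := by
      have h1 := hK.card_mul_card
      rw [← hcardE] at h1
      exact Nat.eq_of_mul_eq_mul_left Nat.card_pos h1
    refine ⟨K, Subgroup.zpowers x, IsPGroup.of_card hKc, ?_, ?_, ?_⟩
    · intro s hs hd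
      have h1 : orderOf s ∣ orderOf x := orderOf_dvd_of_mem_zpowers hs
      have h2 := Nat.Coprime.eq_one_of_dvd (hcop.symm) (hd.trans h1)
      exact hp.out.one_lt.ne' h2
    · intro q _ s hs
      exact (hcent s hs q).symm
    · intro e
      have hb : Function.Bijective (fun y : Subgroup.zpowers x × K => (y.1 : E) * y.2) := hK
      obtain ⟨⟨n, q⟩, h1, h2⟩ := hb.existsUnique e
      refine ⟨(q, n), ?_, ?_⟩
      · show (q : E) * n = e
        rw [← (hcent n n.2 q).eq]
        exact h1
      · rintro ⟨q', n'⟩ h3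
        have h3' : (q' : E) * n' = e := h3
        have h4 := h2 (n', q') (by
          show (n' : E) * q' = e
          rw [(hcent n' n'.2 q').eq]
          exact h3')
        have h5 : n' = n := congrArg Prod.fst h4
        have h6 : q' = q := congrArg Prod.snd h4
        rw [h5, h6]
  · obtain ⟨x₁, y₁, hxy, hc, ⟨a, ha⟩, hy₁, hx₁, -⟩ := exists_jordan (p := p) x
    have hcent₁ : ∀ n ∈ Subgroup.zpowers x₁, ∀ g : E, Commute n g := by
      intro n hn g
      obtain ⟨m, rfl⟩ := Subgroup.mem_zpowers_iff.1 hn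
      exact (hcent x₁ hx₁ g).zpow_left m
    haveI hN : (Subgroup.zpowers x₁).Normal := by
      constructor
      intro n hn g
      have : g * n * g⁻¹ = n := by
        have h1 := (hcent₁ n hn g).eq
        rw [← h1]
        group
      rwa [this]
    have hcy : Nat.Coprime (orderOf x₁) (orderOf y₁) := by
      rw [ha]
      exact Nat.Coprime.pow_left a ((Nat.Prime.coprime_iff_not_dvd hp.out).2 hy₁)
    have hox : orderOf x = p ^ a * orderOf y₁ := by
      rw [← hxy, hc.orderOf_mul_eq_mul_orderOf_of_coprime hcy, ha]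
    have hidx : (Subgroup.zpowers x₁).index = orderOf y₁ * ℓ ^ k := by
      have h1 := Subgroup.index_mul_card (Subgroup.zpowers x₁)
      rw [← hcardE, Nat.card_zpowers, Nat.card_zpowers, ha, hox] at h1
      have h2 : (Subgroup.zpowers x₁).index * p ^ a = (orderOf y₁ * ℓ ^ k) * p ^ a := by
        rw [h1]
        ring
      exact Nat.eq_of_mul_eq_mul_right (pow_pos hp.out.pos a) h2
    have hpco : Nat.Coprime p ((Subgroup.zpowers x₁).index) := by
      rw [hidx]
      refine Nat.Coprime.mul_right ((Nat.Prime.coprime_iff_not_dvd hp.out).2 hy₁) ?_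
      refine Nat.Coprime.pow_right k ?_
      exact (Nat.coprime_primes hp.out hℓ).2 (Ne.symm hℓp)
    have hco : Nat.Coprime (Nat.card (Subgroup.zpowers x₁)) (Subgroup.zpowers x₁).index := by
      rw [Nat.card_zpowers, ha]
      exact Nat.Coprime.pow_left a hpco
    obtain ⟨K, hK⟩ := Subgroup.exists_right_complement'_of_coprime hco
    have hKc : Nat.card K = (Subgroup.zpowers x₁).index := by
      have h1 := hK.card_mul_card
      have h2 := Subgroup.index_mul_card (Subgroup.zpowers x₁)
      rw [← h2, mul_comm] at h1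
      exact Nat.eq_of_mul_eq_mul_right Nat.card_pos h1
    refine ⟨Subgroup.zpowers x₁, K, IsPGroup.of_card (n := a) (by rw [Nat.card_zpowers, ha]), ?_, ?_, ?_⟩
    · intro s hs hd
      have h1 : orderOf (⟨s, hs⟩ : K) ∣ Nat.card K := orderOf_dvd_natCard _
      rw [Subgroup.orderOf_mk, hKc] at h1
      exact (Nat.Prime.coprime_iff_not_dvd hp.out).1 hpco (hd.trans h1)
    · intro q hq s _
      exact hcent₁ q hq s
    · intro e
      have hb : Function.Bijective (fun y : Subgroup.zpowers x₁ × K => (y.1 : E) * y.2) := hK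
      exact hb.existsUnique e

end Decomp

section Gen

variable {G : Type*} [Group G] [Fintype G] {p : ℕ} [hp : Fact p.Prime] {M : Ideal AlgInt} [hMp : M.IsPrime]

local notation "Bcj" => Cfsg.Agent.Lib.BPair.cj
local notation "ZP" => Subgroup.zpowers

variable {B : Set (IrrCharacter G)} {P : Subgroup G} {e : Set (IrrCharacter (Cen P))} {lamP : P → ℂ}

theorem tr_single_mul' (φ : G → ℂ) (g : G) (w : MonoidAlgebra ℂ G) :
    tr φ (MonoidAlgebra.single g 1 * w) = tr (fun h => φ (g * h)) w := by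
  unfold tr
  rw [← Equiv.sum_comp (Equiv.mulLeft g)]
  refine Finset.sum_congr rfl fun h _ => ?_
  rw [Equiv.coe_mulLeft, MonoidAlgebra.coeff_single_mul_apply, one_mul]
  simp

theorem tr_shift_blockElt {χ : IrrCharacter G} (hχB : χ ∈ B) (g : G) (w : MonoidAlgebra ℂ G) :
    tr (fun h => (χ : G → ℂ) (g * h)) (w * blockElt B) = tr (fun h => (χ : G → ℂ) (g * h)) w := by
  rw [← tr_single_mul', ← tr_single_mul', ← mul_assoc, tr_mul_central' χ.2 (isCentralElt_blockElt B),
    om_blockElt_of_mem hχB, one_mul]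

/-- The average against a linear character of a `p'`-group. -/
noncomputable def epsE {E : Subgroup G} (H' : Subgroup E) (lam' : E →* ℂˣ) : MonoidAlgebra ℂ G :=
  ∑ s : H', MonoidAlgebra.single (((s : E) : G)) ((Nat.card H' : ℂ)⁻¹ * (lam' (s : E)⁻¹ : ℂ))

theorem epsE_mul_self {E : Subgroup G} (H' : Subgroup E) (lam' : E →* ℂˣ) : epsE H' lam' * epsE H' lam' = epsE H' lam' := by
  classical
  have hcne : (Nat.card H' : ℂ) ≠ 0 := by exact_mod_cast Nat.card_pos.ne'
  unfold epsE
  rw [Finset.sum_mul_sum]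
  simp only [MonoidAlgebra.single_mul_single]
  have h1 : ∀ s : H', ∑ t : H', MonoidAlgebra.single (((s : E) : G) * ((t : E) : G))
      (((Nat.card H' : ℂ)⁻¹ * (lam' (s : E)⁻¹ : ℂ)) * ((Nat.card H' : ℂ)⁻¹ * (lam' (t : E)⁻¹ : ℂ))) =
      ∑ r : H', MonoidAlgebra.single (((r : E) : G)) (((Nat.card H' : ℂ)⁻¹ * (Nat.card H' : ℂ)⁻¹) * (lam' (r : E)⁻¹ : ℂ)) := by
    intro s
    rw [← Equiv.sum_comp (Equiv.mulLeft s) (fun r : H' =>
      MonoidAlgebra.single (((r : E) : G)) (((Nat.card H' : ℂ)⁻¹ * (Nat.card H' : ℂ)⁻¹) * (lam' (r : E)⁻¹ : ℂ)))]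
    refine Finset.sum_congr rfl fun t _ => ?_
    simp only [Equiv.coe_mulLeft]
    congr 1
    have e1 : (lam' ((s * t : H') : E)⁻¹ : ℂ) = (lam' (s : E)⁻¹ : ℂ) * (lam' (t : E)⁻¹ : ℂ) := by
      push_cast
      rw [mul_inv_rev, map_mul, Units.val_mul, mul_comm]
    rw [e1]
    ring
  rw [Finset.sum_congr rfl (fun s _ => h1 s), Finset.sum_const, Finset.card_univ, ← Nat.card_eq_fintype_card,
    Finset.smul_sum]
  refine Finset.sum_congr rfl fun r _ => ?_
  rw [MonoidAlgebra.smul_single]
  congr 1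
  rw [nsmul_eq_mul]
  field_simp

variable (hM : IsPModular p M)

theorem not_dvd_card_of_reg {E : Subgroup G} {H' : Subgroup E} (hH : ∀ s ∈ H', ¬ p ∣ orderOf s) : ¬ p ∣ Nat.card H' := by
  intro hd
  obtain ⟨s, hs⟩ := exists_prime_orderOf_dvd_card' p hd
  apply hH s s.2
  rw [← Subgroup.orderOf_coe] at hs
  rw [hs]

include hM in
theorem localCoeff_epsE {E : Subgroup G} {H' : Subgroup E} (hH : ∀ s ∈ H', ¬ p ∣ orderOf s) (lam' : E →* ℂˣ) :
    LocalCoeff M (epsE H' lam') := by
  classical
  unfold epsE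
  refine localCoeff_sum _ _ fun s _ => localCoeff_single _ (memLocalRing_mul ?_ ?_)
  · exact memLocalRing_natCast_inv hM (not_dvd_card_of_reg hH)
  · apply memLocalRing_of_isIntegral
    refine IsIntegral.of_pow (n := Nat.card E) Nat.card_pos ?_
    rw [← Units.val_pow_eq_pow_val, ← map_pow, pow_card_eq_one', map_one, Units.val_one]
    exact isIntegral_one

theorem epsE_commute {E : Subgroup G} (H' : Subgroup E) (lam' : E →* ℂˣ) {z : MonoidAlgebra ℂ G}
    (hz : ∀ s : H', z * MonoidAlgebra.single (((s : E) : G)) 1 = MonoidAlgebra.single (((s : E) : G)) 1 * z) :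
    z * epsE H' lam' = epsE H' lam' * z := by
  classical
  unfold epsE
  rw [Finset.mul_sum, Finset.sum_mul]
  refine Finset.sum_congr rfl fun s _ => ?_
  have e1 : ∀ r : ℂ, MonoidAlgebra.single (((s : E) : G)) r = r • MonoidAlgebra.single (((s : E) : G)) (1 : ℂ) := by
    intro r
    rw [MonoidAlgebra.smul_single, smul_eq_mul, mul_one]
  rw [e1, mul_smul_comm, smul_mul_assoc, hz]

/-- The computation of a section average. -/
theorem tr_Ee_epsE {E : Subgroup G} (H' : Subgroup E) (lam' : E →* ℂˣ) (χ : G → ℂ) (U : Subgroup G)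
    (b : Set (IrrCharacter (Cen U))) (g : G) :
    tr (fun h => χ (g * h)) (Ee U b * epsE H' lam') =
      (Nat.card H' : ℂ)⁻¹ * ∑ s : H', sv χ U b g ((s : E) : G) * (lam' (s : E)⁻¹ : ℂ) := by
  classical
  unfold epsE sv
  rw [Finset.mul_sum, tr_sum, Finset.mul_sum]
  refine Finset.sum_congr rfl fun s _ => ?_
  have e1 : ∀ r : ℂ, MonoidAlgebra.single (((s : E) : G)) r = r • MonoidAlgebra.single (((s : E) : G)) (1 : ℂ) := by
    intro r
    rw [MonoidAlgebra.smul_single, smul_eq_mul, mul_one]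
  rw [e1 ((Nat.card H' : ℂ)⁻¹ * _), mul_smul_comm, tr_smul]
  ring

/-- The value of the labelled trace at an element commuting with the complement. -/
theorem Val_eq_average (hM : IsPModular p M) {L : BrauerPairIdx G → G → ℂ} {χ : IrrCharacter G} (hχB : χ ∈ B)
    (hBp : IsPBlock M B) {E : Subgroup G} {H' : Subgroup E} (hH : ∀ s ∈ H', ¬ p ∣ orderOf s) (lam' : E →* ℂˣ)
    {g : G} (hgp : ∃ k, orderOf g = p ^ k) (hgc : ∀ s : H', Commute g ((s : E) : G)) :
    Val p M L χ (rd M (epsE H' lam' * blockElt B)) g =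
      (Nat.card H' : ℂ)⁻¹ * ∑ s : H', star M p L χ (g * ((s : E) : G)) * (lam' (s : E)⁻¹ : ℂ) := by
  classical
  haveI : CharP (ResField M) p := charP_resField hM
  have hχc : ∀ x g, (χ : G → ℂ) (x * g * x⁻¹) = (χ : G → ℂ) g := fun x g =>
    IsCharacter.isClassFunction (IsIrrCharacter.isCharacter χ.2) g x
  have hχl : ∀ g, MemLocalRing M ((χ : G → ℂ) g) := fun g => char_localRing (IsIrrCharacter.isCharacter χ.2) g
  obtain ⟨k, hk⟩ := hgp
  have hgpow : g ^ p ^ k = 1 := by
    rw [← hk]
    exact pow_orderOf_eq_one g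
  have hU : IsPGroup p (ZP g) := isPGroup_zpowers hgpow
  set ε := epsE H' lam' with hε
  have hεl : LocalCoeff M ε := localCoeff_epsE hM hH lam'
  have hεε : ε * ε = ε := epsE_mul_self H' lam'
  have hBc := isCentralElt_blockElt B
  have hBl : LocalCoeff M (blockElt B) := localCoeff_blockElt (isBlockUnion_of_isPBlock hBp)
  set w := ε * blockElt B with hw
  have hwl : LocalCoeff M w := localCoeff_mul hεl hBl
  have hww : w * w = w := by
    rw [hw, mul_assoc, ← mul_assoc (blockElt B), isCentralElt_commute hBc ε, mul_assoc, blockElt_mul_self, ← mul_assoc, hεε]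
  have hεU : IsInvBy (ZP g) ε := by
    rw [isInvBy_iff_commute]
    intro u hu
    obtain ⟨m, rfl⟩ := Subgroup.mem_zpowers_iff.1 hu
    refine (epsE_commute H' lam' ?_).symm ▸ rfl
    intro s
    rw [MonoidAlgebra.single_mul_single, MonoidAlgebra.single_mul_single, ((hgc s).zpow_left m).eq]
  have hwU : IsInvBy (ZP g) w := hεU.mul (hBc.isInvBy _)
  have hjU : rd M w ∈ fx (ResField M) (ZP g) := rd_mem_fx hwU
  have hgU : (g : G) ∈ ZP g := Subgroup.mem_zpowers g
  have hsC : ∀ s : H', ((s : E) : G) ∈ Cen (ZP g) := by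
    intro s
    rw [Subgroup.mem_centralizer_iff]
    intro u hu
    obtain ⟨m, rfl⟩ := Subgroup.mem_zpowers_iff.1 hu
    exact ((hgc s).zpow_left m).eq
  have hterm : ∀ b : Blocks M (Cen (ZP g)), Tu M g χ (ebar M (ZP g) b.1 * br (ZP g) (rd M w)) =
      (Nat.card H' : ℂ)⁻¹ * ∑ s : H', sv χ (ZP g) b.1 g ((s : E) : G) * (lam' (s : E)⁻¹ : ℂ) := by
    intro b
    have hEe : LocalCoeff M (Ee (ZP g) b.1) := localCoeff_Ee b.2
    have hEc : Commute (Ee (ZP g) b.1) ε := by
      show _ * _ = _ * _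
      refine epsE_commute H' lam' fun s => ?_
      exact commute_incl_central (Cen (ZP g)) (isCentralElt_blockElt b.1) (hsC s)
    have hEw : Commute (Ee (ZP g) b.1) w := by
      refine hEc.mul_right ?_
      exact (isCentralElt_commute hBc _).symm
    set z := Ee (ZP g) b.1 * w with hz
    have hzl : LocalCoeff M z := localCoeff_mul hEe hwl
    have hzz : z * z = z := by
      rw [hz, hEw.symm.mul_mul_mul_comm, Ee_mul_self, hww]
    have hzU : IsInvBy (ZP g) z := (isInvBy_Ee_of_le (zpowers_le_cen g) b.1).mul hwU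
    have hT := hasT_of_idem hM hgpow hzl hzz hzU χ hχl hχc
    have hrd : br (ZP g) (rd M z) = ebar M (ZP g) b.1 * br (ZP g) (rd M w) := by
      rw [hz, rd_mul hEe hwl]
      show br (ZP g) (ebar M (ZP g) b.1 * rd M w) = _
      rw [br_mul hU (ebar_mem_fx (ZP g) b.1 |> fx_mono (zpowers_le_cen g)) hjU, br_eq_self (ebar_mem_sA _ _)]
    rw [hrd] at hT
    rw [Tu_eq hM hχc hT, hz, hw, ← mul_assoc, tr_shift_blockElt hχB, tr_Ee_epsE]
  unfold Val
  simp only [hterm]
  have hstar : ∀ s : H', star M p L χ (g * ((s : E) : G)) = TT M L χ (ZP g) g ((s : E) : G) := fun s =>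
    star_mul (hgc s) ⟨k, hk⟩ (by
      rw [Subgroup.orderOf_coe]
      exact hH _ s.2)
  simp only [hstar]
  unfold TT
  simp only [Finset.sum_mul, Finset.mul_sum]
  rw [Finset.sum_comm]
  refine Finset.sum_congr rfl fun s _ => Finset.sum_congr rfl fun b _ => ?_
  ring

/-- Elementary subgroups and linear characters. -/
theorem inner_linear_int (hM : IsPModular p M) (hmax : IsMaximalBrauerPair p M B P e)
    (hs : FStable p M P e (extendByZero P lamP)) (hlamP : IsGeneralizedCharacter P lamP)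
    {χ : IrrCharacter G} (hχB : χ ∈ B) {E : Subgroup G} {ℓ : ℕ} (hℓ : ℓ.Prime) (hE : IsElementary ℓ E) (lam' : E →* ℂˣ) :
    ∃ n : ℤ, classInner (fun t : E => star M p (Lb p M P e (extendByZero P lamP)) χ (t : G)) (fun t : E => (lam' t : ℂ)) = n := by
  classical
  haveI : CharP (ResField M) p := charP_resField hM
  obtain ⟨Q', H', hQp, hHr, hcomm, huniq⟩ := exists_decomp (p := p) hℓ hE
  obtain ⟨hPe, hBp, -⟩ := isBrauerPairOf_iff.1 hmax.1
  have hχc := IsIrrCharacter.isCharacter χ.2
  set L := Lb p M P e (extendByZero P lamP) with hL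
  set ε := epsE H' lam' with hε
  have hεl : LocalCoeff M ε := localCoeff_epsE hM hHr lam'
  have hεε : ε * ε = ε := epsE_mul_self H' lam'
  have hBc := isCentralElt_blockElt B
  have hBl : LocalCoeff M (blockElt B) := localCoeff_blockElt (isBlockUnion_of_isPBlock hBp)
  set w := ε * blockElt B with hw
  have hwl : LocalCoeff M w := localCoeff_mul hεl hBl
  have hww : w * w = w := by
    rw [hw, mul_assoc, ← mul_assoc (blockElt B), isCentralElt_commute hBc ε, mul_assoc, blockElt_mul_self, ← mul_assoc, hεε]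
  set QG : Subgroup G := Q'.map E.subtype with hQG
  have hQGp : IsPGroup p QG := hQp.map _
  have hεQ : IsInvBy QG ε := by
    rw [isInvBy_iff_commute]
    rintro _ ⟨q, hq, rfl⟩
    refine (epsE_commute H' lam' ?_).symm ▸ rfl
    intro s
    rw [MonoidAlgebra.single_mul_single, MonoidAlgebra.single_mul_single]
    have h3 : ((q : E) : G) * ((s : E) : G) = ((s : E) : G) * ((q : E) : G) := congrArg Subtype.val (hcomm q hq s s.2).eq
    have h4 : (E.subtype q : G) = ((q : E) : G) := rfl
    rw [h4, h3]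
  have hwQ : IsInvBy QG w := hεQ.mul (hBc.isInvBy _)
  have hjQ : rd M w ∈ fx (ResField M) QG := rd_mem_fx hwQ
  have hjj : rd M w * rd M w = rd M w := by rw [← rd_mul hwl hwl, hww]
  have hjB : rd M w * rd M (blockElt B) = rd M w := by
    rw [← rd_mul hwl hBl, hw, mul_assoc, blockElt_mul_self]
  have hD := val_isGeneralized hM hmax hs hlamP hχc hQGp hjQ hjj hjB
  let ψ : Q' →* QG :=
    { toFun := fun q => ⟨((q : E) : G), ⟨q, q.2, rfl⟩⟩
      map_one' := rfl
      map_mul' := fun _ _ => rfl }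
  have hD' : IsGeneralizedCharacter Q' (fun q => Val p M L χ (rd M w) ((q : E) : G)) := by
    obtain ⟨χ₁, χ₂, h₁, h₂, h⟩ := hD
    refine ⟨χ₁ ∘ ψ, χ₂ ∘ ψ, IsCharacter.comp ψ h₁, IsCharacter.comp ψ h₂, ?_⟩
    funext q
    exact congrFun h (ψ q)
  have hLam : IsCharacter Q' (fun q => (lam' (q : E) : ℂ)) :=
    IsIrrCharacter.isCharacter (isIrrCharacter_of_hom (lam'.comp Q'.subtype))
  obtain ⟨n, hn⟩ := classInner_isGeneralized_int hD' (IsGeneralizedCharacter.of_isCharacter hLam)
  refine ⟨n, ?_⟩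
  rw [← hn]
  have hbij : Function.Bijective (fun qs : Q' × H' => (qs.1 : E) * qs.2) := by
    rw [Function.bijective_iff_existsUnique]
    exact huniq
  have hcardE : Nat.card E = Nat.card Q' * Nat.card H' := by
    rw [← Nat.card_prod]
    exact (Nat.card_congr (Equiv.ofBijective _ hbij)).symm
  have hconj : ∀ t : E, conj (lam' t : ℂ) = (lam' t⁻¹ : ℂ) := by
    intro t
    have h1 := norm_hom_eq_one lam' t
    rw [map_inv, Units.val_inv_eq_inv_val, Complex.inv_eq_conj h1]
  have hval : ∀ q : Q', Val p M L χ (rd M w) ((q : E) : G) =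
      (Nat.card H' : ℂ)⁻¹ * ∑ s : H', star M p L χ (((q : E) : G) * ((s : E) : G)) * (lam' (s : E)⁻¹ : ℂ) := by
    intro q
    refine Val_eq_average hM hχB hBp hHr lam' ?_ ?_
    · obtain ⟨k, hk⟩ := IsPGroup.iff_orderOf.1 hQp q
      refine ⟨k, ?_⟩
      rw [Subgroup.orderOf_coe, Subgroup.orderOf_coe]
      exact hk
    · intro s
      have := congrArg Subtype.val (hcomm q q.2 s s.2).eq
      exact this
  simp only [classInner_def]
  simp only [hval]
  have h1 : ∑ t : E, star M p L χ (t : G) * conj (lam' t : ℂ) =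
      ∑ q : Q', ∑ s : H', star M p L χ (((q : E) : G) * ((s : E) : G)) * (conj (lam' (q : E) : ℂ) * (lam' (s : E)⁻¹ : ℂ)) := by
    rw [← Fintype.sum_prod_type']
    rw [← Equiv.sum_comp (Equiv.ofBijective _ hbij)]
    refine Finset.sum_congr rfl fun qs _ => ?_
    simp only [Equiv.ofBijective_apply]
    rw [map_mul, Units.val_mul, map_mul, hconj (qs.2 : E)]
    rfl
  rw [h1, hcardE]
  have hc1 : (Nat.card Q' : ℂ) ≠ 0 := by exact_mod_cast Nat.card_pos.ne'
  have hc2 : (Nat.card H' : ℂ) ≠ 0 := by exact_mod_cast Nat.card_pos.ne'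
  push_cast
  rw [mul_inv, mul_assoc]
  congr 1
  rw [Finset.mul_sum]
  refine Finset.sum_congr rfl fun q _ => ?_
  rw [Finset.mul_sum, mul_assoc, Finset.sum_mul, Finset.mul_sum]
  refine Finset.sum_congr rfl fun s _ => ?_
  ring

/-- **The star function of a generalized character of the defect group is a generalized character.** -/
theorem star_isGeneralized (hM : IsPModular p M) (hmax : IsMaximalBrauerPair p M B P e)
    (hs : FStable p M P e (extendByZero P lamP)) (hlamP : IsGeneralizedCharacter P lamP)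
    {χ : IrrCharacter G} (hχB : χ ∈ B) :
    IsGeneralizedCharacter G (star M p (Lb p M P e (extendByZero P lamP)) χ) := by
  classical
  have hχc : ∀ x g, (χ : G → ℂ) (x * g * x⁻¹) = (χ : G → ℂ) g := fun x g =>
    IsCharacter.isClassFunction (IsIrrCharacter.isCharacter χ.2) g x
  have hθ : IsClassFunction G (star M p (Lb p M P e (extendByZero P lamP)) χ) :=
    star_isClass hχc fun x a v hv => Lb_conj hs x a hv
  refine isGeneralized_of_coeff_int hθ fun ψ hψ => ?_
  have hspan := character_indSpan_linear (IsIrrCharacter.isCharacter hψ)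
  refine IndSpan.induction (P := fun f => ∃ n : ℤ, classInner (star M p (Lb p M P e (extendByZero P lamP)) χ) f = n)
    ?_ ?_ ?_ hspan
  · refine ⟨0, ?_⟩
    simp [classInner_def]
  · rintro f g ⟨a, ha⟩ ⟨b, hb⟩
    refine ⟨a + b, ?_⟩
    rw [classInner_add_right, ha, hb]
    push_cast
    rfl
  · rintro E φ c ⟨⟨ℓ, hℓ, hE⟩, lam', rfl⟩
    rw [classInner_smul_right, frobenius_reciprocity' E _ _ hθ]
    obtain ⟨n, hn⟩ := inner_linear_int hM hmax hs hlamP hχB hℓ hE lam'
    refine ⟨c * n, ?_⟩
    rw [hn]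
    simp

end Gen

end Cfsg.Agent.Lib.Modular
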