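import Mathlib
import Cfsg.Agent.Lib.Modular.StarGen
import Cfsg.Agent.Lib.BPair.Induced
import Cfsg.Agent.Lib.BPair.NormalCase

/-!
# Source idempotents and nonvanishing of sections

The functional `Kap` on the residue group algebra, the existence of a local point with nonzero value,
and the consequence that sections of height-zero characters do not vanish.
-/

set_option autoImplicit false
set_option linter.unusedSectionVars false
set_option linter.unusedSimpArgs false
set_option linter.unusedVariables false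
set_option linter.style.haveILetI false
set_option linter.unnecessarySimpa false

open scoped ComplexConjugate

namespace Cfsg.Agent.Lib.Modular

open Module Cfsg Cfsg.Agent.Lib.Block Cfsg.Agent.Lib.CharExtra Cfsg.Agent.Lib.BPair Cfsg.Agent.Lib.Char Polynomial

attribute [local instance] Cfsg.Agent.Lib.BPair.subFintype

section RepEigen

variable {G : Type*} [Group G] [Fintype G] {M : Ideal AlgInt} [hMp : M.IsPrime] {p : ℕ} [hp : Fact p.Prime]

theorem memLocalRing_of_rep_eigen {V : Type*} [AddCommGroup V] [Module ℂ V]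
    (Φ : MonoidAlgebra ℂ G →ₐ[ℂ] Module.End ℂ V) {a : MonoidAlgebra ℂ G} (ha : LocalCoeff M a) {t : ℂ}
    (ht : Module.End.HasEigenvalue (Φ a) t) : MemLocalRing M t := by
  obtain ⟨f, hf, h0⟩ := isIntegral_of_localCoeff ha
  apply memLocalRing_of_isIntegral_local
  refine ⟨f, hf, ?_⟩
  obtain ⟨v, hv⟩ := ht.exists_hasEigenvector
  have h1 : aeval (Φ a) (f.map (algebraMap (localRing M) ℂ)) = 0 := by
    rw [Polynomial.aeval_algHom_apply, h0, map_zero]
  have h2 := Module.End.aeval_apply_of_hasEigenvector (p := f.map (algebraMap (localRing M) ℂ)) hv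
  rw [h1, LinearMap.zero_apply] at h2
  have h3 := (smul_eq_zero.1 h2.symm).resolve_right hv.2
  rwa [Polynomial.eval_map] at h3

theorem memLocalRing_pow' {t : ℂ} (htl : MemLocalRing M t) (n : ℕ) : MemLocalRing M (t ^ n) := by
  induction n with
  | zero => simpa using memLocalRing_one
  | succ n ih => rw [pow_succ]; exact memLocalRing_mul ih htl

theorem memLocalIdeal_of_pow {t : ℂ} (htl : MemLocalRing M t) {L : ℕ} (h : MemLocalIdeal M (t ^ L)) : MemLocalIdeal M t := by
  induction L with
  | zero =>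
    rw [pow_zero] at h
    exact absurd h not_memLocalIdeal_one
  | succ n ih =>
    by_contra hcon
    rw [pow_succ] at h
    by_cases hn2 : MemLocalIdeal M (t ^ n)
    · exact hcon (ih hn2)
    · exact not_memLocalIdeal_mul (memLocalRing_pow' htl n) htl hn2 hcon h

theorem memLocalIdeal_of_rep_eigen (hM : IsPModular p M) {V : Type*} [AddCommGroup V] [Module ℂ V]
    (Φ : MonoidAlgebra ℂ G →ₐ[ℂ] Module.End ℂ V) {a : MonoidAlgebra ℂ G} (ha : LocalIdealCoeff M a) {t : ℂ}
    (ht : Module.End.HasEigenvalue (Φ a) t) : MemLocalIdeal M t := by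
  classical
  have htl := memLocalRing_of_rep_eigen Φ (localCoeff_of_localIdealCoeff ha) ht
  obtain ⟨L, hL⟩ := coeffIn_of_localIdeal hM ha
  have hp0 : (p : ℂ) ≠ 0 := by exact_mod_cast hp.out.ne_zero
  have hc : ∀ g, ∃ r : ℂ, MemLocalRing M r ∧ (a ^ L).coeff g = (p : ℂ) * r := by
    intro g
    obtain ⟨s, hs, hs2⟩ := hL g
    rw [Ideal.mem_span_singleton'] at hs
    obtain ⟨t', rfl⟩ := hs
    refine ⟨(t' : ℂ), t'.2, ?_⟩
    rw [← hs2]
    push_cast
    ring
  choose r hr hr2 using hc
  set κ : MonoidAlgebra ℂ G := ofFun r with hκ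
  have hκl : LocalCoeff M κ := localCoeff_ofFun hr
  have hpow : a ^ L = (p : ℂ) • κ := by
    apply ext_coeff
    intro g
    rw [hr2, MonoidAlgebra.coeff_smul, Finsupp.smul_apply, coeff_ofFun, smul_eq_mul]
  obtain ⟨v, hv⟩ := ht.exists_hasEigenvector
  have hpow2 : Φ (a ^ L) v = t ^ L • v := by
    have := Module.End.aeval_apply_of_hasEigenvector (p := (X ^ L : ℂ[X])) hv
    simpa [map_pow] using this
  have hκv : Φ κ v = (t ^ L / p) • v := by
    have h3 : (p : ℂ) • (Φ κ v) = (p : ℂ) • ((t ^ L / p) • v) := by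
      rw [hpow, map_smul, LinearMap.smul_apply] at hpow2
      rw [hpow2, smul_smul]
      congr 1
      field_simp
    exact smul_right_injective _ hp0 h3
  have hev : Module.End.HasEigenvalue (Φ κ) (t ^ L / p) :=
    Module.End.hasEigenvalue_of_hasEigenvector (x := v) ⟨Module.End.mem_eigenspace_iff.2 hκv, hv.2⟩
  have h4 := memLocalRing_of_rep_eigen Φ hκl hev
  have h5 : MemLocalIdeal M (t ^ L) := by
    have e : t ^ L = (p : ℂ) * (t ^ L / p) := by field_simp
    rw [e]
    exact memLocalIdeal_mul_right (memLocalIdeal_p hM) h4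
  exact memLocalIdeal_of_pow htl h5

theorem memLocalIdeal_multiset_sum (s : Multiset ℂ) (h : ∀ x ∈ s, MemLocalIdeal M x) : MemLocalIdeal M s.sum := by
  induction s using Multiset.induction_on with
  | empty => simpa using memLocalIdeal_zero
  | cons a s ih =>
    rw [Multiset.sum_cons]
    exact memLocalIdeal_add (h a (Multiset.mem_cons_self _ _)) (ih fun x hx => h x (Multiset.mem_cons_of_mem hx))

/-- The trace of an element which is nilpotent modulo the local ideal lies in the local ideal. -/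
theorem memLocalIdeal_tr_of_nil (hM : IsPModular p M) {χ : G → ℂ} (hχ : IsCharacter G χ) {a : MonoidAlgebra ℂ G}
    (ha : LocalCoeff M a) {N : ℕ} (h : LocalIdealCoeff M (a ^ N)) : MemLocalIdeal M (tr χ a) := by
  classical
  obtain ⟨n, ρ, rfl⟩ := hχ
  rw [← trace_asAlgebraHom]
  set f : Module.End ℂ (Fin n → ℂ) := ρ.asAlgebraHom a with hf
  have hs : (LinearMap.charpoly f).Splits := IsAlgClosed.splits _
  rw [Module.End.trace_eq_sum_roots_charpoly_of_splits hs]
  apply memLocalIdeal_multiset_sum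
  intro t ht
  have hroot : (LinearMap.charpoly f).IsRoot t := (Polynomial.mem_roots (LinearMap.charpoly_monic f).ne_zero).1 ht
  have hev : Module.End.HasEigenvalue f t := Module.End.hasEigenvalue_iff_isRoot_charpoly f t |>.2 hroot
  have htl : MemLocalRing M t := memLocalRing_of_rep_eigen ρ.asAlgebraHom ha hev
  obtain ⟨v, hv⟩ := hev.exists_hasEigenvector
  have hpow2 : ρ.asAlgebraHom (a ^ N) v = t ^ N • v := by
    have := Module.End.aeval_apply_of_hasEigenvector (p := (X ^ N : ℂ[X])) hv
    simpa [map_pow, hf] using this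
  have hev2 : Module.End.HasEigenvalue (ρ.asAlgebraHom (a ^ N)) (t ^ N) :=
    Module.End.hasEigenvalue_of_hasEigenvector (x := v) ⟨Module.End.mem_eigenspace_iff.2 hpow2, hv.2⟩
  exact memLocalIdeal_of_pow htl (memLocalIdeal_of_rep_eigen hM ρ.asAlgebraHom h hev2)

theorem tr_mul_comm_class {φ : G → ℂ} (hφ : IsClassFunction G φ) (x y : MonoidAlgebra ℂ G) :
    tr φ (x * y) = tr φ (y * x) := by
  classical
  have key : ∀ (a b : MonoidAlgebra ℂ G) (φ : G → ℂ), tr φ (a * b) = ∑ h, ∑ k, a.coeff h * b.coeff k * φ (h * k) := by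
    intro a b φ
    unfold tr
    simp only [coeff_mul_eq, Finset.sum_mul]
    rw [Finset.sum_comm]
    refine Finset.sum_congr rfl fun h _ => ?_
    rw [← Equiv.sum_comp (Equiv.mulLeft h)]
    refine Finset.sum_congr rfl fun k _ => ?_
    simp
  rw [key, key, Finset.sum_comm]
  refine Finset.sum_congr rfl fun k _ => Finset.sum_congr rfl fun h _ => ?_
  rw [mul_comm (x.coeff h)]
  congr 1
  have h2 := hφ (h * k) k
  have e : k * (h * k) * k⁻¹ = k * h := by group
  rw [e] at h2
  exact h2.symm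

end RepEigen

section Kap

variable {G : Type*} [Group G] [Fintype G] {M : Ideal AlgInt} [hMp : M.IsPrime] {p : ℕ} [hp : Fact p.Prime]

/-- The reduction of a trace as a functional on the residue algebra. -/
noncomputable def Kap (M : Ideal AlgInt) [M.IsPrime] (χ : G → ℂ) (a : MonoidAlgebra (ResField M) G) : ResField M :=
  ∑ g, a.coeff g * red M (χ g)

theorem Kap_rd {χ : G → ℂ} (hχl : ∀ g, MemLocalRing M (χ g)) {w : MonoidAlgebra ℂ G} (hw : LocalCoeff M w) :
    Kap M χ (rd M w) = red M (tr χ w) := by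
  unfold Kap tr
  rw [red_sum _ _ fun g _ => memLocalRing_mul (hw g) (hχl g)]
  refine Finset.sum_congr rfl fun g _ => ?_
  rw [coeff_rd, red_mul (hw g) (hχl g)]

theorem Kap_add (χ : G → ℂ) (a b : MonoidAlgebra (ResField M) G) : Kap M χ (a + b) = Kap M χ a + Kap M χ b := by
  unfold Kap
  rw [← Finset.sum_add_distrib]
  refine Finset.sum_congr rfl fun g _ => ?_
  rw [coeff_add', add_mul]

theorem Kap_zero (χ : G → ℂ) : Kap M χ (0 : MonoidAlgebra (ResField M) G) = 0 := by
  have := Kap_add (M := M) χ 0 0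
  rw [add_zero] at this
  exact left_eq_add.1 this

theorem Kap_sum (χ : G → ℂ) {ι : Type*} (s : Finset ι) (f : ι → MonoidAlgebra (ResField M) G) :
    Kap M χ (∑ i ∈ s, f i) = ∑ i ∈ s, Kap M χ (f i) := by
  classical
  induction s using Finset.induction_on with
  | empty => simpa using Kap_zero χ
  | insert a s ha ih => rw [Finset.sum_insert ha, Finset.sum_insert ha, Kap_add, ih]

theorem Kap_smul (χ : G → ℂ) (c : ResField M) (a : MonoidAlgebra (ResField M) G) : Kap M χ (c • a) = c * Kap M χ a := by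
  unfold Kap
  rw [Finset.mul_sum]
  refine Finset.sum_congr rfl fun g _ => ?_
  rw [MonoidAlgebra.coeff_smul, Finsupp.smul_apply, smul_eq_mul, mul_assoc]

theorem Kap_comm {χ : G → ℂ} (hχl : ∀ g, MemLocalRing M (χ g)) (hχc : IsClassFunction G χ)
    (a b : MonoidAlgebra (ResField M) G) : Kap M χ (a * b) = Kap M χ (b * a) := by
  obtain ⟨a', hal, rfl⟩ := exists_lift a
  obtain ⟨b', hbl, rfl⟩ := exists_lift b
  rw [← rd_mul hal hbl, ← rd_mul hbl hal, Kap_rd hχl (localCoeff_mul hal hbl), Kap_rd hχl (localCoeff_mul hbl hal),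
    tr_mul_comm_class hχc]

theorem Kap_nil (hM : IsPModular p M) {χ : G → ℂ} (hχ : IsCharacter G χ) {a : MonoidAlgebra (ResField M) G}
    (hn : IsNilpotent a) : Kap M χ a = 0 := by
  obtain ⟨â, hâl, rfl⟩ := exists_lift a
  obtain ⟨N, hN⟩ := hn
  rw [Kap_rd (fun g => char_localRing hχ g) hâl]
  apply red_eq_zero
  apply memLocalIdeal_tr_of_nil hM hχ hâl (N := N)
  rw [← rd_eq_zero_iff (localCoeff_pow hâl N), rd_pow hâl, hN]

theorem Kap_cj {χ : G → ℂ} (hχc : IsClassFunction G χ) (x : G) (a : MonoidAlgebra (ResField M) G) :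
    Kap M χ (cj (ResField M) x a) = Kap M χ a := by
  classical
  unfold Kap
  rw [← Equiv.sum_comp (MulAut.conj x).toEquiv]
  refine Finset.sum_congr rfl fun g _ => ?_
  simp only [MulEquiv.toEquiv_eq_coe, EquivLike.coe_coe, MulAut.conj_apply]
  rw [coeff_cj, hχc g x]
  congr 2
  group

theorem red_ne_zero_iff {x : ℂ} (hx : MemLocalRing M x) : red M x ≠ 0 ↔ ¬ MemLocalIdeal M x := by
  constructor
  · exact fun h h2 => h (red_eq_zero h2)
  · intro h h2
    rw [red_of_mem hx, Ideal.Quotient.eq_zero_iff_mem] at h2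
    exact h h2

variable {F : Type*} [Field F]

/-- Primitive idempotents with nonzero value. -/
theorem exists_prim_Kap (hM : IsPModular p M) {χ : G → ℂ} (hχ : IsCharacter G χ) {P : Subgroup G}
    {c : MonoidAlgebra (ResField M) G} (hc : c ∈ fx (ResField M) P) :
    ∀ j ∈ fx (ResField M) P, j * j = j → Kap M χ (c * j) ≠ 0 →
      ∃ i ∈ fx (ResField M) P, i * i = i ∧ i ≠ 0 ∧ IsLoc (fx (ResField M) P) i ∧ i * j = i ∧ j * i = i ∧ Kap M χ i ≠ 0 := by
  classical
  haveI : FiniteDimensional (ResField M) (MonoidAlgebra (ResField M) G) := Module.Finite.of_basis (MonoidAlgebra.basis G _)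
  have hχl : ∀ g, MemLocalRing M (χ g) := fun g => char_localRing hχ g
  have hχc : IsClassFunction G χ := IsCharacter.isClassFunction hχ
  refine idem_induction (F := ResField M) (S := fx (ResField M) P) (fun j => Kap M χ (c * j) ≠ 0 →
      ∃ i ∈ fx (ResField M) P, i * i = i ∧ i ≠ 0 ∧ IsLoc (fx (ResField M) P) i ∧ i * j = i ∧ j * i = i ∧ Kap M χ i ≠ 0) ?_ ?_ ?_
  · intro h
    rw [mul_zero, Kap_zero] at h
    exact absurd rfl h
  · intro x y hx hy hxx hyy hxy hyx ihx ihy h
    rw [mul_add, Kap_add] at h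
    by_cases h1 : Kap M χ (c * x) = 0
    · rw [h1, zero_add] at h
      obtain ⟨i, h2, h3, h4, h5, h6, h7, h8⟩ := ihy h
      refine ⟨i, h2, h3, h4, h5, ?_, ?_, h8⟩
      · rw [mul_add, h6, ← h6, mul_assoc, hyx, mul_zero, zero_add]
      · rw [add_mul, h7, ← h7, ← mul_assoc, hxy, zero_mul, zero_add]
    · obtain ⟨i, h2, h3, h4, h5, h6, h7, h8⟩ := ihx h1
      refine ⟨i, h2, h3, h4, h5, ?_, ?_, h8⟩
      · rw [mul_add, h6, ← h6, mul_assoc, hxy, mul_zero, add_zero]
      · rw [add_mul, h7, ← h7, ← mul_assoc, hyx, zero_mul, add_zero]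
  · intro j hj hjj hj0 hl h
    refine ⟨j, hj, hjj, hj0, hl, hjj, hjj, ?_⟩
    have hcor : IsCor (fx (ResField M) P) j (j * c * j) :=
      ⟨(fx _ P).mul_mem ((fx _ P).mul_mem hj hc) hj, by rw [← mul_assoc, ← mul_assoc, hjj], by rw [mul_assoc, hjj]⟩
    obtain ⟨a, ha⟩ := hl _ hcor
    have h1 : Kap M χ (c * j) = Kap M χ (j * c * j) := by
      rw [← hjj, ← mul_assoc, Kap_comm hχl hχc, hjj, ← mul_assoc]
    have h2 := Kap_nil hM hχ ha
    have e : j * c * j = (j * c * j - a • j) + a • j := by abel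
    rw [h1, e, Kap_add, h2, zero_add, Kap_smul] at h
    exact right_ne_zero_of_mul h

/-- Orbit cardinalities. -/
theorem card_orbit_mul {P : Subgroup G} {a₀ : MonoidAlgebra (ResField M) G} {I : Finset (MonoidAlgebra (ResField M) G)}
    (hall : ∀ a ∈ I, ∃ y ∈ P, a = cj (ResField M) y a₀) (hclosed : ∀ y ∈ P, cj (ResField M) y a₀ ∈ I) :
    Nat.card P = I.card * Nat.card ((stabS P a₀).subgroupOf P) := by
  classical
  have h1 := Finset.card_eq_sum_card_fiberwise (s := (Finset.univ : Finset P)) (t := I)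
    (f := fun x : P => cj (ResField M) (x : G) a₀) (fun x _ => hclosed x x.2)
  rw [Nat.card_eq_fintype_card, ← Finset.card_univ, h1]
  rw [Finset.sum_congr rfl (g := fun _ => Nat.card ((stabS P a₀).subgroupOf P))]
  · rw [Finset.sum_const, smul_eq_mul]
  · intro a ha
    obtain ⟨y, hy, rfl⟩ := hall a ha
    exact card_fiber (x₀ := ⟨y, hy⟩) rfl

/-- A local idempotent with nonzero value has nonzero Brauer image. -/
theorem br_ne_of_Kap (hM : IsPModular p M) {χ : G → ℂ} (hχ : IsCharacter G χ) {P : Subgroup G} (hP : IsPGroup p P)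
    {i : MonoidAlgebra (ResField M) G} (hii : i * i = i) (hi0 : i ≠ 0) (hiP : i ∈ fx (ResField M) P)
    (hil : IsLoc (fx (ResField M) P) i) (hK : Kap M χ i ≠ 0) : br P i ≠ 0 := by
  classical
  intro hbr
  haveI := charP_resField hM
  have hχc : IsClassFunction G χ := IsCharacter.isClassFunction hχ
  obtain ⟨a₀, I, hch, hloc⟩ := chainL (F := ResField M) _ P i rfl hP hii hi0 hiP hil
  by_cases hS : stabS P a₀ = P
  · have ha₀ : a₀ ∈ fx (ResField M) P := by
      have := mem_fx_stabS P a₀
      rwa [hS] at this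
    have hI : I = {a₀} := by
      apply Finset.eq_singleton_iff_unique_mem.2
      refine ⟨hch.mem, fun a ha => ?_⟩
      obtain ⟨y, hy, rfl⟩ := hch.all a ha
      exact cj_of_mem_fx ha₀ hy
    have hi : a₀ = i := by
      have := hch.sum
      rwa [hI, Finset.sum_singleton] at this
    have := hloc a₀ hch.mem
    rw [hS, hi] at this
    exact this.2 hbr
  · apply hK
    have hcard := card_orbit_mul hch.all hch.closed
    have hdvd : p ∣ I.card := by
      obtain ⟨k, hk⟩ := IsPGroup.iff_card.1 hP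
      have h1 : I.card ∣ p ^ k := ⟨_, by rw [← hk, hcard]⟩
      obtain ⟨l, -, hl⟩ := (Nat.dvd_prime_pow hp.out).1 h1
      rcases Nat.eq_zero_or_pos l with rfl | hl0
      · exfalso
        rw [hl, pow_zero, one_mul] at hcard
        apply hS
        have h2 : (stabS P a₀).subgroupOf P = ⊤ := by
          apply Subgroup.eq_top_of_card_eq
          rw [← hcard]
        apply le_antisymm (stabS_le P a₀)
        exact Subgroup.subgroupOf_eq_top.1 h2
      · rw [hl]
        exact dvd_pow_self p hl0.ne'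
    rw [← hch.sum, Kap_sum]
    rw [Finset.sum_congr rfl (g := fun _ => Kap M χ a₀)]
    · rw [Finset.sum_const]
      obtain ⟨c, hc⟩ := hdvd
      rw [hc, mul_smul, nsmul_eq_mul]
      have : ((p : ℕ) : ResField M) = 0 := CharP.cast_eq_zero _ p
      simp [this]
    · intro a ha
      obtain ⟨y, hy, rfl⟩ := hch.all a ha
      exact Kap_cj hχc y a₀

end Kap

section Source

variable {G : Type*} [Group G] [Fintype G] {p : ℕ} [hp : Fact p.Prime] {M : Ideal AlgInt} [hMp : M.IsPrime]
variable {B : Set (IrrCharacter G)} {P : Subgroup G} {e : Set (IrrCharacter (Cen P))}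

local notation "Bcj" => Cfsg.Agent.Lib.BPair.cj
local notation "ZP" => Subgroup.zpowers

/-- The nonvanishing product at a pair. -/
noncomputable def WW (M : Ideal AlgInt) [M.IsPrime] (i : MonoidAlgebra (ResField M) G) (a : BrauerPairIdx G) :
    MonoidAlgebra (ResField M) G := br a.1 i * ebar M a.1 a.2

theorem cj_WW (x : G) (i : MonoidAlgebra (ResField M) G) (a : BrauerPairIdx G) :
    cj (ResField M) x (WW M i a) = WW M (cj (ResField M) x i) (conjIdx x a) := by
  unfold WW
  rw [map_mul, cj_br, ebar_conj]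
  rfl

/-- **Existence of a source idempotent with nonzero value.** -/
theorem exists_source (hM : IsPModular p M) (hmax : IsMaximalBrauerPair p M B P e) {χ₀ : IrrCharacter G} (hχ₀ : χ₀ ∈ B)
    (h0 : (charDegree (χ₀ : G → ℂ)).factorization p = minExp p B) :
    ∃ i, i ∈ fx (ResField M) P ∧ i * i = i ∧ IsLoc (fx (ResField M) P) i ∧ i * rd M (blockElt B) = i ∧
      br P i * ebar M P e ≠ 0 ∧ Kap M (χ₀ : G → ℂ) i ≠ 0 := by
  classical
  have hB : IsPBlock M B := hmax.1.2.1
  have hPp : IsPGroup p P := hmax.1.1.1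
  have hD := isDefectGroup_of_max hM hmax
  obtain ⟨y, hy, P₀, hPeq⟩ := id hD
  have hyc : ∀ v ∈ P, v * y = y * v := by
    intro v hv
    rw [hPeq, Subgroup.mem_map] at hv
    obtain ⟨w, hw, rfl⟩ := hv
    have h1 := w.2
    rw [Subgroup.mem_centralizer_iff] at h1
    exact (h1 y rfl).symm
  set c := gg (ResField M) y with hc
  have hcP : c ∈ fx (ResField M) P := mem_fx.2 fun s hs => by rw [hc, gg_mul, gg_mul, hyc s hs]
  set j := rd M (blockElt B) with hj
  have hBl : LocalCoeff M (blockElt B) := localCoeff_blockElt (isBlockUnion_of_isPBlock hB)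
  have hjT : j ∈ fx (ResField M) (⊤ : Subgroup G) := rd_mem_fx (IsCentralElt.isInvBy _ (isCentralElt_blockElt B))
  have hjP : j ∈ fx (ResField M) P := fx_mono le_top hjT
  have hjj : j * j = j := by rw [hj, ← rd_mul hBl hBl, blockElt_mul_self]
  have hχ : IsCharacter G (χ₀ : G → ℂ) := IsIrrCharacter.isCharacter χ₀.2
  have hχl : ∀ g, MemLocalRing M ((χ₀ : G → ℂ) g) := fun g => char_localRing hχ g
  have hχc : IsClassFunction G (χ₀ : G → ℂ) := IsCharacter.isClassFunction hχ
  have hK : Kap M (χ₀ : G → ℂ) (c * j) ≠ 0 := by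
    have e1 : c * j = rd M (MonoidAlgebra.single y 1 * blockElt B) := by
      rw [rd_mul (localCoeff_single y memLocalRing_one) hBl, rd_single]
    rw [e1, Kap_rd hχl (localCoeff_mul (localCoeff_single y memLocalRing_one) hBl),
      tr_mul_central' χ₀.2 (isCentralElt_blockElt B), om_blockElt_of_mem hχ₀, one_mul, tr_single, one_mul]
    exact (red_ne_zero_iff (hχl y)).2 (not_memLocalIdeal_char_defect hM hB hy hχ₀ h0)
  obtain ⟨i, hiP, hii, hi0, hil, hij, hji, hKi⟩ := exists_prim_Kap hM hχ hcP j hjP hjj hK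
  have hbr := br_ne_of_Kap hM hχ hPp hii hi0 hiP hil hKi
  obtain ⟨e', he', hne⟩ := exists_ebar_ne (M := M) P hbr
  have hpair := isBrauerPairOf_of_label hM hB hPp he' hiP hij hne
  have hmax' := isMaximal_of_defect hM hD hpair
  obtain ⟨x, hx⟩ := exists_conj_of_max hM hmax hmax'
  have hP1 : conjS x P = P := (congrArg Sigma.fst hx).symm
  have hinv : conjS x⁻¹ P = P := by
    conv_lhs => rw [← hP1]
    ext g
    rw [mem_conjS, mem_conjS, inv_inv]
    simp [mul_assoc]
  refine ⟨cj (ResField M) x⁻¹ i, ?_, ?_, ?_, ?_, ?_, ?_⟩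
  · have h1 : cj (ResField M) x⁻¹ i ∈ fx (ResField M) (conjS x⁻¹ P) := fx_conjS.2 hiP
    rwa [hinv] at h1
  · rw [← map_mul, hii]
  · have h1 := hil.conj x⁻¹
    rwa [hinv] at h1
  · conv_lhs => rw [← cj_of_mem_fx hjT (Subgroup.mem_top x⁻¹)]
    rw [← map_mul, hij]
  · intro h
    have h1 : WW M (cj (ResField M) x⁻¹ i) ⟨P, e⟩ = 0 := h
    have h2 := congrArg (cj (ResField M) x) h1
    rw [cj_WW, map_zero, cj_cj_inv, ← hx] at h2
    exact hne h2
  · rw [Kap_cj hχc]
    exact hKi

theorem Kap_gg_mul (hM : IsPModular p M) {χ : G → ℂ} (hχ : IsCharacter G χ) {P : Subgroup G} (hP : IsPGroup p P)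
    {i : MonoidAlgebra (ResField M) G} (hii : i * i = i) (hi : i ∈ fx (ResField M) P) {v : G} (hv : v ∈ P) :
    Kap M χ (gg (ResField M) v * i) = Kap M χ i := by
  classical
  haveI := charP_resField hM
  haveI hcharA : CharP (MonoidAlgebra (ResField M) G) p :=
    charP_of_injective_algebraMap (algebraMap (ResField M) (MonoidAlgebra (ResField M) G)).injective p
  obtain ⟨c, hc⟩ := pow_of_mem_pgroup hP hv
  have hcomm : Commute (gg (ResField M) v - 1) i := by
    have h1 := mem_fx.1 hi v hv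
    exact (Commute.sub_left h1 (Commute.one_left i))
  have hnil : IsNilpotent ((gg (ResField M) v - 1) * i) := by
    refine ⟨p ^ c, ?_⟩
    rw [hcomm.mul_pow, sub_pow_char_pow_of_commute p c (Commute.one_right _), one_pow]
    have h2 : gg (ResField M) v ^ p ^ c = gg (ResField M) (v ^ p ^ c) := by
      rw [MonoidAlgebra.single_pow, one_pow]
    rw [h2, hc, gg_one, sub_self, zero_mul]
  have e : gg (ResField M) v * i = (gg (ResField M) v - 1) * i + i := by
    rw [sub_mul, one_mul, sub_add_cancel]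
  rw [e, Kap_add, Kap_nil hM hχ hnil, zero_add]

/-- The twisted traces of a source idempotent do not vanish. -/
theorem tr_shift_ne_of_Kap (hM : IsPModular p M) {χ : G → ℂ} (hχ : IsCharacter G χ) {P : Subgroup G} (hP : IsPGroup p P)
    {i : MonoidAlgebra (ResField M) G} (hii : i * i = i) (hi : i ∈ fx (ResField M) P) (hK : Kap M χ i ≠ 0)
    {î : MonoidAlgebra ℂ G} (hîl : LocalCoeff M î) (hrd : rd M î = i) {v : G} (hv : v ∈ P) :
    ¬ MemLocalIdeal M (tr (fun g => χ (v * g)) î) := by
  intro h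
  apply hK
  have hχl : ∀ g, MemLocalRing M (χ g) := fun g => char_localRing hχ g
  rw [← Kap_gg_mul hM hχ hP hii hi hv, ← hrd]
  have e1 : gg (ResField M) v * rd M î = rd M (MonoidAlgebra.single v 1 * î) := by
    rw [rd_mul (localCoeff_single v memLocalRing_one) hîl, rd_single]
  rw [e1, Kap_rd hχl (localCoeff_mul (localCoeff_single v memLocalRing_one) hîl), tr_single_mul']
  exact red_eq_zero h

theorem isClassFunction_blockPart {C : Type*} [Group C] [Fintype C] (b : Set (IrrCharacter C)) (f : C → ℂ) :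
    IsClassFunction C (blockPart b f) := by
  classical
  intro g h
  rw [blockPart_eq_sum, blockPart_eq_sum]
  refine Finset.sum_congr rfl fun χ _ => ?_
  split_ifs
  · rw [IsCharacter.isClassFunction (IsIrrCharacter.isCharacter χ.2) g h]
  · rfl

/-- The trace of a block part. -/
theorem tr_blockPart {C : Type*} [Group C] [Fintype C] (b : Set (IrrCharacter C)) {f : C → ℂ} (hf : IsClassFunction C f)
    (z : MonoidAlgebra ℂ C) : tr (blockPart b f) z = tr f (blockElt b * z) := by
  classical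
  conv_rhs => rw [eq_sum_single z, Finset.mul_sum, tr_sum]
  unfold tr
  refine Finset.sum_congr rfl fun g _ => ?_
  rw [blockPart_eq_tr b f hf]
  have e : MonoidAlgebra.single g (z.coeff g) = z.coeff g • (MonoidAlgebra.single g (1 : ℂ)) := by simp
  rw [e, mul_smul_comm]
  unfold tr
  simp only [MonoidAlgebra.coeff_smul, Finsupp.smul_apply, smul_eq_mul]
  rw [Finset.mul_sum]
  refine Finset.sum_congr rfl fun h _ => ?_
  ring

/-- Local idempotents do not see functions vanishing on regular elements. -/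
theorem tr_idem_eq_zero (hM : IsPModular p M) {C : Type*} [Group C] [Fintype C] {z : MonoidAlgebra ℂ C} (hzl : LocalCoeff M z)
    (hzz : z * z = z) {φ : C → ℂ} (hφl : ∀ g, MemLocalRing M (φ g)) (hφ : IsClassFunction C φ)
    (h0 : ∀ g, ¬ p ∣ orderOf g → φ g = 0) : tr φ z = 0 := by
  refine tr_eq_zero_of_rotation hM z hzl φ hφl (fun x g => hφ g x) ((Nat.card C).factorization p) ?_ ?_
  · intro g
    exact h0 _ (not_dvd_orderOf_pow_ordProj hp.out g)
  · intro k
    exact ⟨k, le_rfl, idem_pow hzz (pow_pos hp.out.pos k).ne'⟩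

/-- **The section of a character at a point of the source does not vanish.** -/
theorem sec_ne_zero (hM : IsPModular p M) (hPe : IsBrauerPair p M P e) {i : MonoidAlgebra (ResField M) G} (hii : i * i = i)
    (hiP : i ∈ fx (ResField M) P) (hil : IsLoc (fx (ResField M) P) i) (hbr : br P i * ebar M P e ≠ 0)
    {î : MonoidAlgebra ℂ G} (hîl : LocalCoeff M î) (hîî : î * î = î) (hrd : rd M î = i) (hinv : IsInvBy P î)
    {u : G} (hu : u ∈ P) {b : Set (IrrCharacter (Cen (ZP u)))} (hb : IsPBlock M b) (hle : SubpairLE p M (ZP u) b P e)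
    {χ : G → ℂ} (hχ : IsCharacter G χ) (hne : tr (fun g => χ (u * g)) î ≠ 0) : sec p (ZP u) b u χ ≠ 0 := by
  classical
  intro hsec
  have hPp : IsPGroup p P := hPe.1
  have hχl : ∀ g, MemLocalRing M (χ g) := fun g => char_localRing hχ g
  have hχc : IsClassFunction G χ := IsCharacter.isClassFunction hχ
  have hχc' : ∀ x g, χ (x * g * x⁻¹) = χ g := fun x g => hχc g x
  obtain ⟨c, hc⟩ := pow_of_mem_pgroup hPp hu
  have hUP : ZP u ≤ P := (Subgroup.zpowers_le).2 hu
  have hUp : IsPGroup p (ZP u) := isPGroup_zpowers hc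
  have hinvU : IsInvBy (ZP u) î := fun t ht g => hinv t (hUP ht) g
  haveI := charP_resField hM
  have hT := hasT_of_idem hM hc hîl hîî hinvU χ hχl hχc'
  rw [hrd] at hT
  -- the Brauer image lies in the block `b`
  have hsplit : ebar M (ZP u) b * br (ZP u) i = br (ZP u) i := by
    have h1 : ∀ b' : Blocks M (Cen (ZP u)), b'.1 ≠ b → ebar M (ZP u) b'.1 * br (ZP u) i = 0 := by
      intro b' hb'
      by_contra hcon
      apply hb'
      have h2 : br (ZP u) i * ebar M (ZP u) b'.1 ≠ 0 := by
        rwa [ebar_comm _ _ (br_mem_sA _ i)]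
      have h3 := label_le hM _ P rfl hPp i hii hiP hil e hPe.2 hbr _ (ZP u) rfl hUP b'.1 b'.2 h2
      exact (existsUnique_subpair hM hPe hUP).unique ⟨b'.2, h3⟩ ⟨hb, hle⟩
    conv_rhs => rw [← one_mul (br (ZP u) i), ← sum_ebar (M := M) (ZP u), Finset.sum_mul]
    rw [Finset.sum_eq_single (⟨b, hb⟩ : Blocks M (Cen (ZP u)))]
    · intro b' _ hb'
      exact h1 b' fun h => hb' (Subtype.ext h)
    · intro h
      exact absurd (Finset.mem_univ _) h
  obtain ⟨y, hyl, hyy, hys, hrdy, hty⟩ := hT
  -- the component in the block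
  have hEeS : Ee (ZP u) b ∈ sA ℂ (CU u) := fun g hg => coeff_incl_of_notMem _ _ hg
  have hEeF : Ee (ZP u) b ∈ fx ℂ (CU u) := by
    rw [mem_fx]
    intro s hs
    have := (isInvBy_iff_commute _ _).1 (isInvBy_Ee_of_le (Q := ZP u) le_rfl b) s hs
    exact this
  have hcm : y * Ee (ZP u) b = Ee (ZP u) b * y := sA_commute hys hEeF
  set y' := Ee (ZP u) b * y with hy'
  have hy'l : LocalCoeff M y' := localCoeff_mul (localCoeff_Ee hb) hyl
  have hy'y' : y' * y' = y' := by
    rw [hy', mul_assoc, ← mul_assoc y, hcm, mul_assoc, hyy, ← mul_assoc, Ee_mul_self]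
  have hy's : y' ∈ sA ℂ (CU u) := (sA ℂ _).mul_mem hEeS hys
  have hrdy' : rd M y' = br (ZP u) i := by
    rw [hy', rd_mul (localCoeff_Ee hb) hyl, hrdy]
    exact hsplit
  have hT' : HasT M u χ (br (ZP u) i) (tr (fun g => χ (u * g)) y') := ⟨y', hy'l, hy'y', hy's, hrdy', rfl⟩
  have hT0 : HasT M u χ (br (ZP u) i) (tr (fun g => χ (u * g)) î) := ⟨y, hyl, hyy, hys, hrdy, hty⟩
  have heq := hT'.unique hM hχc' hT0
  apply hne
  rw [← heq, hy']
  -- transfer to the centralizer
  set z : MonoidAlgebra ℂ (Cen (ZP u)) := resAlg (Cen (ZP u)) y with hz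
  have hinc : incl (Cen (ZP u)) z = y := incl_resAlg_of_support hys
  have hzl : LocalCoeff M z := localCoeff_resAlg _ hyl
  have hzz : z * z = z := resAlg_mul_self_of_support hys hyy
  have huU : u ∈ ZP u := Subgroup.mem_zpowers u
  have hfc : IsClassFunction (Cen (ZP u)) (fun c : Cen (ZP u) => χ (u * c)) := isClass_shift huU hχc
  have e1 : Ee (ZP u) b * y = incl (Cen (ZP u)) (blockElt b * z) := by
    rw [map_mul, hinc]
    rfl
  rw [e1, tr_incl, ← tr_blockPart b hfc]
  apply tr_idem_eq_zero hM hzl hzz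
  · intro g
    rw [blockPart_eq_tr b _ hfc]
    unfold tr
    refine memLocalRing_sum _ _ fun h _ => memLocalRing_mul ?_ (hχl _)
    exact localCoeff_mul (localCoeff_blockElt (isBlockUnion_of_isPBlock hb)) (localCoeff_single g memLocalRing_one) h
  · exact isClassFunction_blockPart b _
  · intro g hg
    have h2 := congrFun hsec g
    rw [sec_of_reg huU hχc b hg, sv_eq_blockPart huU hχc] at h2
    exact h2

end Source

end Cfsg.Agent.Lib.Modular
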