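import Mathlib
import Cfsg.Agent.Lib.Modular.Kulsh
import Cfsg.Agent.Lib.Modular.BlockCenter
import Cfsg.Agent.Lib.Modular.ThmD
import Cfsg.Agent.Lib.Modular.Units
import Cfsg.Agent.Lib.CharExtra.PRegRank

/-!
# The block algebra over the residue field of the local ring, for blocks of rank one

Reduction of ranks, centres; for blocks of `p`-regular rank one the block algebra has one simple module,
of dimension dividing every degree in the block.
-/

set_option autoImplicit false
set_option linter.unusedSectionVars false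
set_option linter.unusedSimpArgs false
set_option linter.unusedVariables false
set_option linter.style.haveILetI false
set_option linter.unnecessarySimpa false

namespace Cfsg.Agent.Lib.Modular

open Module Cfsg Cfsg.Agent.Lib.Block Cfsg.Agent.Lib.CharExtra Cfsg.Agent.Lib.Char Polynomial

section Dim

variable {G : Type*} [Group G] [Fintype G] {M : Ideal AlgInt} [hMp : M.IsPrime]

/-- Independence of reductions implies independence. -/
theorem indep_of_rd {I : Type*} [Fintype I] (y : I → MonoidAlgebra ℂ G) (hy : ∀ i, LocalCoeff M (y i))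
    (h : LinearIndependent (ResField M) (fun i => rd M (y i))) : LinearIndependent ℂ y := by
  classical
  have hinj := linearIndependent_iff_injective_fintypeLinearCombination.1 h
  obtain ⟨L, hL⟩ := (Fintype.linearCombination (ResField M) (fun i => rd M (y i))).exists_leftInverse_of_injective
    (LinearMap.ker_eq_bot.2 hinj)
  have hL' : ∀ j, L (rd M (y j)) = Pi.single j 1 := by
    intro j
    have h1 := LinearMap.congr_fun hL (Pi.single j 1)
    simp only [LinearMap.comp_apply, LinearMap.id_apply, Fintype.linearCombination_apply_single, one_smul] at h1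
    exact h1
  have hc : ∀ (i : I) (g : G), ∃ c : localRing M, Ideal.Quotient.mk (localIdealSub M) c =
      L (MonoidAlgebra.single g 1) i := fun i g => Ideal.Quotient.mk_surjective _
  choose c hc using hc
  let X' : Matrix I I (localRing M) := fun i j => ∑ g, c i g * ⟨(y j).coeff g, hy j g⟩
  have hX1 : (Ideal.Quotient.mk (localIdealSub M)).mapMatrix X' = 1 := by
    ext i j
    show Ideal.Quotient.mk (localIdealSub M) (∑ g, c i g * ⟨(y j).coeff g, hy j g⟩) = _
    rw [map_sum]
    have h2 : ∀ g, (Ideal.Quotient.mk (localIdealSub M)) (c i g * ⟨(y j).coeff g, hy j g⟩) =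
        red M ((y j).coeff g) * L (MonoidAlgebra.single g 1) i := by
      intro g
      rw [map_mul, hc, red_of_mem (hy j g), mul_comm]
    simp only [h2]
    have h3 : rd M (y j) = ∑ g, red M ((y j).coeff g) • (MonoidAlgebra.single g 1 : MonoidAlgebra (ResField M) G) := by
      conv_lhs => rw [eq_sum_gg (rd M (y j))]
      refine Finset.sum_congr rfl fun g _ => ?_
      rw [coeff_rd]
    have h4 := congrArg (fun t => L t i) h3
    simp only [map_sum, map_smul, Finset.sum_apply, Pi.smul_apply, smul_eq_mul] at h4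
    rw [← h4, hL' j, Matrix.one_apply, Pi.single_apply]
  have hdet : X'.det ≠ 0 := by
    intro h0
    have h1 := (Ideal.Quotient.mk (localIdealSub M)).map_det X'
    rw [hX1, Matrix.det_one, h0, map_zero] at h1
    exact zero_ne_one h1
  let X : Matrix I I ℂ := fun i j => ((X' i j : localRing M) : ℂ)
  have hdetX : X.det ≠ 0 := by
    have h1 := (localRing M).subtype.map_det X'
    have h2 : (localRing M).subtype.mapMatrix X' = X := by
      ext i j
      rfl
    rw [h2] at h1
    rw [← h1]
    intro h3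
    exact hdet (Subtype.ext h3)
  rw [Fintype.linearIndependent_iff]
  intro t ht
  have hmv : X.mulVec t = 0 := by
    funext i
    simp only [Matrix.mulVec, dotProduct, Pi.zero_apply, X, X']
    have h1 : ∀ j, (((∑ g, c i g * ⟨(y j).coeff g, hy j g⟩ : localRing M)) : ℂ) * t j =
        ∑ g, (c i g : ℂ) * (t j * (y j).coeff g) := by
      intro j
      rw [AddSubmonoidClass.coe_finset_sum, Finset.sum_mul]
      refine Finset.sum_congr rfl fun g _ => ?_
      show (c i g : ℂ) * (y j).coeff g * t j = _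
      ring
    simp only [h1]
    rw [Finset.sum_comm]
    refine Finset.sum_eq_zero fun g _ => ?_
    rw [← Finset.mul_sum]
    have h2 : (∑ j, t j • y j).coeff g = (0 : MonoidAlgebra ℂ G).coeff g := by rw [ht]
    have h3 : (∑ j, t j • y j).coeff g = ∑ j, t j * (y j).coeff g := by
      have h5 : ∀ (s : Finset I), (∑ j ∈ s, t j • y j).coeff g = ∑ j ∈ s, t j * (y j).coeff g := by
        intro s
        induction s using Finset.induction_on with
        | empty => simp
        | insert a s ha ih =>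
          rw [Finset.sum_insert ha, Finset.sum_insert ha, coeff_add', ih, MonoidAlgebra.coeff_smul,
            Finsupp.smul_apply, smul_eq_mul]
      exact h5 _
    rw [← h3, h2]
    simp
  exact fun i => congrFun (Matrix.eq_zero_of_mulVec_eq_zero hdetX hmv) i

/-- Rank of left multiplication can only drop under reduction. -/
theorem finrank_range_le_rd {w : MonoidAlgebra ℂ G} (hw : LocalCoeff M w) :
    finrank (ResField M) (LinearMap.range (LinearMap.mulLeft (ResField M) (rd M w))) ≤
      finrank ℂ (LinearMap.range (LinearMap.mulLeft ℂ w)) := by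
  classical
  haveI : FiniteDimensional (ResField M) (MonoidAlgebra (ResField M) G) :=
    Module.Finite.of_basis (MonoidAlgebra.basis G _)
  haveI : FiniteDimensional ℂ (MonoidAlgebra ℂ G) := Module.Finite.of_basis (MonoidAlgebra.basis G _)
  set W := LinearMap.range (LinearMap.mulLeft (ResField M) (rd M w)) with hW
  let b := Module.finBasis (ResField M) W
  have hb : ∀ i, ∃ U, LocalCoeff M U ∧ rd M (w * U) = (b i : MonoidAlgebra _ G) := by
    intro i
    obtain ⟨u, hu⟩ := (b i).2
    obtain ⟨U, hU, rfl⟩ := exists_lift u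
    exact ⟨U, hU, by rw [rd_mul hw hU]; exact hu⟩
  choose U hUl hU using hb
  have h1 : LinearIndependent (ResField M) (fun i => rd M (w * U i)) := by
    simp only [hU]
    exact b.linearIndependent.map' W.subtype (Submodule.ker_subtype W)
  have h2 := indep_of_rd _ (fun i => localCoeff_mul hw (hUl i)) h1
  have h3 : LinearIndependent ℂ (fun i => (⟨w * U i, ⟨U i, rfl⟩⟩ : LinearMap.range (LinearMap.mulLeft ℂ w))) :=
    LinearIndependent.of_comp (LinearMap.range (LinearMap.mulLeft ℂ w)).subtype h2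
  have h4 := h3.fintype_card_le_finrank
  simpa using h4

/-- An idempotent and its reduction have the same rank. -/
theorem finrank_range_eq_rd {w : MonoidAlgebra ℂ G} (hw : LocalCoeff M w) (hww : w * w = w) :
    finrank (ResField M) (LinearMap.range (LinearMap.mulLeft (ResField M) (rd M w))) =
      finrank ℂ (LinearMap.range (LinearMap.mulLeft ℂ w)) := by
  haveI : FiniteDimensional (ResField M) (MonoidAlgebra (ResField M) G) :=
    Module.Finite.of_basis (MonoidAlgebra.basis G _)
  haveI : FiniteDimensional ℂ (MonoidAlgebra ℂ G) := Module.Finite.of_basis (MonoidAlgebra.basis G _)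
  have h1 := finrank_range_le_rd hw
  have hw' : LocalCoeff M (1 - w) := localCoeff_sub localCoeff_one hw
  have h2 := finrank_range_le_rd hw'
  rw [rd_sub localCoeff_one hw, rd_one] at h2
  have h3 := finrank_range_add_compl (K := ResField M) (rd M w) (by rw [← rd_mul hw hw, hww])
  have h4 := finrank_range_add_compl (K := ℂ) w hww
  rw [finrank_monoidAlgebra] at h3 h4
  omega

/-- Central lifts of central elements. -/
theorem exists_central_lift_rd (v : MonoidAlgebra (ResField M) G) (hv : ∀ x, v * x = x * v) :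
    ∃ w : MonoidAlgebra ℂ G, LocalCoeff M w ∧ IsCentralElt w ∧ rd M w = v := by
  have h1 : v ∈ fx (ResField M) (⊤ : Subgroup G) := by
    rw [mem_fx]
    intro s _
    exact (hv _).symm
  obtain ⟨a, ha1, ha2, ha3⟩ := exists_lift_inv ⊤ h1
  exact ⟨a, ha1, fun x g => ha3 x (Subgroup.mem_top x) g, ha2⟩

variable [Fintype (ConjClasses G)] {p : ℕ} {B : Set (IrrCharacter G)}

/-- The `F`-centre of the block has dimension at most `k(B)`. -/
theorem finrank_center_le_rd (hE : LocalCoeff M (blockElt B)) :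
    finrank (ResField M) (corner (ResField M) (rd M (blockElt B)) ⊓ centerSub (ResField M) (MonoidAlgebra (ResField M) G) :
      Submodule (ResField M) (MonoidAlgebra (ResField M) G)) ≤ Nat.card B := by
  classical
  haveI : FiniteDimensional (ResField M) (MonoidAlgebra (ResField M) G) :=
    Module.Finite.of_basis (MonoidAlgebra.basis G _)
  haveI : FiniteDimensional ℂ (MonoidAlgebra ℂ G) := Module.Finite.of_basis (MonoidAlgebra.basis G _)
  set ZZ : Submodule (ResField M) (MonoidAlgebra (ResField M) G) :=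
    corner (ResField M) (rd M (blockElt B)) ⊓ centerSub (ResField M) _ with hZZ
  let b := Module.finBasis (ResField M) ZZ
  have hb : ∀ i, ∃ y : MonoidAlgebra ℂ G, LocalCoeff M y ∧ rd M y = (b i : MonoidAlgebra (ResField M) G) ∧
      y ∈ Submodule.span ℂ (Set.range fun χ : B => blockElt ({(χ : IrrCharacter G)} : Set _)) := by
    intro i
    obtain ⟨w, hwl, hw1, hw2⟩ := exists_central_lift_rd (b i : MonoidAlgebra (ResField M) G) (b i).2.2
    refine ⟨blockElt B * w, localCoeff_mul hE hwl, ?_, ?_⟩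
    · rw [rd_mul hE hwl, hw2]
      exact (b i).2.1
    · have hz : IsCentralElt (blockElt B * w) :=
        isCentralElt_mul (isCentralElt_blockElt B) hw1
      have h1 : blockElt B * w =
          ∑ χ : IrrCharacter G, if χ ∈ B then om (χ : G → ℂ) w •
            blockElt ({χ} : Set (IrrCharacter G)) else 0 := by
        refine central_ext_om hz (isCentralElt_sum _ _ fun χ _ => ?_) fun ψ => ?_
        · split_ifs
          · exact isCentralElt_smul _ (isCentralElt_blockElt _)
          · exact isCentralElt_zero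
        · rw [om_mul ψ.2 (isCentralElt_blockElt B), om_blockElt, om_sum]
          have h2 : ∀ χ : IrrCharacter G, om (ψ : G → ℂ) (if χ ∈ B then om (χ : G → ℂ) w •
              blockElt ({χ} : Set (IrrCharacter G)) else 0) =
              if χ = ψ then (if ψ ∈ B then om (ψ : G → ℂ) w else 0) else 0 := by
            intro χ
            by_cases h3 : χ ∈ B
            · rw [if_pos h3]
              by_cases h4 : χ = ψ
              · subst h4
                rw [if_pos rfl, if_pos h3, om_smul, om_blockElt, if_pos (Set.mem_singleton _), mul_one]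
              · rw [if_neg h4, om_smul, om_blockElt,
                  if_neg (fun h => h4 (Set.mem_singleton_iff.1 h).symm), mul_zero]
            · rw [if_neg h3, om_zero]
              by_cases h4 : χ = ψ
              · subst h4
                simp [h3]
              · simp [h4]
          simp only [h2, Finset.sum_ite_eq', Finset.mem_univ, if_true]
          split_ifs <;> simp
      rw [h1]
      refine Submodule.sum_mem _ fun χ _ => ?_
      split_ifs with h3
      · exact Submodule.smul_mem _ _ (Submodule.subset_span ⟨⟨χ, h3⟩, rfl⟩)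
      · exact Submodule.zero_mem _
  choose y hyl hy1 hy2 using hb
  have h1 : LinearIndependent (ResField M) (fun i => rd M (y i)) := by
    simp only [hy1]
    exact b.linearIndependent.map' ZZ.subtype (Submodule.ker_subtype ZZ)
  have h2 := indep_of_rd _ hyl h1
  set L := Submodule.span ℂ (Set.range fun χ : B => blockElt ({(χ : IrrCharacter G)} : Set _)) with hL
  have h3 : LinearIndependent ℂ (fun i => (⟨y i, hy2 i⟩ : L)) :=
    LinearIndependent.of_comp L.subtype h2
  have h4 := h3.fintype_card_le_finrank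
  have h5 : finrank ℂ L ≤ Fintype.card B := finrank_range_le_card _
  rw [Nat.card_eq_fintype_card]
  simp only [Fintype.card_fin] at h4
  exact h4.trans h5

end Dim

section PartA

variable {G : Type*} [Group G] [Fintype G] {p : ℕ} [hp : Fact p.Prime] {M : Ideal AlgInt} [hMp : M.IsPrime]
  {B : Set (IrrCharacter G)}

/-- A symmetric functional over the residue field comes from a class function with local values. -/
theorem exists_class_lift (τ : MonoidAlgebra (ResField M) G →ₗ[ResField M] ResField M)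
    (hτ : ∀ a b, τ (a * b) = τ (b * a)) :
    ∃ h : G → ℂ, (∀ g, MemLocalRing M (h g)) ∧ IsClassFunction G h ∧ ∀ w, Kap M h w = τ w := by
  classical
  let x : MonoidAlgebra (ResField M) G := ofFun fun g => τ (gg _ g)
  have hx : x ∈ fx (ResField M) (⊤ : Subgroup G) := by
    apply mem_fx_of_cj
    intro s _
    apply ext_coeff
    intro g
    rw [coeff_cj]
    simp only [x, coeff_ofFun]
    have e1 : gg (ResField M) (s⁻¹ * g * s) = gg (ResField M) s⁻¹ * gg (ResField M) (g * s) := by
      rw [gg_mul, mul_assoc]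
    have e2 : gg (ResField M) (g * s) * gg (ResField M) s⁻¹ = gg (ResField M) g := by
      rw [← gg_mul]
      simp
    rw [e1, hτ, e2]
  obtain ⟨a, ha1, ha2, ha3⟩ := exists_lift_inv ⊤ hx
  refine ⟨fun g => a.coeff g, ha1, fun y g => ha3 g (Subgroup.mem_top g) y, fun w => ?_⟩
  unfold Kap
  conv_rhs => rw [eq_sum_gg w]
  rw [map_sum]
  refine Finset.sum_congr rfl fun g _ => ?_
  rw [map_smul, smul_eq_mul]
  congr 1
  rw [← coeff_rd, ha2]
  simp only [x, coeff_ofFun]

theorem localCoeff_idem_lift (hM : IsPModular p M) {f : MonoidAlgebra (ResField M) G} (hff : f * f = f) :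
    ∃ y, LocalCoeff M y ∧ y * y = y ∧ rd M y = f := by
  obtain ⟨a, hal, har⟩ := exists_lift f
  have h2 : LocalIdealCoeff M (a * a - a) := by
    rw [← rd_eq_iff (localCoeff_mul hal hal) hal, rd_mul hal hal, har, hff]
  obtain ⟨q, c1, c2, c3⟩ := exists_idem_lift hM hal h2
  refine ⟨_, c2, c1, ?_⟩
  rw [← har]
  exact (rd_eq_iff c2 hal).2 c3

/-- Idempotents of the block algebra lift to the block. -/
theorem exists_idem_lift_block (hM : IsPModular p M) (hE : LocalCoeff M (blockElt B))
    {f : MonoidAlgebra (ResField M) G} (hff : f * f = f) (hef : rd M (blockElt B) * f = f) :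
    ∃ y, LocalCoeff M y ∧ y * y = y ∧ rd M y = f ∧ blockElt B * y = y := by
  obtain ⟨y₀, h1, h2, h3⟩ := localCoeff_idem_lift hM hff
  refine ⟨blockElt B * y₀, localCoeff_mul hE h1, ?_, ?_, ?_⟩
  · have hc := isCentralElt_commute (isCentralElt_blockElt B) y₀
    calc blockElt B * y₀ * (blockElt B * y₀) = (blockElt B * blockElt B) * (y₀ * y₀) := by
          rw [mul_assoc, ← mul_assoc y₀, ← hc]
          simp only [mul_assoc]
      _ = _ := by rw [blockElt_mul_self, h2]
  · rw [rd_mul hE h1, h3, hef]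
  · rw [← mul_assoc, blockElt_mul_self]

/-- Idempotents do not see the difference of proportional characters. -/
theorem tr_block_idem (hM : IsPModular p M) (hl : blockRank p B = 1) {χ₀ χ : IrrCharacter G} (h₀ : χ₀ ∈ B)
    (hχ : χ ∈ B) {y : MonoidAlgebra ℂ G} (hyl : LocalCoeff M y) (hyy : y * y = y) :
    ((charDegree (χ₀ : G → ℂ) : ℕ) : ℂ) * tr (χ : G → ℂ) y = (charDegree (χ : G → ℂ) : ℕ) * tr (χ₀ : G → ℂ) y := by
  classical
  have hc0 := IsCharacter.isClassFunction (IsIrrCharacter.isCharacter χ₀.2)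
  have hc1 := IsCharacter.isClassFunction (IsIrrCharacter.isCharacter χ.2)
  have h1 := tr_idem_eq_zero (φ := fun g => ((charDegree (χ₀ : G → ℂ) : ℕ) : ℂ) * (χ : G → ℂ) g -
    (charDegree (χ : G → ℂ) : ℕ) * (χ₀ : G → ℂ) g) hM hyl hyy ?_ ?_ ?_
  · have e : tr (fun g => ((charDegree (χ₀ : G → ℂ) : ℕ) : ℂ) * (χ : G → ℂ) g -
        (charDegree (χ : G → ℂ) : ℕ) * (χ₀ : G → ℂ) g) y =
        ((charDegree (χ₀ : G → ℂ) : ℕ) : ℂ) * tr (χ : G → ℂ) y - (charDegree (χ : G → ℂ) : ℕ) * tr (χ₀ : G → ℂ) y := by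
      unfold tr
      rw [Finset.mul_sum, Finset.mul_sum, ← Finset.sum_sub_distrib]
      refine Finset.sum_congr rfl fun g _ => ?_
      ring
    rw [e] at h1
    exact sub_eq_zero.1 h1
  · intro g
    exact memLocalRing_sub (memLocalRing_mul (memLocalRing_natCast _) (char_localRing (IsIrrCharacter.isCharacter χ.2) g))
      (memLocalRing_mul (memLocalRing_natCast _) (char_localRing (IsIrrCharacter.isCharacter χ₀.2) g))
  · intro x g
    show _ * (χ : G → ℂ) (g * x * g⁻¹) - _ * (χ₀ : G → ℂ) (g * x * g⁻¹) = _ * (χ : G → ℂ) x - _ * (χ₀ : G → ℂ) x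
    rw [hc0, hc1]
  · intro g hg
    have := proportional_of_rank_one hl h₀ hχ hg
    rw [this, sub_self]

/-- **Rank one: two trace functionals are proportional on idempotents of the block.** -/
theorem traces_minor (hM : IsPModular p M) (hB : IsPBlock M B) (hl : blockRank p B = 1)
    {f₀ f₁ : MonoidAlgebra (ResField M) G} (h₀₀ : f₀ * f₀ = f₀) (h₁₁ : f₁ * f₁ = f₁)
    (he₀ : rd M (blockElt B) * f₀ = f₀) (he₁ : rd M (blockElt B) * f₁ = f₁)
    (τ₀ τ₁ : MonoidAlgebra (ResField M) G →ₗ[ResField M] ResField M)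
    (hτ₀ : ∀ a b, τ₀ (a * b) = τ₀ (b * a)) (hτ₁ : ∀ a b, τ₁ (a * b) = τ₁ (b * a)) :
    τ₀ f₀ * τ₁ f₁ = τ₁ f₀ * τ₀ f₁ := by
  classical
  have hE : LocalCoeff M (blockElt B) := localCoeff_blockElt (isBlockUnion_of_isPBlock hB)
  obtain ⟨χ₀, hχ₀⟩ := IsPBlock_nonempty hB
  have hd0 : ((charDegree (χ₀ : G → ℂ) : ℕ) : ℂ) ≠ 0 := by
    rw [← map_one_eq_charDegree (IsIrrCharacter.isCharacter χ₀.2)]
    exact isIrr_one_ne_zero χ₀.2
  obtain ⟨y₀, a1, a2, a3, a4⟩ := exists_idem_lift_block hM hE h₀₀ he₀
  obtain ⟨y₁, b1, b2, b3, b4⟩ := exists_idem_lift_block hM hE h₁₁ he₁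
  obtain ⟨h₀, c1, c2, c3⟩ := exists_class_lift τ₀ hτ₀
  obtain ⟨h₁, d1, d2, d3⟩ := exists_class_lift τ₁ hτ₁
  have key : ∀ (h : G → ℂ), IsClassFunction G h → ∀ y, LocalCoeff M y → y * y = y → blockElt B * y = y →
      tr h y = (∑ χ : IrrCharacter G, if χ ∈ B then classInner h (χ : G → ℂ) * (charDegree (χ : G → ℂ) : ℕ) else 0) *
        (tr (χ₀ : G → ℂ) y / (charDegree (χ₀ : G → ℂ) : ℕ)) := by
    intro h hh y hyl hyy hey
    conv_lhs => rw [← hey]
    rw [tr_blockElt_mul h hh B y, Finset.sum_mul]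
    refine Finset.sum_congr rfl fun χ _ => ?_
    split_ifs with hχ
    · have := tr_block_idem hM hl hχ₀ hχ hyl hyy
      field_simp
      linear_combination (classInner h (χ : G → ℂ)) * this
    · simp
  have hloc : ∀ (h : G → ℂ), (∀ g, MemLocalRing M (h g)) → ∀ y, LocalCoeff M y → MemLocalRing M (tr h y) := by
    intro h hh y hy
    unfold tr
    exact memLocalRing_sum _ _ fun g _ => memLocalRing_mul (hy g) (hh g)
  have e00 : τ₀ f₀ = red M (tr h₀ y₀) := by rw [← c3, ← a3, Kap_rd c1 a1]
  have e01 : τ₀ f₁ = red M (tr h₀ y₁) := by rw [← c3, ← b3, Kap_rd c1 b1]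
  have e10 : τ₁ f₀ = red M (tr h₁ y₀) := by rw [← d3, ← a3, Kap_rd d1 a1]
  have e11 : τ₁ f₁ = red M (tr h₁ y₁) := by rw [← d3, ← b3, Kap_rd d1 b1]
  rw [e00, e01, e10, e11, ← red_mul (hloc _ c1 _ a1) (hloc _ d1 _ b1), ← red_mul (hloc _ d1 _ a1) (hloc _ c1 _ b1)]
  congr 1
  rw [key h₀ c2 y₀ a1 a2 a4, key h₁ d2 y₁ b1 b2 b4, key h₁ d2 y₀ a1 a2 a4, key h₀ c2 y₁ b1 b2 b4]
  ring

end PartA

section PartC

variable {G : Type*} [Group G] [Fintype G] {p : ℕ} [hp : Fact p.Prime] {M : Ideal AlgInt} [hMp : M.IsPrime]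
  {B : Set (IrrCharacter G)}

/-- The trace of an idempotent under a character is a natural number. -/
theorem tr_idem_nat {χ : G → ℂ} (hχ : IsCharacter G χ) {z : MonoidAlgebra ℂ G} (hzz : z * z = z) :
    ∃ k : ℕ, tr χ z = k := by
  classical
  have h := isCharacter_tr_idem (H := PUnit.{1}) hχ (1 : PUnit.{1} →* G) hzz (by
    intro h
    rw [MonoidHom.one_apply]
    have : MonoidAlgebra.single (1 : G) (1 : ℂ) = 1 := rfl
    rw [this, one_mul, mul_one])
  obtain ⟨n, ρ, hρ⟩ := h
  refine ⟨n, ?_⟩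
  have h1 := congrFun hρ 1
  simp only [MonoidHom.one_apply, one_mul, map_one] at h1
  rw [show (fun g => χ g) = χ from rfl] at h1
  rw [← h1]
  show LinearMap.trace ℂ (Fin n → ℂ) (ρ 1) = n
  rw [map_one ρ, LinearMap.trace_one, Module.finrank_fin_fun]

/-- An idempotent equivalent to a summand has smaller trace. -/
theorem idem_tr_le (hM : IsPModular p M) {χ : G → ℂ} (hχ : IsCharacter G χ) {y y' a b : MonoidAlgebra ℂ G}
    (hyy : y * y = y) (hy'y' : y' * y' = y') (hy'l : LocalCoeff M y') (hal : LocalCoeff M a) (hbl : LocalCoeff M b)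
    (ha1 : y' * a = a) (ha2 : a * y = a) (hb1 : y * b = b) (hb2 : b * y' = b)
    (hab : rd M (a * b) = rd M y') : ∃ k : ℕ, tr χ y = tr χ y' + k := by
  classical
  have hc := IsCharacter.isClassFunction hχ
  set w := a * b + (1 - y') with hw
  have h1w : LocalIdealCoeff M (1 - w) := by
    have e : 1 - w = y' - a * b := by
      rw [hw]
      abel
    rw [e, ← rd_eq_iff hy'l (localCoeff_mul hal hbl), hab]
  obtain ⟨w', hw1, hw2⟩ := exists_inv_of_congr_one hM h1w
  have e1 : y' * w = a * b := by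
    rw [hw, mul_add, ← mul_assoc, ha1, mul_sub, mul_one, hy'y', sub_self, add_zero]
  have e2 : w * y' = a * b := by
    rw [hw, add_mul, mul_assoc, hb2, sub_mul, one_mul, hy'y', sub_self, add_zero]
  have e3 : w' * y' = y' * w' := by
    calc w' * y' = w' * (y' * w) * w' := by rw [mul_assoc w' (y' * w) w', mul_assoc y' w w', hw1, mul_one]
      _ = w' * (w * y') * w' := by rw [e1, e2]
      _ = y' * w' := by rw [← mul_assoc w' w y', hw2, one_mul]
  set π := b * w' * a with hπ
  have hππ : π * π = π := by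
    calc π * π = b * w' * (a * b) * w' * a := by rw [hπ]; noncomm_ring
      _ = b * w' * (w * y') * w' * a := by rw [e2]
      _ = b * (w' * w) * y' * w' * a := by noncomm_ring
      _ = b * (w' * y') * a := by rw [hw2, mul_one, mul_assoc b y' w', ← e3]
      _ = b * (y' * w') * a := by rw [e3]
      _ = b * w' * (y' * a) := by rw [← e3]; noncomm_ring
      _ = π := by rw [ha1]
  have hyπ : y * π = π := by
    rw [hπ, ← mul_assoc, ← mul_assoc, hb1]
  have hπy : π * y = π := by
    rw [hπ, mul_assoc, ha2]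
  have htr : tr χ π = tr χ y' := by
    rw [hπ, tr_mul_comm_class hc]
    congr 1
    calc a * (b * w') = (a * b) * w' := by rw [mul_assoc]
      _ = (w * y') * w' := by rw [e2]
      _ = w * (w' * y') := by rw [e3]; noncomm_ring
      _ = y' := by rw [← mul_assoc, hw1, one_mul]
  have hcomp : (y - π) * (y - π) = y - π := by
    rw [mul_sub, sub_mul, sub_mul, hyy, hyπ, hπy, hππ]
    abel
  obtain ⟨k, hk⟩ := tr_idem_nat hχ hcomp
  refine ⟨k, ?_⟩
  rw [← hk, tr_sub, htr]
  ring

/-- Equivalent idempotents have the same trace. -/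
theorem idem_tr_eq (hM : IsPModular p M) {χ : G → ℂ} (hχ : IsCharacter G χ) {y y' a b : MonoidAlgebra ℂ G}
    (hyy : y * y = y) (hy'y' : y' * y' = y') (hyl : LocalCoeff M y) (hy'l : LocalCoeff M y') (hal : LocalCoeff M a)
    (hbl : LocalCoeff M b) (ha1 : y' * a = a) (ha2 : a * y = a) (hb1 : y * b = b) (hb2 : b * y' = b)
    (hab : rd M (a * b) = rd M y') (hba : rd M (b * a) = rd M y) : tr χ y = tr χ y' := by
  obtain ⟨k, hk⟩ := idem_tr_le hM hχ hyy hy'y' hy'l hal hbl ha1 ha2 hb1 hb2 hab
  obtain ⟨k', hk'⟩ := idem_tr_le hM hχ hy'y' hyy hyl hbl hal hb1 hb2 ha1 ha2 hba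
  have h1 : ((k + k' : ℕ) : ℂ) = 0 := by
    push_cast
    rw [hk'] at hk
    linear_combination -hk
  have h2 : k + k' = 0 := by exact_mod_cast h1
  have h3 : k = 0 := by omega
  rw [hk, h3]
  simp

/-- A system of matrix units of size `n` in the block algebra forces `n` to divide all the degrees. -/
theorem dvd_of_matUnits (hM : IsPModular p M) (hE : LocalCoeff M (blockElt B)) {n : ℕ} [NeZero n]
    {e : Fin n → Fin n → MonoidAlgebra (ResField M) G}
    (he1 : ∀ i j k l, e i j * e k l = if j = k then e i l else 0) (he2 : ∑ i, e i i = rd M (blockElt B))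
    {χ : IrrCharacter G} (hχ : χ ∈ B) : n ∣ charDegree (χ : G → ℂ) := by
  classical
  have hχch : IsCharacter G (χ : G → ℂ) := IsIrrCharacter.isCharacter χ.2
  have hcl := IsCharacter.isClassFunction hχch
  have hχc : ∀ x g, (χ : G → ℂ) (x * g * x⁻¹) = (χ : G → ℂ) g := fun x g => hcl g x
  have hcu : ∀ y : MonoidAlgebra ℂ G, y ∈ sA ℂ (CU (1 : G)) := by
    intro y g hg
    exact absurd (mem_CU.2 (by simp)) hg
  have hasT : ∀ (x : MonoidAlgebra (ResField M) G) (y : MonoidAlgebra ℂ G), LocalCoeff M y → y * y = y → rd M y = x →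
      HasT M (1 : G) (χ : G → ℂ) x (tr (χ : G → ℂ) y) := by
    intro x y h1 h2 h3
    refine ⟨y, h1, h2, hcu y, h3, ?_⟩
    simp only [one_mul]
  have hii : ∀ i, e i i * e i i = e i i := by
    intro i
    rw [he1, if_pos rfl]
  choose y hy1 hy2 hy3 using fun i => localCoeff_idem_lift hM (hii i)
  have hsum := HasT.sum hM hχc Finset.univ (fun i => e i i) (fun i => tr (χ : G → ℂ) (y i))
    (fun i _ => hasT _ _ (hy1 i) (hy2 i) (hy3 i)) (fun i _ j _ hij => by
      show e i i * e j j = 0
      rw [he1, if_neg hij])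
  rw [he2] at hsum
  have hB' := hasT _ _ hE (blockElt_mul_self B) rfl
  have huniq := hsum.unique hM hχc hB'
  rw [tr_blockElt, if_pos hχ] at huniq
  have heq : ∀ i, tr (χ : G → ℂ) (y i) = tr (χ : G → ℂ) (y 0) := by
    intro i
    obtain ⟨â, hâl, hâ⟩ := exists_lift (e i 0)
    obtain ⟨bh, hbhl, hbh⟩ := exists_lift (e 0 i)
    have hal : LocalCoeff M (y i * â * y 0) := localCoeff_mul (localCoeff_mul (hy1 i) hâl) (hy1 0)
    have hbl : LocalCoeff M (y 0 * bh * y i) := localCoeff_mul (localCoeff_mul (hy1 0) hbhl) (hy1 i)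
    have hrda : rd M (y i * â * y 0) = e i 0 := by
      rw [rd_mul (localCoeff_mul (hy1 i) hâl) (hy1 0), rd_mul (hy1 i) hâl, hâ, hy3, hy3, he1, if_pos rfl, he1, if_pos rfl]
    have hrdb : rd M (y 0 * bh * y i) = e 0 i := by
      rw [rd_mul (localCoeff_mul (hy1 0) hbhl) (hy1 i), rd_mul (hy1 0) hbhl, hbh, hy3, hy3, he1, if_pos rfl, he1, if_pos rfl]
    refine (idem_tr_eq hM hχch (hy2 i) (hy2 0) (hy1 i) (hy1 0) hbl hal ?_ ?_ ?_ ?_ ?_ ?_)
    · rw [← mul_assoc, ← mul_assoc, hy2]
    · rw [mul_assoc, hy2]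
    · rw [← mul_assoc, ← mul_assoc, hy2]
    · rw [mul_assoc, hy2]
    · rw [rd_mul hbl hal, hrda, hrdb, he1, if_pos rfl, hy3]
    · rw [rd_mul hal hbl, hrda, hrdb, he1, if_pos rfl, hy3]
  obtain ⟨k, hk⟩ := tr_idem_nat hχch (hy2 0)
  refine ⟨k, ?_⟩
  have h1 : ((charDegree (χ : G → ℂ) : ℕ) : ℂ) = ((n * k : ℕ) : ℂ) := by
    rw [← map_one_eq_charDegree hχch, ← huniq, Finset.sum_congr rfl fun i _ => heq i, Finset.sum_const, hk]
    simp
  exact_mod_cast h1

end PartC

section Struct

variable {F R : Type*} [Field F] [Ring R] [Algebra F R] [FiniteDimensional F R] [IsAlgClosed F]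

/-- The structure of a block algebra with one simple module and small centre. -/
theorem corner_alg_struct (lam : R →ₗ[F] F) (hsymm : ∀ a b, lam (a * b) = lam (b * a))
    (hnd : ∀ a, (∀ b, lam (a * b) = 0) → a = 0)
    (e : R) (he : e * e = e) (hc : ∀ x, e * x = x * e) (he0 : e ≠ 0)
    (hZ : finrank F (corner F e ⊓ centerSub F R : Submodule F R) ≤ 4)
    (htwo : ∀ f₀ f₁ : R, f₀ * f₀ = f₀ → f₁ * f₁ = f₁ → e * f₀ = f₀ → e * f₁ = f₁ →
      ∀ τ₀ τ₁ : R →ₗ[F] F, (∀ a b, τ₀ (a * b) = τ₀ (b * a)) → (∀ a b, τ₁ (a * b) = τ₁ (b * a)) →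
        τ₀ f₀ * τ₁ f₁ = τ₁ f₀ * τ₀ f₁) :
    ∃ (n d : ℕ) (E : Fin n → Fin n → R), 0 < n ∧ finrank F (corner F e) = n * n * d ∧
      d ≤ finrank F (corner F e ⊓ centerSub F R : Submodule F R) ∧
      (∀ i j k l, E i j * E k l = if j = k then E i l else 0) ∧ ∑ i, E i i = e := by
  classical
  letI iR := cornerRing (F := F) e he hc
  letI iA := cornerAlg (F := F) e he hc
  let lam' : corner F e →ₗ[F] F := lam ∘ₗ (corner F e).subtype
  have hmulval : ∀ x y : corner F e, ((x * y : corner F e) : R) = x.1 * y.1 := fun _ _ => rfl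
  have hcentral : ∀ x : corner F e, (∀ y : corner F e, x * y = y * x) → x.1 ∈ centerSub F R := by
    intro x hx a
    have h1 := congrArg Subtype.val (hx ⟨e * a, by
      show e * (e * a) = e * a
      rw [← mul_assoc, he]⟩)
    have h2 : x.1 * (e * a) = (e * a) * x.1 := h1
    have h3 : x.1 * e = x.1 := by rw [← hc, x.2]
    calc x.1 * a = (x.1 * e) * a := by rw [h3]
      _ = (e * a) * x.1 := by rw [mul_assoc, h2]
      _ = (a * e) * x.1 := by rw [hc]
      _ = a * x.1 := by rw [mul_assoc, x.2]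
  have hfin : FiniteDimensional F (corner F e) := inferInstance
  have hcZ : finrank F (centerSub F (corner F e)) ≤
      finrank F (corner F e ⊓ centerSub F R : Submodule F R) := by
    refine LinearMap.finrank_le_finrank_of_injective
      (f := { toFun := fun x => ⟨x.1.1, x.1.2, hcentral x.1 x.2⟩
              map_add' := fun _ _ => rfl
              map_smul' := fun _ _ => rfl })
      (fun a b hab => by
        have h1 := congrArg (fun t : (corner F e ⊓ centerSub F R : Submodule F R) => (t : R)) hab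
        exact Subtype.ext (Subtype.ext h1))
  have hone : ((1 : corner F e) : R) = e := rfl
  have hsymm' : ∀ a b : corner F e, lam' (a * b) = lam' (b * a) := fun a b => hsymm a.1 b.1
  have hnd' : ∀ a : corner F e, (∀ b, lam' (a * b) = 0) → a = 0 := by
    intro a ha
    apply Subtype.ext
    refine hnd a.1 fun b => ?_
    have h1 := ha ⟨e * b, by
      show e * (e * b) = e * b
      rw [← mul_assoc, he]⟩
    have h2 : lam (a.1 * (e * b)) = 0 := h1
    have h3 : a.1 * e = a.1 := by rw [← hc, a.2]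
    rwa [← mul_assoc, h3] at h2
  have hWW := finrank_le_comm_add lam' hsymm' hnd'
  have hW : finrank F (corner F e) ≤ finrank F (commSpan F (corner F e)) + 4 := by omega
  haveI : Nontrivial (corner F e) := by
    refine ⟨⟨0, 1, fun h => he0 ?_⟩⟩
    have := congrArg Subtype.val h
    exact this.symm
  haveI : IsArtinianRing (corner F e) := IsArtinianRing.of_finite F (corner F e)
  let J : Ideal (corner F e) := Ring.jacobson (corner F e)
  haveI : IsSemisimpleRing (corner F e ⧸ J) := IsSemiprimaryRing.isSemisimpleRing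
  obtain ⟨m, hJm⟩ : ∃ m, J ^ m = ⊥ := IsSemiprimaryRing.isNilpotent (R := corner F e)
  haveI : FiniteDimensional F (corner F e ⧸ J) :=
    Module.Finite.of_surjective (Ideal.Quotient.mkₐ F J).toLinearMap Ideal.Quotient.mk_surjective
  obtain ⟨s, d, hd, ⟨ψ⟩⟩ := IsSemisimpleRing.exists_algEquiv_pi_matrix_of_isAlgClosed F (corner F e ⧸ J)
  let φ : corner F e →ₐ[F] Π i, Matrix (Fin (d i)) (Fin (d i)) F :=
    ψ.toAlgHom.comp (Ideal.Quotient.mkₐ F J)
  have hφs : Function.Surjective φ := ψ.surjective.comp Ideal.Quotient.mk_surjective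
  have hφJ : ∀ x, φ x = 0 ↔ x ∈ J := by
    intro x
    show ψ (Ideal.Quotient.mk J x) = 0 ↔ _
    rw [map_eq_zero_iff ψ ψ.injective, Ideal.Quotient.eq_zero_iff_mem]
  have hJnil : ∀ x, x ∈ J → IsNilpotent x := by
    intro x hx
    refine ⟨m, ?_⟩
    have : x ^ m ∈ J ^ m := Ideal.pow_mem_pow hx m
    rw [hJm] at this
    exact this
  have hs0 : s ≠ 0 := by
    rintro rfl
    have h1 : φ 1 = 0 := Subsingleton.elim _ _
    obtain ⟨k, hk⟩ := hJnil 1 ((hφJ 1).1 h1)
    rw [one_pow] at hk
    exact one_ne_zero hk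
  have hs1 : s = 1 := by
    by_contra hs
    have hs2 : 2 ≤ s := by omega
    let i₀ : Fin s := ⟨0, by omega⟩
    let i₁ : Fin s := ⟨1, by omega⟩
    have h01 : i₀ ≠ i₁ := by
      intro h
      have := congrArg Fin.val h
      simp [i₀, i₁] at this
    haveI hne : ∀ i, NeZero (d i) := hd
    let S : Fin s → Π i, Matrix (Fin (d i)) (Fin (d i)) F := fun j => Pi.single j (Matrix.single 0 0 1)
    have hSidem : ∀ j, IsIdempotentElem (S j) := by
      intro j
      show S j * S j = S j
      funext i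
      by_cases hi : i = j
      · subst hi
        simp [S]
      · simp [S, Pi.single_eq_of_ne hi]
    have hlift : ∀ j, ∃ f : corner F e, IsIdempotentElem f ∧ φ f = S j := by
      intro j
      obtain ⟨f, hf1, hf2⟩ := exists_isIdempotentElem_eq_of_ker_isNilpotent φ.toRingHom
        (fun x hx => hJnil x ((hφJ x).1 hx)) (S j) (hφs _) (hSidem j)
      exact ⟨f, hf1, hf2⟩
    choose f hf1 hf2 using hlift
    let π₀ : R →ₗ[F] corner F e := (LinearMap.mulLeft F e).codRestrict (corner F e) (fun x => by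
      show e * (e * x) = e * x
      rw [← mul_assoc, he])
    have hπ₀ : ∀ x, (π₀ x : R) = e * x := fun x => rfl
    have hπmul : ∀ a b, π₀ (a * b) = π₀ a * π₀ b := by
      intro a b
      apply Subtype.ext
      rw [hmulval, hπ₀, hπ₀, hπ₀]
      calc e * (a * b) = (e * e) * (a * b) := by rw [he]
        _ = e * (e * a) * b := by noncomm_ring
        _ = e * (a * e) * b := by rw [hc a]
        _ = (e * a) * (e * b) := by noncomm_ring
    have hπf : ∀ x : corner F e, π₀ x.1 = x := by
      intro x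
      apply Subtype.ext
      rw [hπ₀]
      exact x.2
    let τ : Fin s → (R →ₗ[F] F) := fun i =>
      (Matrix.traceLinearMap (Fin (d i)) F F) ∘ₗ (LinearMap.proj i) ∘ₗ φ.toLinearMap ∘ₗ π₀
    have hτv : ∀ i x, τ i x = Matrix.trace (φ (π₀ x) i) := fun i x => rfl
    have hτs : ∀ i a b, τ i (a * b) = τ i (b * a) := by
      intro i a b
      rw [hτv, hτv, hπmul, hπmul, map_mul, map_mul, Pi.mul_apply, Pi.mul_apply, Matrix.trace_mul_comm]
    have hτf : ∀ i j, τ i (f j).1 = if i = j then 1 else 0 := by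
      intro i j
      rw [hτv, hπf, hf2]
      by_cases hi : i = j
      · subst hi
        simp [S, Matrix.trace_single_eq_same]
      · simp [S, Pi.single_eq_of_ne hi, hi]
    have hval : ∀ j, (f j).1 * (f j).1 = (f j).1 := fun j => congrArg Subtype.val (hf1 j)
    have h2 := htwo (f i₀).1 (f i₁).1 (hval _) (hval _) (f i₀).2 (f i₁).2 (τ i₀) (τ i₁) (hτs _) (hτs _)
    rw [hτf, hτf, hτf, hτf, if_pos rfl, if_pos rfl, if_neg h01, if_neg h01.symm] at h2
    simp at h2
  subst hs1
  haveI h0 : NeZero (d 0) := hd 0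
  let φ₁ : corner F e →ₐ[F] Matrix (Fin (d 0)) (Fin (d 0)) F := (Pi.evalAlgHom F _ 0).comp φ
  have hφ₁ : ∀ x, φ₁ x = φ x 0 := fun x => rfl
  have hφ₁s : Function.Surjective φ₁ := by
    intro M
    obtain ⟨x, hx⟩ := hφs (Pi.single 0 M)
    exact ⟨x, by rw [hφ₁, hx]; simp⟩
  have hφ₁J : ∀ x, φ₁ x = 0 → x ∈ J := by
    intro x hx
    refine (hφJ x).1 (funext fun i => ?_)
    rw [Subsingleton.elim i 0]
    exact hx
  obtain ⟨E, he1, he2, he3⟩ := exists_matUnits φ₁.toRingHom hφ₁s
    (fun x hx => hJnil x (hφ₁J x hx))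
  obtain ⟨d', h1, h2⟩ := corner_kul φ₁ hJm hφ₁J he1 he2 he3 lam' hsymm' hnd' hW
  refine ⟨d 0, d', fun i j => (E i j).1, Nat.pos_of_ne_zero (NeZero.ne _), h1, by omega, ?_, ?_⟩
  · intro i j k l
    have h3 := congrArg Subtype.val (he1 i j k l)
    rw [hmulval] at h3
    rw [h3]
    split_ifs <;> rfl
  · have h3 := congrArg Subtype.val he2
    rw [AddSubmonoidClass.coe_finset_sum] at h3
    exact h3

end Struct

section Main

variable {G : Type*} [Group G] [Fintype G] {p : ℕ} [hp : Fact p.Prime] {M : Ideal AlgInt}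
  {B : Set (IrrCharacter G)}

open Classical in
/-- The block algebra of a block of rank one with at most four characters. -/
theorem block_alg_main (hM : IsPModular p M) (hB : IsPBlock M B) (hl : blockRank p B = 1)
    (hk : Nat.card B ≤ 4) :
    ∃ n d : ℕ, 0 < n ∧
      (∑ χ : IrrCharacter G, if χ ∈ B then charDegree (χ : G → ℂ) ^ 2 else 0) = n * n * d ∧
      d ≤ Nat.card B ∧ ∀ χ ∈ B, n ∣ charDegree (χ : G → ℂ) := by
  classical
  haveI := isPModular_isPrime hM
  haveI : Fintype (ConjClasses G) := Fintype.ofFinite _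
  have hE : LocalCoeff M (blockElt B) := localCoeff_blockElt (isBlockUnion_of_isPBlock hB)
  set F := ResField M with hF
  haveI : FiniteDimensional F (MonoidAlgebra F G) :=
    Module.Finite.of_basis (MonoidAlgebra.basis G F)
  set ē := rd M (blockElt B) with hē
  have hee : ē * ē = ē := by rw [hē, ← rd_mul hE hE, blockElt_mul_self]
  have hc : ∀ x, ē * x = x * ē := by
    intro x
    obtain ⟨a, hal, rfl⟩ := exists_lift x
    rw [hē, ← rd_mul hE hal, ← rd_mul hal hE, isCentralElt_commute (isCentralElt_blockElt B) a]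
  let lam : MonoidAlgebra F G →ₗ[F] F :=
    { toFun := fun x => x.coeff 1
      map_add' := fun a b => by simp
      map_smul' := fun c a => by simp }
  have hlam : ∀ x, lam x = x.coeff 1 := fun x => rfl
  have hsymm : ∀ a b, lam (a * b) = lam (b * a) := by
    intro a b
    rw [hlam, hlam, coeff_mul_eq, coeff_mul_eq]
    refine (Fintype.sum_equiv (Equiv.inv G) _ _ fun h => ?_)
    simp [mul_comm]
  have hnd : ∀ a, (∀ b, lam (a * b) = 0) → a = 0 := by
    intro a ha
    apply ext_coeff
    intro g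
    have h1 := ha (MonoidAlgebra.single g⁻¹ 1)
    rw [hlam, coeff_mul_eq, Finset.sum_eq_single g] at h1
    · simpa using h1
    · intro h _ hh
      have h2 : h⁻¹ ≠ g⁻¹ := fun h3 => hh (inv_injective h3)
      simp [MonoidAlgebra.coeff_single, Finsupp.single_apply, h2.symm]
    · intro h
      exact absurd (Finset.mem_univ _) h
  have hdim : finrank F (corner F ē) =
      ∑ χ : IrrCharacter G, if χ ∈ B then charDegree (χ : G → ℂ) ^ 2 else 0 := by
    rw [corner_eq_range _ hee, hē, finrank_range_eq_rd hE (blockElt_mul_self B)]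
    exact finrank_blockElt B
  obtain ⟨χ₀, hχ₀⟩ := IsPBlock_nonempty hB
  have hdeg : ∀ χ : IrrCharacter G, 0 < charDegree (χ : G → ℂ) := by
    intro χ
    obtain ⟨q, hq⟩ := charDegree_dvd_card χ.2
    refine Nat.pos_of_ne_zero fun h3 => ?_
    rw [h3, zero_mul] at hq
    exact Nat.card_pos.ne' hq
  have hē0 : ē ≠ 0 := by
    intro h0
    have h1 : corner F ē = ⊥ := by
      rw [eq_bot_iff]
      intro x hx
      have h2 : ē * x = x := hx
      rw [h0, zero_mul] at h2
      exact h2.symm
    rw [h1, finrank_bot] at hdim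
    have h3 : charDegree (χ₀ : G → ℂ) ^ 2 ≤
        ∑ χ : IrrCharacter G, if χ ∈ B then charDegree (χ : G → ℂ) ^ 2 else 0 := by
      have := Finset.single_le_sum (f := fun χ : IrrCharacter G => if χ ∈ B then charDegree (χ : G → ℂ) ^ 2 else 0)
        (fun _ _ => Nat.zero_le _) (Finset.mem_univ χ₀)
      simpa [hχ₀] using this
    have h4 := hdeg χ₀
    have h5 : 0 < charDegree (χ₀ : G → ℂ) ^ 2 := by positivity
    omega
  have hZ := finrank_center_le_rd (B := B) hE
  obtain ⟨n, d, E, hn, hfin, hd, he1, he2⟩ := corner_alg_struct lam hsymm hnd ē hee hc hē0 (hZ.trans hk)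
    (fun f₀ f₁ h₀₀ h₁₁ he₀ he₁ τ₀ τ₁ hτ₀ hτ₁ => traces_minor hM hB hl h₀₀ h₁₁ he₀ he₁ τ₀ τ₁ hτ₀ hτ₁)
  haveI : NeZero n := ⟨hn.ne'⟩
  refine ⟨n, d, hn, ?_, hd.trans hZ, fun χ hχ => dvd_of_matUnits hM hE he1 he2 hχ⟩
  rw [← hdim, hfin]

/-- **Külshammer.** A block of rank one with at most four characters has `k(B) = p ^ d`. -/
theorem card_eq_of_rank_one (hM : IsPModular p M) (hB : IsPBlock M B) (hl : blockRank p B = 1)
    (hk : Nat.card B ≤ 4) : Nat.card B = p ^ blockDefect p B := by
  classical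
  haveI := isPModular_isPrime hM
  obtain ⟨n, d, hn, hsum, hd, hdvd⟩ := block_alg_main hM hB hl hk
  obtain ⟨φ, dd, ⟨nn, hφ⟩, hχφ, hsq⟩ := exists_of_rank_one hM hB hl
  have h1reg : IsPRegular p (1 : G) := by simp [IsPRegular, (Fact.out : p.Prime).ne_one]
  obtain ⟨χ₀, hχ₀⟩ := IsPBlock_nonempty hB
  have hdeg1 : ∀ χ : IrrCharacter G, (χ : G → ℂ) 1 = ((charDegree (χ : G → ℂ) : ℕ) : ℂ) := fun χ =>
    map_one_eq_charDegree (IsIrrCharacter.isCharacter χ.2)
  -- the integer value of `φ` at `1`
  set Z : ℤ := ∑ ψ : IrrCharacter G, if ψ ∈ B then nn ψ * (charDegree (ψ : G → ℂ) : ℤ) else 0 with hZ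
  have hφ1 : φ 1 = (Z : ℂ) := by
    rw [hφ 1 h1reg, finsum_mem_irr, hZ]
    push_cast
    refine Finset.sum_congr rfl fun ψ _ => ?_
    split_ifs
    · rw [hdeg1]
    · rfl
  have hnZ : (n : ℤ) ∣ Z := by
    refine Finset.dvd_sum fun ψ _ => ?_
    split_ifs with hψ
    · exact Dvd.dvd.mul_left (Int.natCast_dvd_natCast.2 (hdvd ψ hψ)) _
    · exact dvd_zero _
  obtain ⟨r, hr⟩ := hnZ
  have hdegZ : ∀ χ ∈ B, (charDegree (χ : G → ℂ) : ℤ) = dd χ * Z := by
    intro χ hχ
    have h1 := hχφ χ hχ 1 h1reg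
    rw [hdeg1, hφ1] at h1
    exact_mod_cast h1
  have hsq' : (∑ χ : IrrCharacter G, if χ ∈ B then dd χ ^ 2 else 0) = p ^ blockDefect p B := by
    rw [← hsq, finsum_mem_irr]
  have hmain : (n : ℤ) * n * d = (n : ℤ) * n * ((p ^ blockDefect p B : ℕ) * r ^ 2) := by
    have h2 : ((∑ χ : IrrCharacter G, if χ ∈ B then charDegree (χ : G → ℂ) ^ 2 else 0 : ℕ) : ℤ) =
        ((∑ χ : IrrCharacter G, if χ ∈ B then dd χ ^ 2 else 0 : ℕ) : ℤ) * Z ^ 2 := by
      push_cast
      rw [Finset.sum_mul]
      refine Finset.sum_congr rfl fun χ _ => ?_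
      split_ifs with hχ
      · push_cast
        rw [hdegZ χ hχ]
        ring
      · simp
    rw [hsum, hsq', hr] at h2
    push_cast at h2 ⊢
    linear_combination h2
  have hn0 : (n : ℤ) * n ≠ 0 := by
    have : (n : ℤ) ≠ 0 := by exact_mod_cast hn.ne'
    exact mul_ne_zero this this
  have hdr : (d : ℤ) = (p ^ blockDefect p B : ℕ) * r ^ 2 := mul_left_cancel₀ hn0 hmain
  have hr0 : r ≠ 0 := by
    intro h0
    have h1 := hdegZ χ₀ hχ₀
    rw [hr, h0, mul_zero, mul_zero] at h1
    have h2 : charDegree (χ₀ : G → ℂ) = 0 := by exact_mod_cast h1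
    have h3 := hdeg1 χ₀
    rw [h2] at h3
    exact isIrr_one_ne_zero χ₀.2 (by simpa using h3)
  have hr1 : 1 ≤ r ^ 2 := by
    have : 0 < r ^ 2 := by positivity
    omega
  have hle : p ^ blockDefect p B ≤ d := by
    have h3 : ((p ^ blockDefect p B : ℕ) : ℤ) ≤ d := by
      rw [hdr]
      have h4 : (0 : ℤ) ≤ ((p ^ blockDefect p B : ℕ) : ℤ) := by positivity
      nlinarith
    exact_mod_cast h3
  have hup : Nat.card B ≤ p ^ blockDefect p B := by
    rw [← hsq']
    have hcard : Nat.card B = ∑ χ : IrrCharacter G, if χ ∈ B then 1 else 0 := by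
      rw [Nat.card_eq_fintype_card, Fintype.card_subtype, Finset.card_filter]
    rw [hcard]
    refine Finset.sum_le_sum fun χ _ => ?_
    split_ifs with hχ
    · have h1 := hdegZ χ hχ
      have h2 : dd χ ≠ 0 := by
        intro h0
        rw [h0] at h1
        have h3 : charDegree (χ : G → ℂ) = 0 := by
          have : ((charDegree (χ : G → ℂ) : ℕ) : ℤ) = 0 := by rw [h1]; simp
          exact_mod_cast this
        have h4 := hdeg1 χ
        rw [h3] at h4
        exact isIrr_one_ne_zero χ.2 (by simpa using h4)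
      exact Nat.one_le_pow _ _ (Nat.pos_of_ne_zero h2)
    · exact le_rfl
  omega

end Main

end Cfsg.Agent.Lib.Modular
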