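import Mathlib
import Cfsg.Agent.Lib.Modular.Corner

/-!
# The `p`-power map modulo commutators

In an algebra over a field of characteristic `p` one has `(x + y) ^ p ≡ x ^ p + y ^ p` modulo the span of the
additive commutators.
-/

set_option autoImplicit false
set_option linter.unusedSectionVars false
set_option linter.unusedSimpArgs false
set_option linter.unusedVariables false
set_option linter.style.haveILetI false
set_option linter.unnecessarySimpa false

namespace Cfsg.Agent.Lib.Modular

open Module Polynomial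

section Frob

variable {F T : Type*} [Field F] [Ring T] [Algebra F T] (p : ℕ) [hp : Fact p.Prime] [hF : CharP F p]

theorem derivative_pow_poly (P Q : T[X]) (hQ : derivative P = Q) (n : ℕ) :
    derivative (P ^ n) = ∑ i ∈ Finset.range n, P ^ i * Q * P ^ (n - 1 - i) := by
  induction n with
  | zero => simp
  | succ n ih =>
    rw [pow_succ, derivative_mul, ih, hQ, Finset.sum_range_succ, Finset.sum_mul]
    simp only [Nat.add_sub_cancel, Nat.sub_self, pow_zero, mul_one]
    congr 1
    refine Finset.sum_congr rfl fun i hi => ?_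
    have h : n - i = (n - 1 - i) + 1 := by
      have := Finset.mem_range.1 hi
      omega
    rw [mul_assoc, mul_assoc, mul_assoc, h, pow_succ]

/-- The coefficientwise extension of a symmetric functional. -/
theorem sym_coeff_mul (μ : T →ₗ[F] F) (hμ : ∀ a b, μ (a * b) = μ (b * a)) (f g : T[X]) (j : ℕ) :
    μ ((f * g).coeff j) = μ ((g * f).coeff j) := by
  rw [coeff_mul, coeff_mul, map_sum, map_sum]
  rw [← Finset.Nat.sum_antidiagonal_swap]
  refine Finset.sum_congr rfl fun x _ => ?_
  simp only [Prod.fst_swap, Prod.snd_swap]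
  exact hμ _ _

/-- The Frobenius congruence for a symmetric functional. -/
theorem frob_sym (μ : T →ₗ[F] F) (hμ : ∀ a b, μ (a * b) = μ (b * a)) (x y : T) :
    μ ((x + y) ^ p) = μ (x ^ p) + μ (y ^ p) := by
  classical
  set P : T[X] := C x + C y * X with hP
  have hder : derivative P = C y := by
    rw [hP, derivative_add, derivative_C, derivative_mul, derivative_C, derivative_X]
    simp
  have hstep : ∀ (f : T[X]) (m : ℕ), (f * P).coeff (m + 1) = f.coeff (m + 1) * x + f.coeff m * y := by
    intro f m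
    rw [hP, mul_add, coeff_add, coeff_mul_C, ← mul_assoc, coeff_mul_X, coeff_mul_C]
  have hstep0 : ∀ f : T[X], (f * P).coeff 0 = f.coeff 0 * x := by
    intro f
    rw [hP, mul_add, coeff_add, coeff_mul_C, ← mul_assoc, coeff_mul_X_zero, add_zero]
  have h0 : ∀ n, (P ^ n).coeff 0 = x ^ n := by
    intro n
    induction n with
    | zero => simp
    | succ n ih => rw [pow_succ, hstep0, ih, pow_succ]
  have hhigh : ∀ n m, n < m → (P ^ n).coeff m = 0 := by
    intro n
    induction n with
    | zero =>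
      intro m hm
      rw [pow_zero, coeff_one, if_neg (by omega)]
    | succ n ih =>
      intro m hm
      obtain ⟨m', rfl⟩ : ∃ m', m = m' + 1 := ⟨m - 1, by omega⟩
      rw [pow_succ, hstep, ih _ (by omega), ih _ (by omega)]
      simp
  have htop : ∀ n, (P ^ n).coeff n = y ^ n := by
    intro n
    induction n with
    | zero => simp
    | succ n ih => rw [pow_succ, hstep, hhigh n (n + 1) (by omega), ih, pow_succ]; simp
  -- the derivative
  have hd : ∀ j, μ ((derivative (P ^ p)).coeff j) = 0 := by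
    intro j
    rw [derivative_pow_poly P (C y) hder p, finset_sum_coeff, map_sum]
    have h1 : ∀ i ∈ Finset.range p, μ ((P ^ i * C y * P ^ (p - 1 - i)).coeff j) = μ ((P ^ (p - 1) * C y).coeff j) := by
      intro i hi
      have hi' := Finset.mem_range.1 hi
      rw [sym_coeff_mul μ hμ, ← mul_assoc]
      have h2 : P ^ (p - 1 - i) * P ^ i = P ^ (p - 1) := by
        rw [← pow_add]
        congr 1
        omega
      rw [h2]
    rw [Finset.sum_congr rfl h1, Finset.sum_const, Finset.card_range, nsmul_eq_mul, CharP.cast_eq_zero F p, zero_mul]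
  have hmid : ∀ j, 0 < j → j < p → μ ((P ^ p).coeff j) = 0 := by
    intro j hj0 hjp
    obtain ⟨j', rfl⟩ : ∃ j', j = j' + 1 := ⟨j - 1, by omega⟩
    have h1 := hd j'
    rw [coeff_derivative] at h1
    have h2 : (P ^ p).coeff (j' + 1) * ((j' : T) + 1) = (((j' + 1 : ℕ) : F)) • (P ^ p).coeff (j' + 1) := by
      rw [Algebra.smul_def, (Algebra.commutes _ _)]
      congr 1
      simp
    rw [h2, map_smul, smul_eq_mul] at h1
    have h3 : (((j' + 1 : ℕ) : F)) ≠ 0 := by
      intro h
      rw [CharP.cast_eq_zero_iff F p] at h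
      exact absurd (Nat.le_of_dvd (by omega) h) (by omega)
    exact (mul_eq_zero.1 h1).resolve_left h3
  -- the value at `1`
  let ev : T[X] →+* T := eval₂RingHom' (RingHom.id T) 1 (fun a => Commute.one_right _)
  have hev : ∀ f : T[X], ev f = ∑ j ∈ Finset.range (f.natDegree + 1), f.coeff j := by
    intro f
    show f.eval₂ (RingHom.id T) 1 = _
    rw [eval₂_eq_sum_range]
    simp
  have hevP : ev P = x + y := by
    rw [hP, map_add, map_mul]
    show (C x).eval₂ (RingHom.id T) 1 + (C y).eval₂ (RingHom.id T) 1 * X.eval₂ (RingHom.id T) 1 = _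
    simp
  have hdeg : (P ^ p).natDegree ≤ p := by
    rw [natDegree_le_iff_coeff_eq_zero]
    intro m hm
    exact hhigh p m hm
  have hsum : (x + y) ^ p = ∑ j ∈ Finset.range (p + 1), (P ^ p).coeff j := by
    rw [← hevP, ← map_pow, hev]
    refine Finset.sum_subset (Finset.range_subset_range.2 (by omega)) fun j hj hj' => ?_
    exact coeff_eq_zero_of_natDegree_lt (by
      have := Finset.mem_range.not.1 hj'
      omega)
  have hp0 := hp.out.pos
  rw [hsum, map_sum, Finset.sum_range_succ, Finset.range_eq_Ico,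
    Finset.sum_eq_sum_Ico_succ_bot hp0, h0, htop, Finset.sum_eq_zero, add_zero]
  intro j hj
  have := Finset.mem_Ico.1 hj
  exact hmid j (by omega) this.2

theorem map_comm_eq_zero (μ : T →ₗ[F] F) (hμ : ∀ a b, μ (a * b) = μ (b * a)) {x : T} (hx : x ∈ commSpan F T) :
    μ x = 0 := by
  induction hx using Submodule.span_induction with
  | mem x hx =>
    obtain ⟨a, b, rfl⟩ := hx
    rw [map_sub, hμ a b, sub_self]
  | zero => simp
  | add a b _ _ ha hb => rw [map_add, ha, hb, add_zero]
  | smul c a _ ha => rw [map_smul, ha, smul_zero]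

theorem mem_commSpan_of_forall {x : T} (h : ∀ μ : T →ₗ[F] F, (∀ a b, μ (a * b) = μ (b * a)) → μ x = 0) :
    x ∈ commSpan F T := by
  by_contra hx
  obtain ⟨f, hf, hf0⟩ := Submodule.exists_le_ker_of_notMem hx
  refine hf ?_
  refine h f fun a b => ?_
  have h1 : a * b - b * a ∈ commSpan F T := Submodule.subset_span ⟨a, b, rfl⟩
  have h2 := hf0 h1
  rw [LinearMap.mem_ker, map_sub] at h2
  exact sub_eq_zero.1 h2

theorem frob_comm (x y : T) : (x + y) ^ p - x ^ p - y ^ p ∈ commSpan F T := by
  refine mem_commSpan_of_forall fun μ hμ => ?_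
  rw [map_sub, map_sub, frob_sym p μ hμ]
  ring

theorem smul_pow_frob (c : F) (x : T) (n : ℕ) : (c • x) ^ n = c ^ n • x ^ n := _root_.smul_pow c x n

theorem comm_pow_mem {κ : T} (h : κ ∈ commSpan F T) : κ ^ p ∈ commSpan F T := by
  have hp0 := hp.out.pos
  induction h using Submodule.span_induction with
  | mem x hx =>
    obtain ⟨a, b, rfl⟩ := hx
    have h1 : a * b - b * a = a * b + (-1 : F) • (b * a) := by
      rw [neg_one_smul]
      abel
    have h2 : (a * b - b * a) ^ p = ((a * b + (-1 : F) • (b * a)) ^ p - (a * b) ^ p - ((-1 : F) • (b * a)) ^ p)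
        + ((a * b) ^ p - (b * a) ^ p) + (((-1 : F) ^ p + 1) • (b * a) ^ p) := by
      rw [← h1, _root_.smul_pow, add_smul, one_smul]
      abel
    rw [h2]
    refine add_mem (add_mem (frob_comm p _ _) ?_) ?_
    · obtain ⟨m, hm⟩ : ∃ m, p = m + 1 := ⟨p - 1, by omega⟩
      have h3 : (a * b) ^ p - (b * a) ^ p = a * ((b * a) ^ m * b) - ((b * a) ^ m * b) * a := by
        rw [hm, pow_succ' (a * b) m, pow_succ (b * a) m]
        have h4 : ∀ n : ℕ, (a * b) ^ n * a = a * (b * a) ^ n := by
          intro n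
          induction n with
          | zero => simp
          | succ n ih =>
            rw [pow_succ, mul_assoc, mul_assoc a b a, ← mul_assoc, ih, pow_succ]
            noncomm_ring
        have h5 : (a * b) * (a * b) ^ m = a * ((b * a) ^ m * b) := by
          rw [← pow_succ', pow_succ, ← mul_assoc, h4, mul_assoc]
        rw [h5]
        noncomm_ring
      rw [h3]
      exact Submodule.subset_span ⟨_, _, rfl⟩
    · have h6 : (-1 : F) ^ p + 1 = 0 := by
        have := neg_one_pow_char F p
        rw [this]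
        ring
      rw [h6, zero_smul]
      exact zero_mem _
  | zero =>
    rw [zero_pow hp.out.ne_zero]
    exact zero_mem _
  | add a b _ _ ha hb =>
    have h1 : (a + b) ^ p = ((a + b) ^ p - a ^ p - b ^ p) + a ^ p + b ^ p := by abel
    rw [h1]
    exact add_mem (add_mem (frob_comm p a b) ha) hb
  | smul c a _ ha =>
    rw [_root_.smul_pow]
    exact Submodule.smul_mem _ _ ha

theorem pow_congr_comm {u v : T} (h : u - v ∈ commSpan F T) : u ^ p - v ^ p ∈ commSpan F T := by
  have h1 := frob_comm (F := F) p v (u - v)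
  have h2 := comm_pow_mem (F := F) p h
  have e : v + (u - v) = u := by abel
  rw [e] at h1
  have h3 : u ^ p - v ^ p = (u ^ p - v ^ p - (u - v) ^ p) + (u - v) ^ p := by abel
  rw [h3]
  exact add_mem h1 h2

theorem frob_pow_comm (n : ℕ) (x y : T) : (x + y) ^ (p ^ n) - x ^ (p ^ n) - y ^ (p ^ n) ∈ commSpan F T := by
  induction n with
  | zero =>
    simp
  | succ n ih =>
    have h1 : (x + y) ^ (p ^ n) - (x ^ (p ^ n) + y ^ (p ^ n)) ∈ commSpan F T := by
      have e : (x + y) ^ (p ^ n) - (x ^ (p ^ n) + y ^ (p ^ n)) = (x + y) ^ (p ^ n) - x ^ (p ^ n) - y ^ (p ^ n) := by abel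
      rwa [e]
    have h2 := pow_congr_comm (F := F) p h1
    have h3 := frob_comm (F := F) p (x ^ (p ^ n)) (y ^ (p ^ n))
    have e : (x + y) ^ (p ^ (n + 1)) - x ^ (p ^ (n + 1)) - y ^ (p ^ (n + 1)) =
        (((x + y) ^ (p ^ n)) ^ p - (x ^ (p ^ n) + y ^ (p ^ n)) ^ p) +
        ((x ^ (p ^ n) + y ^ (p ^ n)) ^ p - (x ^ (p ^ n)) ^ p - (y ^ (p ^ n)) ^ p) := by
      rw [pow_succ, pow_mul, pow_mul, pow_mul]
      abel
    rw [e]
    exact add_mem h2 h3

theorem frob_sum_comm {ι : Type*} (n : ℕ) (s : Finset ι) (z : ι → T) :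
    (∑ j ∈ s, z j) ^ (p ^ n) - ∑ j ∈ s, z j ^ (p ^ n) ∈ commSpan F T := by
  classical
  have hpn : p ^ n ≠ 0 := pow_ne_zero _ hp.out.ne_zero
  induction s using Finset.induction_on with
  | empty =>
    simp [zero_pow hpn]
  | insert a s ha ih =>
    rw [Finset.sum_insert ha, Finset.sum_insert ha]
    have h1 := frob_pow_comm (F := F) p n (z a) (∑ j ∈ s, z j)
    have e : (z a + ∑ j ∈ s, z j) ^ (p ^ n) - (z a ^ (p ^ n) + ∑ j ∈ s, z j ^ (p ^ n)) =
        ((z a + ∑ j ∈ s, z j) ^ (p ^ n) - z a ^ (p ^ n) - (∑ j ∈ s, z j) ^ (p ^ n)) +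
        ((∑ j ∈ s, z j) ^ (p ^ n) - ∑ j ∈ s, z j ^ (p ^ n)) := by
      abel
    rw [e]
    exact add_mem h1 ih

/-- The Frobenius formula for a symmetric functional on a sum of scalar multiples. -/
theorem sym_pow_sum {ι : Type*} (μ : T →ₗ[F] F) (hμ : ∀ a b, μ (a * b) = μ (b * a)) (n : ℕ) (s : Finset ι)
    (c : ι → F) (z : ι → T) :
    μ ((∑ j ∈ s, c j • z j) ^ (p ^ n)) = ∑ j ∈ s, c j ^ (p ^ n) * μ (z j ^ (p ^ n)) := by
  have h1 := map_comm_eq_zero μ hμ (frob_sum_comm (F := F) p n s (fun j => c j • z j))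
  rw [map_sub, sub_eq_zero] at h1
  rw [h1, map_sum]
  refine Finset.sum_congr rfl fun j _ => ?_
  rw [_root_.smul_pow, map_smul, smul_eq_mul]

end Frob

end Cfsg.Agent.Lib.Modular
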