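import Mathlib
import Cfsg.Agent.Lib.Modular.FrobComm

/-!
# The semisimple quotient of a finite dimensional algebra over an algebraically closed field

Symmetric functionals vanishing on the radical are combinations of the traces of the simple components;
idempotents of rank one.
-/

set_option autoImplicit false
set_option linter.unusedSectionVars false
set_option linter.unusedSimpArgs false
set_option linter.unusedVariables false
set_option linter.style.haveILetI false
set_option linter.unnecessarySimpa false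

namespace Cfsg.Agent.Lib.Modular

open Module

section Units

variable {F : Type*} [Field F] {s : ℕ} {d : Fin s → ℕ}

/-- A matrix unit in a product of matrix algebras. -/
def EE (F : Type*) [Field F] {s : ℕ} {d : Fin s → ℕ} (i : Fin s) (k l : Fin (d i)) :
    Π i, Matrix (Fin (d i)) (Fin (d i)) F :=
  Pi.single i (Matrix.single k l 1)

theorem EE_same (i : Fin s) (k l : Fin (d i)) : EE F i k l i = Matrix.single k l 1 := by
  simp [EE]

theorem EE_ne {i j : Fin s} (h : j ≠ i) (k l : Fin (d i)) : EE F i k l j = 0 := by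
  simp [EE, h]

theorem EE_mul (i : Fin s) (k l : Fin (d i)) (X : Π i, Matrix (Fin (d i)) (Fin (d i)) F) :
    EE F i k l * X = Pi.single i (Matrix.single k l 1 * X i) := by
  funext j
  by_cases h : j = i
  · subst h
    simp [EE]
  · simp [EE, h]

theorem mul_EE (i : Fin s) (k l : Fin (d i)) (X : Π i, Matrix (Fin (d i)) (Fin (d i)) F) :
    X * EE F i k l = Pi.single i (X i * Matrix.single k l 1) := by
  funext j
  by_cases h : j = i
  · subst h
    simp [EE]
  · simp [EE, h]

theorem EE_mul_EE (i : Fin s) (k l m : Fin (d i)) : EE F i k l * EE F i l m = EE F i k m := by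
  rw [EE_mul, EE_same, Matrix.single_mul_single_same, one_mul]
  rfl

theorem EE_mul_EE_ne (i : Fin s) (k l l' m : Fin (d i)) (h : l ≠ l') : EE F i k l * EE F i l' m = 0 := by
  have h0 : (Matrix.single k l (1 : F) : Matrix (Fin (d i)) (Fin (d i)) F) * Matrix.single l' m 1 = 0 :=
    Matrix.single_mul_single_of_ne _ _ _ _ h _
  rw [EE_mul, EE_same, h0, Pi.single_zero]

theorem EE_mul_mul_EE (i : Fin s) (k l k' l' : Fin (d i)) (X : Π i, Matrix (Fin (d i)) (Fin (d i)) F) :
    EE F i k l * X * EE F i k' l' = X i l k' • EE F i k l' := by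
  rw [EE_mul, mul_EE]
  funext j
  by_cases h : j = i
  · subst h
    simp only [Pi.single_eq_same, Pi.smul_apply, EE_same]
    rw [Matrix.single_mul_mul_single, Matrix.smul_single]
    simp
  · simp [EE, h]

theorem eq_sum_EE (X : Π i, Matrix (Fin (d i)) (Fin (d i)) F) :
    X = ∑ i, ∑ k, ∑ l, X i k l • EE F i k l := by
  classical
  funext j
  ext a b
  simp only [Finset.sum_apply, Pi.smul_apply, Matrix.sum_apply, Matrix.smul_apply]
  rw [Finset.sum_eq_single j]
  · rw [Finset.sum_eq_single a, Finset.sum_eq_single b]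
    · simp [EE_same, Matrix.single_apply]
    · intro l _ hl
      simp [EE_same, Matrix.single_apply, hl]
    · simp
    · intro k _ hk
      refine Finset.sum_eq_zero fun l _ => ?_
      simp [EE_same, Matrix.single_apply, hk]
    · simp
  · intro i _ hi
    refine Finset.sum_eq_zero fun k _ => Finset.sum_eq_zero fun l _ => ?_
    simp [EE_ne hi.symm]
  · simp

theorem trace_EE_ne {i j : Fin s} (h : j ≠ i) (k l : Fin (d i)) : Matrix.trace (EE F i k l j) = 0 := by
  rw [EE_ne h, Matrix.trace_zero]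

theorem trace_EE_same (i : Fin s) (k : Fin (d i)) : Matrix.trace (EE F i k k i) = 1 := by
  rw [EE_same, Matrix.trace_single_eq_same]

end Units

section Rad

variable {F T : Type*} [Field F] [Ring T] [Algebra F T]

/-- The elements of the radical of a finite dimensional algebra. -/
def RadElt (x : T) : Prop := ∀ y : T, IsNilpotent (y * x)

/-- The idempotents of rank one in a simple component of the semisimple quotient. -/
def IsRankOneIdem (F : Type*) {T : Type*} [Field F] [Ring T] [Algebra F T] (x : T) : Prop :=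
  x * x = x ∧ ¬ RadElt x ∧ ∀ y : T, ∃ c : F, RadElt (x * y * x - c • x)

theorem not_isNilpotent_single_mul {n : ℕ} (X : Matrix (Fin n) (Fin n) F) (k l : Fin n) (h : X k l ≠ 0) :
    ¬ IsNilpotent (Matrix.single l k (1 : F) * X) := by
  rintro ⟨m, hm⟩
  set W := Matrix.single l k (1 : F) * X with hW
  have h1 : W * W = X k l • W := by
    have h2 : Matrix.single l k (1 : F) * X * Matrix.single l k (1 : F) = X k l • Matrix.single l k (1 : F) := by
      rw [Matrix.single_mul_mul_single, Matrix.smul_single]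
      simp
    calc W * W = (Matrix.single l k (1 : F) * X * Matrix.single l k (1 : F)) * X := by
          rw [hW]
          simp only [mul_assoc]
      _ = X k l • W := by
          rw [h2, smul_mul_assoc]
  have h3 : ∀ t : ℕ, W ^ (t + 1) = X k l ^ t • W := by
    intro t
    induction t with
    | zero => simp
    | succ t ih =>
      rw [pow_succ, ih, smul_mul_assoc, h1, smul_smul, pow_succ]
  have h4 : W l l = X k l := by
    rw [hW, Matrix.single_mul_apply_same, one_mul]
  have h5 : W ^ (m + 1) = 0 := by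
    rw [pow_succ, hm, zero_mul]
  rw [h3] at h5
  have h6 := congrFun (congrFun h5 l) l
  rw [Matrix.smul_apply, h4, smul_eq_mul] at h6
  exact (mul_ne_zero (pow_ne_zero _ h) h) h6

theorem radElt_of_nilpotent_ideal {J : Ideal T} {m : ℕ} (hJ : J ^ m = ⊥) {x : T} [J.IsTwoSided] (hx : x ∈ J) :
    RadElt x := by
  intro y
  refine ⟨m, ?_⟩
  have h1 : y * x ∈ J := J.mul_mem_left _ hx
  have h2 : (y * x) ^ m ∈ J ^ m := Ideal.pow_mem_pow h1 m
  rw [hJ] at h2
  exact h2

/-- The structure of a finite dimensional algebra over an algebraically closed field. -/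
theorem exists_wedderburn [IsAlgClosed F] [FiniteDimensional F T] :
    ∃ (s : ℕ) (d : Fin s → ℕ) (_ : ∀ i, NeZero (d i))
      (Θ : T →ₐ[F] Π i, Matrix (Fin (d i)) (Fin (d i)) F),
      Function.Surjective Θ ∧ (∀ x, Θ x = 0 ↔ RadElt x) ∧ ∃ m, ∀ x, Θ x = 0 → x ^ m = 0 := by
  classical
  haveI : IsArtinianRing T := IsArtinianRing.of_finite F T
  let J : Ideal T := Ring.jacobson T
  haveI : IsSemisimpleRing (T ⧸ J) := IsSemiprimaryRing.isSemisimpleRing
  obtain ⟨m, hJm⟩ : ∃ m, J ^ m = ⊥ := IsSemiprimaryRing.isNilpotent (R := T)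
  haveI : FiniteDimensional F (T ⧸ J) :=
    Module.Finite.of_surjective (Ideal.Quotient.mkₐ F J).toLinearMap Ideal.Quotient.mk_surjective
  obtain ⟨s, d, hd, ⟨ψ⟩⟩ := IsSemisimpleRing.exists_algEquiv_pi_matrix_of_isAlgClosed F (T ⧸ J)
  let φ : T →ₐ[F] Π i, Matrix (Fin (d i)) (Fin (d i)) F :=
    ψ.toAlgHom.comp (Ideal.Quotient.mkₐ F J)
  have hφs : Function.Surjective φ := ψ.surjective.comp Ideal.Quotient.mk_surjective
  have hφJ : ∀ x, φ x = 0 ↔ x ∈ J := by
    intro x
    show ψ (Ideal.Quotient.mk J x) = 0 ↔ _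
    rw [map_eq_zero_iff ψ ψ.injective, Ideal.Quotient.eq_zero_iff_mem]
  refine ⟨s, d, hd, φ, hφs, fun x => ⟨fun h => radElt_of_nilpotent_ideal hJm ((hφJ x).1 h), fun h => ?_⟩, m, fun x hx => ?_⟩
  · by_contra h0
    obtain ⟨i, hi⟩ : ∃ i, φ x i ≠ 0 := by
      by_contra h1
      push_neg at h1
      exact h0 (funext h1)
    obtain ⟨k, l, hkl⟩ : ∃ k l, φ x i k l ≠ 0 := by
      by_contra h1
      push_neg at h1
      apply hi
      ext k l
      exact h1 k l
    obtain ⟨y, hy⟩ := hφs (EE F i l k)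
    have h2 := (h y).map φ
    rw [map_mul, hy, EE_mul] at h2
    obtain ⟨t, ht⟩ := h2
    refine not_isNilpotent_single_mul (φ x i) k l hkl ⟨t, ?_⟩
    have h3 := congrFun ht i
    rw [Pi.pow_apply, Pi.single_eq_same] at h3
    exact h3
  · have h1 : x ∈ J := (hφJ x).1 hx
    have h2 : x ^ m ∈ J ^ m := Ideal.pow_mem_pow h1 m
    rw [hJm] at h2
    exact h2

end Rad

section Main

variable {F T : Type*} [Field F] [Ring T] [Algebra F T] {s : ℕ} {d : Fin s → ℕ}
  (Θ : T →ₐ[F] Π i, Matrix (Fin (d i)) (Fin (d i)) F)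

/-- A symmetric functional vanishing on the kernel is a combination of the traces of the components. -/
theorem sym_decomp [hd : ∀ i, NeZero (d i)] (hs : Function.Surjective Θ) (μ : T →ₗ[F] F) (hμ : ∀ a b, μ (a * b) = μ (b * a))
    (hμ0 : ∀ x, Θ x = 0 → μ x = 0) (E0 : Fin s → T) (hE0 : ∀ i, Θ (E0 i) = EE F i 0 0) (a : T) :
    μ a = ∑ i, Matrix.trace (Θ a i) * μ (E0 i) := by
  classical
  have heq : ∀ x y, Θ x = Θ y → μ x = μ y := by
    intro x y h
    have h1 := hμ0 (x - y) (by rw [map_sub, h, sub_self])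
    rw [map_sub] at h1
    exact sub_eq_zero.1 h1
  have hex : ∀ (i : Fin s) (k l : Fin (d i)), ∃ x, Θ x = EE F i k l := fun i k l => hs _
  choose Ex hEx using hex
  have hoff : ∀ (i : Fin s) (k l : Fin (d i)), k ≠ l → μ (Ex i k l) = 0 := by
    intro i k l hkl
    have h1 : μ (Ex i k l) = μ (Ex i k k * Ex i k l - Ex i k l * Ex i k k) := by
      apply heq
      rw [map_sub, map_mul, map_mul, hEx, hEx, EE_mul_EE, EE_mul_EE_ne _ _ _ _ _ hkl.symm, sub_zero]
    rw [h1, map_sub, hμ, sub_self]
  have hdiag : ∀ (i : Fin s) (k : Fin (d i)), μ (Ex i k k) = μ (E0 i) := by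
    intro i k
    have h1 : μ (Ex i k k) = μ (Ex i k 0 * Ex i 0 k) := by
      apply heq
      rw [map_mul, hEx, hEx, hEx, EE_mul_EE]
    have h2 : μ (Ex i 0 k * Ex i k 0) = μ (E0 i) := by
      apply heq
      rw [map_mul, hEx, hEx, hE0, EE_mul_EE]
    rw [h1, hμ, h2]
  have h1 : μ a = μ (∑ i, ∑ k, ∑ l, (Θ a i k l) • Ex i k l) := by
    apply heq
    conv_lhs => rw [eq_sum_EE (Θ a)]
    simp only [map_sum, map_smul, hEx]
  rw [h1]
  simp only [map_sum, map_smul, smul_eq_mul]
  refine Finset.sum_congr rfl fun i _ => ?_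
  rw [Matrix.trace, Finset.sum_mul]
  refine Finset.sum_congr rfl fun k _ => ?_
  rw [Finset.sum_eq_single k]
  · rw [hdiag]
    rfl
  · intro l _ hl
    rw [hoff i k l hl.symm, mul_zero]
  · simp

variable (hR : ∀ x, Θ x = 0 ↔ RadElt x)
include hR

theorem isRankOneIdem_of_EE [hd : ∀ i, NeZero (d i)] (hs : Function.Surjective Θ) {i : Fin s} {x : T}
    (hx : Θ x = EE F i 0 0) (hxx : x * x = x) : IsRankOneIdem F x := by
  refine ⟨hxx, ?_, fun y => ⟨Θ y i 0 0, ?_⟩⟩
  · rw [← hR, hx]
    intro h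
    have h1 := congrFun (congrFun (congrFun h i) 0) 0
    rw [EE_same] at h1
    simp at h1
  · rw [← hR, map_sub, map_mul, map_mul, hx, map_smul, hx, EE_mul_mul_EE, sub_self]

theorem rankOne_ne {x : T} (hx : IsRankOneIdem F x) : Θ x ≠ 0 := fun h => hx.2.1 ((hR x).1 h)

theorem rankOne_scalar (hs : Function.Surjective Θ) {x : T} (hx : IsRankOneIdem F x)
    (X : Π i, Matrix (Fin (d i)) (Fin (d i)) F) : ∃ c : F, Θ x * X * Θ x = c • Θ x := by
  obtain ⟨y, rfl⟩ := hs X
  obtain ⟨c, hc⟩ := hx.2.2 y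
  refine ⟨c, ?_⟩
  have h1 := (hR _).2 hc
  rw [map_sub, map_mul, map_mul, map_smul, sub_eq_zero] at h1
  exact h1

/-- A rank one idempotent lives in a single component. -/
theorem rankOne_comp (hs : Function.Surjective Θ) {x : T} (hx : IsRankOneIdem F x) {i j : Fin s} (hi : Θ x i ≠ 0)
    (hj : j ≠ i) : Θ x j = 0 := by
  classical
  have hid : Θ x * Θ x = Θ x := by rw [← map_mul, hx.1]
  obtain ⟨c, hc⟩ := rankOne_scalar Θ hR hs hx (Pi.single i 1)
  have h1 := congrFun hc i
  have h2 := congrFun hc j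
  simp only [Pi.mul_apply, Pi.single_eq_same, Pi.smul_apply, mul_one] at h1
  have hii : Θ x i * Θ x i = Θ x i := congrFun hid i
  rw [hii] at h1
  have hc1 : c = 1 := by
    have h3 : (1 - c) • Θ x i = 0 := by
      rw [sub_smul, one_smul, ← h1, sub_self]
    rcases smul_eq_zero.1 h3 with h4 | h4
    · exact (sub_eq_zero.1 h4).symm
    · exact absurd h4 hi
  simp only [Pi.mul_apply, Pi.smul_apply, Pi.single_eq_of_ne hj, mul_zero, zero_mul, hc1, one_smul] at h2
  exact h2.symm

/-- A rank one idempotent in the `i`th component is linked to the standard idempotent. -/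
theorem rankOne_link [hd : ∀ i, NeZero (d i)] (hs : Function.Surjective Θ) {x : T} (hx : IsRankOneIdem F x) {i : Fin s}
    (hi : Θ x i ≠ 0) : ∃ a b : (Π i, Matrix (Fin (d i)) (Fin (d i)) F),
      a * b = EE F i 0 0 ∧ b * a = Θ x ∧ EE F i 0 0 * a = a ∧ a * Θ x = a ∧ Θ x * b = b ∧ b * EE F i 0 0 = b := by
  classical
  have hid : Θ x * Θ x = Θ x := by rw [← map_mul, hx.1]
  obtain ⟨k, l, hkl⟩ : ∃ k l, Θ x i k l ≠ 0 := by
    by_contra h1
    push_neg at h1
    apply hi
    ext k l
    exact h1 k l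
  set ε := Θ x with hε
  set c := ε i k l with hc
  refine ⟨EE F i 0 k * ε, c⁻¹ • (ε * EE F i l 0), ?_, ?_, ?_, ?_, ?_, ?_⟩
  · have h1 : EE F i 0 k * ε * (c⁻¹ • (ε * EE F i l 0)) = c⁻¹ • (EE F i 0 k * (ε * ε) * EE F i l 0) := by
      simp only [mul_smul_comm, mul_assoc]
    rw [h1, hid, EE_mul_mul_EE, smul_smul, inv_mul_cancel₀ hkl, one_smul]
  · have hprod : (EE F i 0 k * ε) * (c⁻¹ • (ε * EE F i l 0)) = EE F i 0 0 := by
      have h1 : EE F i 0 k * ε * (c⁻¹ • (ε * EE F i l 0)) = c⁻¹ • (EE F i 0 k * (ε * ε) * EE F i l 0) := by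
        simp only [mul_smul_comm, mul_assoc]
      rw [h1, hid, EE_mul_mul_EE, smul_smul, inv_mul_cancel₀ hkl, one_smul]
    set a := EE F i 0 k * ε with ha
    set b := c⁻¹ • (ε * EE F i l 0) with hb
    obtain ⟨c₁, hc₁⟩ := rankOne_scalar Θ hR hs hx (c⁻¹ • (EE F i l 0 * EE F i 0 k))
    rw [← hε] at hc₁
    have h2 : b * a = c₁ • ε := by
      rw [← hc₁, ha, hb]
      simp only [smul_mul_assoc, mul_smul_comm, mul_assoc]
    have h3 : (b * a) * (b * a) = b * a := by
      calc (b * a) * (b * a) = b * (a * b) * a := by simp only [mul_assoc]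
        _ = b * (EE F i 0 0 * a) := by rw [hprod, mul_assoc]
        _ = b * a := by
          congr 1
          rw [ha, ← mul_assoc, EE_mul_EE]
    have hne : b * a ≠ 0 := by
      intro h0
      have h4 : (a * b) * (a * b) = 0 := by
        calc (a * b) * (a * b) = a * (b * a) * b := by simp only [mul_assoc]
          _ = 0 := by rw [h0]; simp
      rw [hprod, EE_mul_EE] at h4
      have h5 := congrFun (congrFun (congrFun h4 i) 0) 0
      rw [EE_same] at h5
      simp at h5
    have hε0 : ε ≠ 0 := rankOne_ne Θ hR hx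
    have hc₁0 : c₁ ≠ 0 := by
      rintro rfl
      rw [zero_smul] at h2
      exact hne h2
    have h6 : c₁ = 1 := by
      rw [h2, smul_mul_smul_comm, hid] at h3
      have h7 : (c₁ * c₁ - c₁) • ε = 0 := by
        rw [sub_smul, h3, sub_self]
      rcases smul_eq_zero.1 h7 with h8 | h8
      · have h9 : c₁ * (c₁ - 1) = 0 := by linear_combination h8
        rcases mul_eq_zero.1 h9 with h10 | h10
        · exact absurd h10 hc₁0
        · exact sub_eq_zero.1 h10
      · exact absurd h8 hε0
    rw [h2, h6, one_smul]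
  · rw [← mul_assoc, EE_mul_EE]
  · rw [mul_assoc, hid]
  · rw [mul_smul_comm, ← mul_assoc, hid]
  · rw [smul_mul_assoc, mul_assoc, EE_mul_EE]

/-- A commuting idempotent multiplies a rank one idempotent to `0` or to itself. -/
theorem rankOne_mul_idem (hs : Function.Surjective Θ) {x z : T} (hx : IsRankOneIdem F x) (hzz : z * z = z)
    (hc : x * z = z * x) : Θ (x * z) = 0 ∨ Θ (x * z) = Θ x := by
  classical
  have hid : Θ x * Θ x = Θ x := by rw [← map_mul, hx.1]
  obtain ⟨c, hc'⟩ := rankOne_scalar Θ hR hs hx (Θ z)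
  have h0 : Θ x * Θ z = Θ z * Θ x := by rw [← map_mul, hc, map_mul]
  have hzid : Θ z * Θ z = Θ z := by rw [← map_mul, hzz]
  have h1 : Θ (x * z) = c • Θ x := by
    rw [map_mul, ← hc', mul_assoc, ← h0, ← mul_assoc, hid]
  have h2 : (c * c - c) • Θ x = 0 := by
    have h3 : Θ (x * z) * Θ (x * z) = Θ (x * z) := by
      rw [map_mul]
      calc Θ x * Θ z * (Θ x * Θ z) = (Θ x * Θ x) * (Θ z * Θ z) := by
            rw [mul_assoc, ← mul_assoc (Θ z), ← h0]
            simp only [mul_assoc]
        _ = Θ x * Θ z := by rw [hid, hzid]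
    rw [h1, smul_mul_smul_comm, hid] at h3
    rw [sub_smul, h3, sub_self]
  rcases smul_eq_zero.1 h2 with h4 | h4
  · have h9 : c * (c - 1) = 0 := by linear_combination h4
    rcases mul_eq_zero.1 h9 with h10 | h10
    · left
      rw [h1, h10, zero_smul]
    · right
      rw [h1, sub_eq_zero.1 h10, one_smul]
  · exact absurd h4 (rankOne_ne Θ hR hx)

end Main

section Matrix

variable {F : Type*} [Field F] (p : ℕ) [hp : Fact p.Prime] [hF : CharP F p] {n : ℕ}

/-- The trace of a `p`-power of a matrix. -/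
theorem trace_pow_frob (X : Matrix (Fin n) (Fin n) F) (t : ℕ) (ht : t ≠ 0) :
    Matrix.trace (X ^ (p ^ t)) = Matrix.trace X ^ (p ^ t) := by
  classical
  have hX : X = ∑ k, ∑ l, X k l • Matrix.single k l (1 : F) := by
    ext a b
    simp only [Matrix.sum_apply, Matrix.smul_apply, Matrix.single_apply]
    rw [Finset.sum_eq_single a, Finset.sum_eq_single b]
    · simp
    · intro l _ hl
      simp [hl]
    · simp
    · intro k _ hk
      refine Finset.sum_eq_zero fun l _ => ?_
      simp [hk]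
    · simp
  let μ : Matrix (Fin n) (Fin n) F →ₗ[F] F := Matrix.traceLinearMap (Fin n) F F
  have hμ : ∀ a b, μ (a * b) = μ (b * a) := fun a b => Matrix.trace_mul_comm a b
  have hpt : 2 ≤ p ^ t := by
    calc 2 ≤ p := hp.out.two_le
      _ = p ^ 1 := (pow_one p).symm
      _ ≤ p ^ t := Nat.pow_le_pow_right hp.out.pos (Nat.one_le_iff_ne_zero.2 ht)
  have h0 : ∑ k, ∑ l, X k l • Matrix.single k l (1 : F) = ∑ x : Fin n × Fin n, X x.1 x.2 • Matrix.single x.1 x.2 (1 : F) := by
    rw [Fintype.sum_prod_type]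
  have h1 := sym_pow_sum (F := F) p μ hμ t (Finset.univ : Finset (Fin n × Fin n)) (fun x => X x.1 x.2)
    (fun x => Matrix.single x.1 x.2 (1 : F))
  rw [← h0, ← hX] at h1
  show μ (X ^ (p ^ t)) = _
  have hsq : ∀ (k l : Fin n), Matrix.single k l (1 : F) ^ (p ^ t) = if k = l then Matrix.single k l (1 : F) else 0 := by
    intro k l
    by_cases hkl : k = l
    · subst hkl
      rw [if_pos rfl]
      have h2 : IsIdempotentElem (Matrix.single k k (1 : F)) := by
        show Matrix.single k k (1 : F) * Matrix.single k k (1 : F) = Matrix.single k k (1 : F)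
        rw [Matrix.single_mul_single_same, one_mul]
      exact h2.pow_eq (by omega)
    · rw [if_neg hkl]
      obtain ⟨r, hr⟩ : ∃ r, p ^ t = r + 2 := ⟨p ^ t - 2, by omega⟩
      rw [hr, pow_add, pow_two, Matrix.single_mul_single_of_ne _ _ _ _ (Ne.symm hkl), mul_zero]
  rw [h1, Fintype.sum_prod_type, Matrix.trace]
  simp only [Matrix.diag_apply]
  rw [sum_pow_char_pow]
  refine Finset.sum_congr rfl fun k _ => ?_
  rw [Finset.sum_eq_single k]
  · rw [hsq, if_pos rfl]
    have e : μ (Matrix.single k k (1 : F)) = 1 := by simp [μ]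
    rw [e, mul_one]
  · intro l _ hl
    rw [hsq, if_neg (Ne.symm hl), map_zero, mul_zero]
  · simp

end Matrix

end Cfsg.Agent.Lib.Modular
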