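import Mathlib
import Cfsg.Agent.Lib.Modular.WedStruct
import Cfsg.Agent.Lib.Modular.GroupCorner

/-!
# The number of simple components of a group algebra in characteristic `p`

The traces of the simple components of `F[H]` and the `p`-regular classes of `H`: the classes of `p`-regular
elements give a basis of `F[H] / (J + [F[H], F[H]])`.
-/

set_option autoImplicit false
set_option linter.unusedSectionVars false
set_option linter.unusedSimpArgs false
set_option linter.unusedVariables false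
set_option linter.style.haveILetI false
set_option linter.unnecessarySimpa false

namespace Cfsg.Agent.Lib.Modular

open Module

section RegPow

variable {H : Type*} [Group H] [Fintype H] (p : ℕ) [hp : Fact p.Prime]

/-- A power of `p` which is the `p`-regular part map. -/
theorem exists_regPow (m : ℕ) : ∃ n : ℕ, n ≠ 0 ∧ m ≤ p ^ n ∧ (∀ y : H, ¬ p ∣ orderOf y → y ^ (p ^ n) = y) ∧
    ∀ y : H, ¬ p ∣ orderOf (y ^ (p ^ n)) := by
  classical
  have hcard : Nat.card H ≠ 0 := Nat.card_pos.ne'
  obtain ⟨a, q, hq, he⟩ := Nat.exists_eq_pow_mul_and_not_dvd hcard p hp.out.ne_one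
  have hcop : Nat.Coprime p q := (Nat.Prime.coprime_iff_not_dvd hp.out).2 hq
  have hq0 : q ≠ 0 := fun h => hq (h ▸ dvd_zero p)
  have hφ : 0 < q.totient := Nat.totient_pos.2 (Nat.pos_of_ne_zero hq0)
  set n := (a + m + 1) * q.totient with hn
  have hna : a + m + 1 ≤ n := Nat.le_mul_of_pos_right _ hφ
  have hmod : p ^ n ≡ 1 [MOD q] := by
    have h1 := Nat.ModEq.pow_totient hcop
    have h2 := h1.pow (a + m + 1)
    rw [one_pow, ← pow_mul, mul_comm] at h2
    exact h2
  refine ⟨n, by omega, ?_, ?_, ?_⟩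
  · have h1 : n < p ^ n := Nat.lt_pow_self hp.out.one_lt
    omega
  · intro y hy
    have h1 : orderOf y ∣ q := by
      have h2 : orderOf y ∣ p ^ a * q := he ▸ orderOf_dvd_natCard y
      have h3 : Nat.Coprime (orderOf y) (p ^ a) :=
        Nat.Coprime.pow_right _ ((Nat.Prime.coprime_iff_not_dvd hp.out).2 hy).symm
      exact h3.dvd_of_dvd_mul_left h2
    have h4 : p ^ n ≡ 1 [MOD orderOf y] := hmod.of_dvd h1
    have h5 := pow_eq_pow_iff_modEq.2 h4
    rw [pow_one] at h5
    exact h5
  · intro y hy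
    have h1 : (y ^ (p ^ n)) ^ q = 1 := by
      rw [← pow_mul]
      have h2 : Nat.card H ∣ p ^ n * q := by
        rw [he]
        exact Nat.mul_dvd_mul_right (pow_dvd_pow p (by omega)) q
      exact orderOf_dvd_iff_pow_eq_one.1 ((orderOf_dvd_natCard y).trans h2)
    have h3 := orderOf_dvd_of_pow_eq_one h1
    exact hq (hy.trans h3)

end RegPow

section Reps

variable (H : Type*) [Group H] [Fintype H]

/-- Representatives of the classes of the members of a conjugation invariant set. -/
theorem exists_class_reps (P : H → Prop) (hP : ∀ {a b : H}, IsConj a b → P a → P b) :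
    ∃ R : Finset H, (∀ x ∈ R, P x) ∧ ∀ g : H, P g → ∃! x, x ∈ R ∧ IsConj g x := by
  classical
  have hout : ∀ g : H, IsConj g (Quotient.out (ConjClasses.mk g)) := by
    intro g
    rw [← ConjClasses.mk_eq_mk_iff_isConj]
    exact (Quotient.out_eq _).symm
  refine ⟨(Finset.univ.filter P).image fun g => Quotient.out (ConjClasses.mk g), ?_, ?_⟩
  · intro x hx
    obtain ⟨g, hg, rfl⟩ := Finset.mem_image.1 hx
    exact hP (hout g) (Finset.mem_filter.1 hg).2
  · intro g hg
    refine ⟨_, ⟨Finset.mem_image.2 ⟨g, Finset.mem_filter.2 ⟨Finset.mem_univ _, hg⟩, rfl⟩, hout g⟩, ?_⟩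
    rintro y ⟨hy, hgy⟩
    obtain ⟨g', hg', rfl⟩ := Finset.mem_image.1 hy
    have h3 : ConjClasses.mk g' = ConjClasses.mk g := by
      rw [ConjClasses.mk_eq_mk_iff_isConj]
      exact (hout g').trans hgy.symm
    rw [h3]

end Reps

section Lam

variable {F H : Type*} [Field F] [Group H] [Fintype H]

/-- The linear functional with prescribed values on the group elements. -/
noncomputable def lamF (u : H → F) : MonoidAlgebra F H →ₗ[F] F where
  toFun a := ∑ y, a.coeff y * u y
  map_add' a b := by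
    simp only [MonoidAlgebra.coeff_add, Finsupp.add_apply, add_mul, Finset.sum_add_distrib]
  map_smul' c a := by
    simp only [MonoidAlgebra.coeff_smul, Finsupp.smul_apply, smul_eq_mul, RingHom.id_apply, Finset.mul_sum, mul_assoc]

theorem lamF_apply (u : H → F) (a : MonoidAlgebra F H) : lamF u a = ∑ y, a.coeff y * u y := rfl

theorem lamF_gg (u : H → F) (y : H) : lamF u (gg F y) = u y := by
  classical
  rw [lamF_apply, Finset.sum_eq_single y]
  · simp [gg]
  · intro b _ hb
    simp [gg, MonoidAlgebra.single_apply, hb.symm]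
  · simp

theorem sym_of_gg (μ : MonoidAlgebra F H →ₗ[F] F) (hμ : ∀ x y : H, μ (gg F (x * y)) = μ (gg F (y * x)))
    (a b : MonoidAlgebra F H) : μ (a * b) = μ (b * a) := by
  conv_lhs => rw [eq_sum_gg a, eq_sum_gg b]
  conv_rhs => rw [eq_sum_gg a, eq_sum_gg b]
  simp only [Finset.sum_mul, Finset.mul_sum, map_sum, smul_mul_smul_comm, gg_mul, map_smul, smul_eq_mul]
  rw [Finset.sum_comm]
  refine Finset.sum_congr rfl fun x _ => Finset.sum_congr rfl fun y _ => ?_
  rw [hμ, mul_comm (a.coeff x)]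

theorem lamF_sym {u : H → F} (hu : ∀ x y, u (x * y) = u (y * x)) (a b : MonoidAlgebra F H) :
    lamF u (a * b) = lamF u (b * a) :=
  sym_of_gg _ (fun x y => by rw [lamF_gg, lamF_gg, hu]) a b

theorem gg_pow (y : H) (n : ℕ) : gg F y ^ n = gg F (y ^ n) := by
  simp [gg, MonoidAlgebra.single_pow]

variable (p : ℕ) [hp : Fact p.Prime] [hF : CharP F p]

/-- The Frobenius formula in a group algebra. -/
theorem sym_pow_group (μ : MonoidAlgebra F H →ₗ[F] F) (hμ : ∀ a b, μ (a * b) = μ (b * a)) (n : ℕ)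
    (a : MonoidAlgebra F H) : μ (a ^ (p ^ n)) = ∑ y, a.coeff y ^ (p ^ n) * μ (gg F (y ^ (p ^ n))) := by
  conv_lhs => rw [eq_sum_gg a]
  rw [sym_pow_sum p μ hμ n Finset.univ (fun y => a.coeff y) (fun y => gg F y)]
  simp only [gg_pow]

/-- A class functional vanishing on the `p`-regular elements vanishes on the idempotents. -/
theorem lamF_idem_eq_zero {n : ℕ} (hn : ∀ y : H, ¬ p ∣ orderOf (y ^ (p ^ n))) {u : H → F}
    (hu : ∀ x y, u (x * y) = u (y * x)) (hreg : ∀ y, ¬ p ∣ orderOf y → u y = 0) {e : MonoidAlgebra F H}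
    (he : e * e = e) : lamF u e = 0 := by
  have hpn : p ^ n ≠ 0 := pow_ne_zero _ hp.out.ne_zero
  have h1 : e ^ (p ^ n) = e := (show IsIdempotentElem e from he).pow_eq hpn
  rw [← h1, sym_pow_group p _ (lamF_sym hu)]
  refine Finset.sum_eq_zero fun y _ => ?_
  rw [lamF_gg, hreg _ (hn y), mul_zero]

open Classical in
/-- The indicator function of a class. -/
noncomputable def indC (F : Type*) [Field F] {H : Type*} [Group H] (h : H) : H → F :=
  fun y => if IsConj y h then 1 else 0

open Classical in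
/-- The indicator function of the elements whose `N`th power lie in a class. -/
noncomputable def indR (F : Type*) [Field F] {H : Type*} [Group H] (N : ℕ) (h : H) : H → F :=
  fun y => if IsConj (y ^ N) h then 1 else 0

theorem isConj_mul_comm (x y : H) : IsConj (x * y) (y * x) :=
  isConj_iff.2 ⟨y, by group⟩

theorem indC_pos {h y : H} (c : IsConj y h) : indC F h y = 1 := if_pos c

theorem indC_neg {h y : H} (c : ¬ IsConj y h) : indC F h y = 0 := if_neg c

theorem indR_pos {N : ℕ} {h y : H} (c : IsConj (y ^ N) h) : indR F N h y = 1 := if_pos c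

theorem indR_neg {N : ℕ} {h y : H} (c : ¬ IsConj (y ^ N) h) : indR F N h y = 0 := if_neg c

theorem indC_comm (h x y : H) : indC F h (x * y) = indC F h (y * x) := by
  by_cases c : IsConj (x * y) h
  · rw [indC_pos c, indC_pos ((isConj_mul_comm y x).trans c)]
  · rw [indC_neg c, indC_neg (fun c' => c ((isConj_mul_comm x y).trans c'))]

theorem indR_comm (N : ℕ) (h x y : H) : indR F N h (x * y) = indR F N h (y * x) := by
  by_cases c : IsConj ((x * y) ^ N) h
  · rw [indR_pos c, indR_pos (((isConj_mul_comm y x).pow N).trans c)]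
  · rw [indR_neg c, indR_neg (fun c' => c (((isConj_mul_comm x y).pow N).trans c'))]

/-- On idempotents, the two functionals agree. -/
theorem lamF_indR_idem {n : ℕ} (hn : ∀ y : H, ¬ p ∣ orderOf (y ^ (p ^ n))) (hn' : ∀ y : H, ¬ p ∣ orderOf y → y ^ (p ^ n) = y)
    (h : H) {e : MonoidAlgebra F H} (he : e * e = e) : lamF (indR F (p ^ n) h) e = lamF (indC F h) e := by
  classical
  have h1 := lamF_idem_eq_zero (F := F) p hn (u := fun y => indR F (p ^ n) h y - indC F h y)
    (fun x y => by simp only [indR_comm, indC_comm]) (fun y hy => by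
      show indR F (p ^ n) h y - indC F h y = 0
      by_cases c : IsConj y h
      · rw [indR_pos (by rwa [hn' y hy]), indC_pos c, sub_self]
      · rw [indR_neg (by rwa [hn' y hy]), indC_neg c, sub_self]) he
  have h2 : lamF (fun y => indR F (p ^ n) h y - indC F h y) e = lamF (indR F (p ^ n) h) e - lamF (indC F h) e := by
    simp only [lamF_apply, mul_sub, Finset.sum_sub_distrib]
  rw [h2] at h1
  exact sub_eq_zero.1 h1

theorem lamF_indR_pow (n : ℕ) (h : H) (a : MonoidAlgebra F H) :
    lamF (indR F (p ^ n) h) a ^ (p ^ n) = ∑ y, a.coeff y ^ (p ^ n) * indR F (p ^ n) h y := by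
  classical
  rw [lamF_apply, sum_pow_char_pow]
  refine Finset.sum_congr rfl fun y _ => ?_
  rw [mul_pow]
  congr 1
  by_cases c : IsConj (y ^ (p ^ n)) h
  · rw [indR_pos c, one_pow]
  · rw [indR_neg c, zero_pow (pow_ne_zero _ hp.out.ne_zero)]

theorem lamF_indC_pow (n : ℕ) (h : H) (a : MonoidAlgebra F H) :
    lamF (indC F h) (a ^ (p ^ n)) = lamF (indR F (p ^ n) h) a ^ (p ^ n) := by
  rw [sym_pow_group p _ (lamF_sym (indC_comm h)), lamF_indR_pow]
  refine Finset.sum_congr rfl fun y _ => ?_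
  rw [lamF_gg]
  by_cases c : IsConj (y ^ (p ^ n)) h
  · rw [indR_pos c, indC_pos c]
  · rw [indR_neg c, indC_neg c]

/-- A symmetric functional in terms of the regular classes. -/
theorem sym_pow_reps {n : ℕ} (hn : ∀ y : H, ¬ p ∣ orderOf (y ^ (p ^ n))) (R : Finset H)
    (hR : ∀ g : H, ¬ p ∣ orderOf g → ∃! x, x ∈ R ∧ IsConj g x)
    (μ : MonoidAlgebra F H →ₗ[F] F) (hμ : ∀ a b, μ (a * b) = μ (b * a)) (a : MonoidAlgebra F H) :
    μ (a ^ (p ^ n)) = ∑ h ∈ R, lamF (indR F (p ^ n) h) a ^ (p ^ n) * μ (gg F h) := by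
  classical
  have hconj : ∀ {x x' : H}, IsConj x x' → μ (gg F x) = μ (gg F x') := by
    intro x x' hc
    obtain ⟨c, rfl⟩ := isConj_iff.1 hc
    have e : gg F (c * x * c⁻¹) = gg F (c * x) * gg F c⁻¹ := by rw [gg_mul]
    rw [e, hμ, gg_mul]
    simp
  have h1 : ∀ y : H, μ (gg F (y ^ (p ^ n))) = ∑ h ∈ R, indR F (p ^ n) h y * μ (gg F h) := by
    intro y
    obtain ⟨x, ⟨hx, hc⟩, hu⟩ := hR _ (hn y)
    rw [Finset.sum_eq_single x]
    · rw [hconj hc, indR_pos hc, one_mul]
    · intro b hb hne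
      have : ¬ IsConj (y ^ (p ^ n)) b := fun h => hne (hu b ⟨hb, h⟩)
      rw [indR_neg this, zero_mul]
    · intro h
      exact absurd hx h
  rw [sym_pow_group p μ hμ]
  simp only [h1, lamF_indR_pow, Finset.mul_sum, Finset.sum_mul]
  rw [Finset.sum_comm]
  refine Finset.sum_congr rfl fun h _ => Finset.sum_congr rfl fun y _ => ?_
  ring

end Lam

section Count

variable {F H : Type*} [Field F] [Group H] [Fintype H] (p : ℕ) [hp : Fact p.Prime] [hF : CharP F p]
  {s : ℕ} {d : Fin s → ℕ} (Θ : MonoidAlgebra F H →ₐ[F] Π i, Matrix (Fin (d i)) (Fin (d i)) F)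

/-- The trace of a component. -/
noncomputable def compTr (j : Fin s) : MonoidAlgebra F H →ₗ[F] F :=
  (Matrix.traceLinearMap (Fin (d j)) F F) ∘ₗ (LinearMap.proj j) ∘ₗ Θ.toLinearMap

theorem compTr_apply (j : Fin s) (a : MonoidAlgebra F H) : compTr Θ j a = Matrix.trace (Θ a j) := rfl

theorem compTr_sym (j : Fin s) (a b : MonoidAlgebra F H) : compTr Θ j (a * b) = compTr Θ j (b * a) := by
  rw [compTr_apply, compTr_apply, map_mul, map_mul]
  exact Matrix.trace_mul_comm _ _

/-- The traces of the components factor through the functionals `lamF (indR ..)`. -/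
theorem compTr_eq_zero {n : ℕ} (hn0 : n ≠ 0) (hn : ∀ y : H, ¬ p ∣ orderOf (y ^ (p ^ n))) (R : Finset H)
    (hR : ∀ g : H, ¬ p ∣ orderOf g → ∃! x, x ∈ R ∧ IsConj g x) {a : MonoidAlgebra F H}
    (ha : ∀ h ∈ R, lamF (indR F (p ^ n) h) a = 0) (j : Fin s) : compTr Θ j a = 0 := by
  have hpn : p ^ n ≠ 0 := pow_ne_zero _ hp.out.ne_zero
  have h1 := sym_pow_reps p hn R hR (compTr Θ j) (compTr_sym Θ j) a
  rw [Finset.sum_eq_zero (fun h hh => by rw [ha h hh, zero_pow hpn, zero_mul])] at h1
  have h2 : compTr Θ j (a ^ (p ^ n)) = Matrix.trace (Θ a j) ^ (p ^ n) := by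
    rw [compTr_apply, map_pow, Pi.pow_apply, trace_pow_frob p _ n hn0]
  rw [h2] at h1
  exact pow_eq_zero_iff hpn |>.1 h1

variable [hd : ∀ i, NeZero (d i)] {Θ}

/-- The vectors of class sums of the standard idempotents are independent. -/
theorem classSum_indep {n : ℕ} (hn0 : n ≠ 0) (hn : ∀ y : H, ¬ p ∣ orderOf (y ^ (p ^ n)))
    (hn' : ∀ y : H, ¬ p ∣ orderOf y → y ^ (p ^ n) = y) (R : Finset H)
    (hR : ∀ g : H, ¬ p ∣ orderOf g → ∃! x, x ∈ R ∧ IsConj g x)
    (E0 : Fin s → MonoidAlgebra F H) (hE0 : ∀ i, Θ (E0 i) = EE F i 0 0) (hEE : ∀ i, E0 i * E0 i = E0 i) :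
    LinearIndependent F (fun i : Fin s => fun h : R => lamF (indC F (h : H)) (E0 i)) := by
  classical
  rw [Fintype.linearIndependent_iff]
  intro c hc j
  have h1 : ∀ h ∈ R, lamF (indR F (p ^ n) h) (∑ i, c i • E0 i) = 0 := by
    intro h hh
    have h2 := congrFun hc ⟨h, hh⟩
    simp only [Finset.sum_apply, Pi.smul_apply, Pi.zero_apply, smul_eq_mul] at h2
    rw [map_sum, ← h2]
    refine Finset.sum_congr rfl fun i _ => ?_
    rw [map_smul, smul_eq_mul, lamF_indR_idem p hn hn' h (hEE i)]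
  have h3 := compTr_eq_zero p Θ hn0 hn R hR h1 j
  rw [map_sum, Finset.sum_eq_single j] at h3
  · rw [map_smul, compTr_apply, hE0, trace_EE_same, smul_eq_mul, mul_one] at h3
    exact h3
  · intro i _ hi
    rw [map_smul, compTr_apply, hE0, trace_EE_ne hi.symm, smul_zero]
  · simp

/-- The number of `p`-regular classes is at most the number of components. -/
theorem card_reps_le {n : ℕ} (hn0 : n ≠ 0) (hn : ∀ y : H, ¬ p ∣ orderOf (y ^ (p ^ n)))
    (hn' : ∀ y : H, ¬ p ∣ orderOf y → y ^ (p ^ n) = y) (R : Finset H)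
    (hR0 : ∀ h ∈ R, ¬ p ∣ orderOf h) (hR : ∀ g : H, ¬ p ∣ orderOf g → ∃! x, x ∈ R ∧ IsConj g x)
    (hs : Function.Surjective Θ) (hnil : ∀ x, Θ x = 0 → x ^ (p ^ n) = 0)
    (E0 : Fin s → MonoidAlgebra F H) (hE0 : ∀ i, Θ (E0 i) = EE F i 0 0) :
    R.card ≤ s := by
  classical
  have hpn : p ^ n ≠ 0 := pow_ne_zero _ hp.out.ne_zero
  -- the functionals vanish on the kernel
  have hker : ∀ (h : H) (x : MonoidAlgebra F H), Θ x = 0 → lamF (indR F (p ^ n) h) x = 0 := by
    intro h x hx
    have h1 := lamF_indC_pow (F := F) p n h x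
    rw [hnil x hx, map_zero] at h1
    exact (pow_eq_zero_iff hpn).1 h1.symm
  have hdecomp : ∀ (h : H) (a : MonoidAlgebra F H), lamF (indR F (p ^ n) h) a =
      ∑ i, compTr Θ i a * lamF (indR F (p ^ n) h) (E0 i) := by
    intro h a
    exact sym_decomp Θ hs _ (lamF_sym (indR_comm _ h)) (hker h) E0 hE0 a
  let L₁ : (R → F) →ₗ[F] (Fin s → F) := LinearMap.pi fun i =>
    ∑ h : R, (compTr Θ i (gg F (h : H))) • LinearMap.proj h
  have hL₁ : ∀ (c : R → F) (i : Fin s), L₁ c i = ∑ h : R, compTr Θ i (gg F (h : H)) * c h := by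
    intro c i
    simp [L₁, LinearMap.sum_apply]
  have hinj : Function.Injective L₁ := by
    rw [← LinearMap.ker_eq_bot, LinearMap.ker_eq_bot']
    intro c hc
    funext h₀
    -- evaluate the functional of `h₀`
    have h1 : ∀ h : R, ∑ i, compTr Θ i (gg F (h : H)) * lamF (indR F (p ^ n) (h₀ : H)) (E0 i) =
        if h = h₀ then 1 else 0 := by
      intro h
      rw [← hdecomp, lamF_gg]
      by_cases he : h = h₀
      · rw [if_pos he, indR_pos]
        rw [he, hn' _ (hR0 _ h₀.2)]
      · rw [if_neg he, indR_neg]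
        rw [hn' _ (hR0 _ h.2)]
        intro hconj
        apply he
        apply Subtype.ext
        exact (hR _ (hR0 _ h.2)).unique ⟨h.2, IsConj.refl _⟩ ⟨h₀.2, hconj⟩
    have h2 : ∑ i, (L₁ c i) * lamF (indR F (p ^ n) (h₀ : H)) (E0 i) = c h₀ := by
      simp only [hL₁, Finset.sum_mul]
      rw [Finset.sum_comm]
      have h3 : ∀ h : R, ∑ i, compTr Θ i (gg F (h : H)) * c h * lamF (indR F (p ^ n) (h₀ : H)) (E0 i) =
          c h * if h = h₀ then 1 else 0 := by
        intro h
        rw [← h1, Finset.mul_sum]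
        refine Finset.sum_congr rfl fun i _ => ?_
        ring
      simp only [h3]
      simp
    rw [← h2, hc]
    simp
  have h := LinearMap.finrank_le_finrank_of_injective hinj
  simpa using h

end Count

end Cfsg.Agent.Lib.Modular
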