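import Mathlib
import Cfsg.Agent.Lib.Modular.PimCount
import Cfsg.Agent.Lib.Modular.KulBlock
import Cfsg.Agent.Lib.Block.Subsect

/-!
# A canonical basis of the `p`-regular truncations of the characters

For an idempotent `e` of the group algebra over the local ring, `pimFun e = ∑ χ, tr χ e • χ` is the character of the
projective module `e`.  The `p`-regular truncations of these characters, for `e` reducing to an idempotent of rank one
modulo the radical, form a basis of the `p`-regular truncations of the characters, compatible with blocks, and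
invariant under the isomorphisms of groups.
-/

set_option autoImplicit false
set_option linter.unusedSectionVars false
set_option linter.unusedSimpArgs false
set_option linter.unusedVariables false
set_option linter.style.haveILetI false
set_option linter.unnecessarySimpa false

namespace Cfsg.Agent.Lib.Modular

open Module Cfsg Cfsg.Agent.Lib.Block Cfsg.Agent.Lib.CharExtra Cfsg.Agent.Lib.Char
open scoped ComplexConjugate

section Phi

variable {H : Type*} [Group H] [Fintype H]

/-- The character of the projective module of an idempotent. -/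
noncomputable def pimFun (e : MonoidAlgebra ℂ H) : H → ℂ := fun h => ∑ g, e.coeff (g * h⁻¹ * g⁻¹)

theorem pimFun_isClass (e : MonoidAlgebra ℂ H) : IsClassFunction H (pimFun e) := by
  intro h a
  unfold pimFun
  refine Fintype.sum_equiv (Equiv.mulRight a) _ _ fun g => ?_
  congr 1
  simp only [Equiv.coe_mulRight, mul_inv_rev, inv_inv]
  group

theorem classInner_pimFun (e : MonoidAlgebra ℂ H) (χ : IrrCharacter H) :
    classInner (pimFun e) (χ : H → ℂ) = tr (χ : H → ℂ) e := by
  classical
  have hch := IsIrrCharacter.isCharacter χ.2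
  have hc := IsCharacter.isClassFunction hch
  rw [classInner_def]
  have h1 : ∀ h : H, pimFun e h * conj ((χ : H → ℂ) h) =
      ∑ g, e.coeff (g * h⁻¹ * g⁻¹) * (χ : H → ℂ) (g * h⁻¹ * g⁻¹) := by
    intro h
    unfold pimFun
    rw [Finset.sum_mul]
    refine Finset.sum_congr rfl fun g _ => ?_
    rw [hc h⁻¹ g, IsCharacter.map_inv' hch]
  simp only [h1]
  rw [Finset.sum_comm]
  have h2 : ∀ g : H, ∑ h : H, e.coeff (g * h⁻¹ * g⁻¹) * (χ : H → ℂ) (g * h⁻¹ * g⁻¹) = tr (χ : H → ℂ) e := by
    intro g
    unfold tr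
    exact Fintype.sum_equiv ((Equiv.inv H).trans (MulAut.conj g).toEquiv) _ _ fun h => rfl
  simp only [h2, Finset.sum_const, Finset.card_univ, nsmul_eq_mul]
  rw [← Nat.card_eq_fintype_card, ← mul_assoc, inv_mul_cancel₀ (by exact_mod_cast Nat.card_pos.ne'), one_mul]

theorem pimFun_eq_sum (e : MonoidAlgebra ℂ H) :
    pimFun e = ∑ χ : IrrCharacter H, tr (χ : H → ℂ) e • (χ : H → ℂ) := by
  conv_lhs => rw [classFunction_eq_sum _ (pimFun_isClass e)]
  simp only [classInner_pimFun]

open Classical in
/-- The sum of the coefficients over a class. -/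
noncomputable def clsSum (e : MonoidAlgebra ℂ H) (h : H) : ℂ := ∑ y, if IsConj y h then e.coeff y else 0

theorem pimFun_inv (e : MonoidAlgebra ℂ H) (h : H) :
    pimFun e h⁻¹ = (Nat.card (Subgroup.centralizer ({h} : Set H)) : ℂ) * clsSum e h := by
  classical
  let Fx : H → ℂ := fun x => ∑ g, e.coeff (g * x * g⁻¹)
  have hFx : ∀ g x, Fx (x * g * x⁻¹) = Fx g := by
    intro g x
    refine Fintype.sum_equiv (Equiv.mulRight x) _ _ fun a => ?_
    congr 1
    simp only [Equiv.coe_mulRight, mul_inv_rev]
    group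
  have h1 := sum_filter_isConj Fx hFx h
  have h2 : ∀ g : H, ∑ x ∈ Finset.univ.filter (fun x => IsConj h x), e.coeff (g * x * g⁻¹) = clsSum e h := by
    intro g
    unfold clsSum
    rw [← Finset.sum_filter]
    refine Finset.sum_bij' (fun x _ => g * x * g⁻¹) (fun y _ => g⁻¹ * y * g) ?_ ?_ ?_ ?_ ?_
    · intro x hx
      simp only [Finset.mem_filter, Finset.mem_univ, true_and] at hx ⊢
      exact (hx.trans (isConj_iff.2 ⟨g, rfl⟩)).symm
    · intro y hy
      simp only [Finset.mem_filter, Finset.mem_univ, true_and] at hy ⊢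
      exact hy.symm.trans (isConj_iff.2 ⟨g⁻¹, by group⟩)
    · intro x _
      group
    · intro y _
      group
    · intro x _
      rfl
  have h3 : ∑ x ∈ Finset.univ.filter (fun x => IsConj h x), Fx x = (Nat.card H : ℂ) * clsSum e h := by
    simp only [Fx]
    rw [Finset.sum_comm]
    simp only [h2, Finset.sum_const, Finset.card_univ, nsmul_eq_mul, Nat.card_eq_fintype_card]
  rw [h3, nsmul_eq_mul] at h1
  have h4 := index_mul_card_centralizer h
  have h5 : (Nat.card H : ℂ) = (Subgroup.centralizer ({h} : Set H)).index *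
      (Nat.card (Subgroup.centralizer ({h} : Set H)) : ℂ) := by
    exact_mod_cast h4.symm
  have h6 : ((Subgroup.centralizer ({h} : Set H)).index : ℂ) ≠ 0 := by
    exact_mod_cast (centralizer_index_pos h).ne'
  rw [h5, mul_assoc] at h1
  have h7 := mul_left_cancel₀ h6 h1
  have h8 : pimFun e h⁻¹ = Fx h := by
    unfold pimFun
    simp only [inv_inv, Fx]
  rw [h8, ← h7]

variable (p : ℕ)

/-- The `p`-regular truncation of the character of the projective module of an idempotent. -/
noncomputable def pim0 (e : MonoidAlgebra ℂ H) : H → ℂ := pRegularPart p (pimFun e)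

theorem pim0_eq_sum (e : MonoidAlgebra ℂ H) :
    pim0 p e = ∑ χ : IrrCharacter H, tr (χ : H → ℂ) e • pRegularPart p (χ : H → ℂ) := by
  funext y
  unfold pim0
  by_cases hy : p ∣ orderOf y
  · rw [pRegularPart_of_sing hy, Finset.sum_apply]
    symm
    refine Finset.sum_eq_zero fun χ _ => ?_
    rw [Pi.smul_apply, pRegularPart_of_sing hy, smul_zero]
  · rw [pRegularPart_of_reg hy, pimFun_eq_sum, Finset.sum_apply, Finset.sum_apply]
    refine Finset.sum_congr rfl fun χ _ => ?_
    rw [Pi.smul_apply, Pi.smul_apply, pRegularPart_of_reg hy]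

theorem pim0_mem {A : Set (IrrCharacter H)} {e : MonoidAlgebra ℂ H} (h : ∀ χ : IrrCharacter H, χ ∉ A → tr (χ : H → ℂ) e = 0) :
    pim0 p e ∈ regSpan p A := by
  rw [pim0_eq_sum]
  refine Submodule.sum_mem _ fun χ _ => ?_
  by_cases hχ : χ ∈ A
  · exact Submodule.smul_mem _ _ (Submodule.subset_span ⟨χ, hχ, rfl⟩)
  · rw [h χ hχ, zero_smul]
    exact Submodule.zero_mem _

theorem pim0_congr {e e' : MonoidAlgebra ℂ H} (h : ∀ χ : IrrCharacter H, tr (χ : H → ℂ) e = tr (χ : H → ℂ) e') :
    pim0 p e = pim0 p e' := by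
  rw [pim0_eq_sum, pim0_eq_sum]
  simp only [h]

theorem pim0_inv {e : MonoidAlgebra ℂ H} {h : H} (hh : ¬ p ∣ orderOf h) :
    pim0 p e h⁻¹ = (Nat.card (Subgroup.centralizer ({h} : Set H)) : ℂ) * clsSum e h := by
  unfold pim0
  rw [pRegularPart_of_reg (by rwa [orderOf_inv]), pimFun_inv]

end Phi

section Rad

variable {H : Type*} [Group H] [Fintype H] {p : ℕ} [hp : Fact p.Prime] {M : Ideal AlgInt} [hMp : M.IsPrime]

theorem exists_inv_of_rad (hM : IsPModular p M) {w : MonoidAlgebra ℂ H} (hw : LocalCoeff M w)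
    (h : RadElt (rd M w - 1)) : ∃ w', w * w' = 1 ∧ w' * w = 1 := by
  have h1 : IsNilpotent (rd M w - 1) := by
    have := h 1
    rwa [one_mul] at this
  have h2 : IsUnit (rd M w) := by
    have := h1.isUnit_add_one
    rwa [sub_add_cancel] at this
  obtain ⟨u, hu⟩ := h2
  obtain ⟨v, hv, hrd⟩ := exists_lift (M := M) ((u⁻¹ : (MonoidAlgebra (ResField M) H)ˣ) : MonoidAlgebra (ResField M) H)
  have h3 : LocalIdealCoeff M (1 - w * v) := by
    rw [← rd_eq_iff localCoeff_one (localCoeff_mul hw hv), rd_one, rd_mul hw hv, hrd, ← hu, Units.mul_inv]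
  have h4 : LocalIdealCoeff M (1 - v * w) := by
    rw [← rd_eq_iff localCoeff_one (localCoeff_mul hv hw), rd_one, rd_mul hv hw, hrd, ← hu, Units.inv_mul]
  obtain ⟨w₁, h5, -⟩ := exists_inv_of_congr_one hM h3
  obtain ⟨w₂, -, h6⟩ := exists_inv_of_congr_one hM h4
  refine ⟨v * w₁, by rw [← mul_assoc, h5], ?_⟩
  have h7 : w₂ * v * w = 1 := by rw [mul_assoc, h6]
  have h8 : v * w₁ = w₂ * v := by
    calc v * w₁ = (w₂ * v * w) * (v * w₁) := by rw [h7, one_mul]
      _ = w₂ * v * (w * v * w₁) := by noncomm_ring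
      _ = w₂ * v := by rw [h5, mul_one]
  rw [h8, h7]

/-- The version of `idem_tr_le` modulo the radical. -/
theorem idem_tr_le_rad (hM : IsPModular p M) {χ : H → ℂ} (hχ : IsCharacter H χ) {y y' a b : MonoidAlgebra ℂ H}
    (hyy : y * y = y) (hy'y' : y' * y' = y') (hy'l : LocalCoeff M y') (hal : LocalCoeff M a) (hbl : LocalCoeff M b)
    (ha1 : y' * a = a) (ha2 : a * y = a) (hb1 : y * b = b) (hb2 : b * y' = b)
    (hab : RadElt (rd M (a * b) - rd M y')) : ∃ k : ℕ, tr χ y = tr χ y' + k := by
  classical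
  have hc := IsCharacter.isClassFunction hχ
  set w := a * b + (1 - y') with hw
  have hwl : LocalCoeff M w := localCoeff_add (localCoeff_mul hal hbl) (localCoeff_sub localCoeff_one hy'l)
  have h1w : RadElt (rd M w - 1) := by
    have e : rd M w - 1 = rd M (a * b) - rd M y' := by
      rw [hw, rd_add (localCoeff_mul hal hbl) (localCoeff_sub localCoeff_one hy'l), rd_sub localCoeff_one hy'l, rd_one]
      abel
    rwa [e]
  obtain ⟨w', hw1, hw2⟩ := exists_inv_of_rad hM hwl h1w
  have e1 : y' * w = a * b := by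
    rw [hw, mul_add, ← mul_assoc, ha1, mul_sub, mul_one, hy'y', sub_self, add_zero]
  have e2 : w * y' = a * b := by
    rw [hw, add_mul, mul_assoc, hb2, sub_mul, one_mul, hy'y', sub_self, add_zero]
  have e3 : w' * y' = y' * w' := by
    calc w' * y' = w' * (y' * w) * w' := by rw [mul_assoc w' (y' * w) w', mul_assoc y' w w', hw1, mul_one]
      _ = w' * (w * y') * w' := by rw [e1, e2]
      _ = y' * w' := by rw [← mul_assoc w' w y', hw2, one_mul]
  set π := b * w' * a with hπ
  have hππ : π * π = π := by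
    calc π * π = b * w' * (a * b) * w' * a := by rw [hπ]; noncomm_ring
      _ = b * w' * (w * y') * w' * a := by rw [e2]
      _ = b * (w' * w) * y' * w' * a := by noncomm_ring
      _ = b * (w' * y') * a := by rw [hw2, mul_one, mul_assoc b y' w', ← e3]
      _ = b * (y' * w') * a := by rw [e3]
      _ = b * w' * (y' * a) := by rw [← e3]; noncomm_ring
      _ = π := by rw [ha1]
  have hyπ : y * π = π := by
    rw [hπ, ← mul_assoc, ← mul_assoc, hb1]
  have hπy : π * y = π := by
    rw [hπ, mul_assoc, ha2]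
  have htr : tr χ π = tr χ y' := by
    rw [hπ, tr_mul_comm_class hc]
    congr 1
    calc a * (b * w') = (a * b) * w' := by rw [mul_assoc]
      _ = (w * y') * w' := by rw [e2]
      _ = w * (w' * y') := by rw [e3]; noncomm_ring
      _ = y' := by rw [← mul_assoc, hw1, one_mul]
  have hcomp : (y - π) * (y - π) = y - π := by
    rw [mul_sub, sub_mul, sub_mul, hyy, hyπ, hπy, hππ]
    abel
  obtain ⟨k, hk⟩ := tr_idem_nat hχ hcomp
  refine ⟨k, ?_⟩
  rw [← hk, tr_sub, htr]
  ring

theorem idem_tr_eq_rad (hM : IsPModular p M) {χ : H → ℂ} (hχ : IsCharacter H χ) {y y' a b : MonoidAlgebra ℂ H}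
    (hyy : y * y = y) (hy'y' : y' * y' = y') (hyl : LocalCoeff M y) (hy'l : LocalCoeff M y') (hal : LocalCoeff M a)
    (hbl : LocalCoeff M b) (ha1 : y' * a = a) (ha2 : a * y = a) (hb1 : y * b = b) (hb2 : b * y' = b)
    (hab : RadElt (rd M (a * b) - rd M y')) (hba : RadElt (rd M (b * a) - rd M y)) : tr χ y = tr χ y' := by
  obtain ⟨k, hk⟩ := idem_tr_le_rad hM hχ hyy hy'y' hy'l hal hbl ha1 ha2 hb1 hb2 hab
  obtain ⟨k', hk'⟩ := idem_tr_le_rad hM hχ hy'y' hyy hyl hbl hal hb1 hb2 ha1 ha2 hba
  have h1 : ((k + k' : ℕ) : ℂ) = 0 := by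
    push_cast
    rw [hk'] at hk
    linear_combination -hk
  have h2 : k + k' = 0 := by exact_mod_cast h1
  have h3 : k = 0 := by omega
  rw [hk, h3]
  simp

theorem rd_idem {y : MonoidAlgebra ℂ H} (hyl : LocalCoeff M y) (hyy : y * y = y) : rd M y * rd M y = rd M y := by
  rw [← rd_mul hyl hyl, hyy]

theorem idem_zero_of_rad (hM : IsPModular p M) {y : MonoidAlgebra ℂ H} (hyl : LocalCoeff M y) (hyy : y * y = y)
    (h : RadElt (rd M y)) : y = 0 := by
  obtain ⟨n, hn⟩ := h 1
  rw [one_mul] at hn
  have h1 : rd M y = 0 := by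
    have h2 : rd M y ^ (n + 1) = rd M y := (show IsIdempotentElem (rd M y) from rd_idem hyl hyy).pow_eq (by omega)
    rw [← h2, pow_succ, hn, zero_mul]
  have h3 : LocalIdealCoeff M y := (rd_eq_zero_iff hyl).1 h1
  have h4 : LocalIdealCoeff M (1 - (1 - y)) := by
    rwa [sub_sub_cancel]
  obtain ⟨w', -, h5⟩ := exists_inv_of_congr_one hM h4
  calc y = w' * (1 - y) * y := by rw [h5, one_mul]
    _ = w' * (y - y * y) := by noncomm_ring
    _ = 0 := by rw [hyy, sub_self, mul_zero]

end Rad

section Family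

variable {H : Type*} [Group H] [Fintype H] (p : ℕ) [hp : Fact p.Prime] (M : Ideal AlgInt) [hMp : M.IsPrime]

/-- The `p`-regular truncations of the characters of the projective indecomposable modules. -/
def pimSet (H : Type*) [Group H] [Fintype H] : Set (H → ℂ) :=
  {f | ∃ e : MonoidAlgebra ℂ H, LocalCoeff M e ∧ e * e = e ∧ IsRankOneIdem (ResField M) (rd M e) ∧ f = pim0 p e}

variable {p M}

theorem red_clsSum {e : MonoidAlgebra ℂ H} (he : LocalCoeff M e) (h : H) :
    red M (clsSum e h) = lamF (indC (ResField M) h) (rd M e) := by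
  classical
  unfold clsSum
  rw [lamF_apply, red_sum _ _ (fun y _ => by
    split_ifs
    · exact he y
    · exact memLocalRing_zero)]
  refine Finset.sum_congr rfl fun y _ => ?_
  rw [coeff_rd]
  by_cases c : IsConj y h
  · rw [if_pos c, indC_pos c, mul_one]
  · rw [if_neg c, indC_neg c, mul_zero, red_zero]

/-- Independence of vectors over the local ring from independence of their reductions. -/
theorem indep_vec {I K : Type*} [Fintype I] [Fintype K] (κ : K → H) (hκ : Function.Injective κ) (v : I → K → ℂ)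
    (hv : ∀ i k, MemLocalRing M (v i k))
    (h : LinearIndependent (ResField M) (fun i k => red M (v i k))) : LinearIndependent ℂ v := by
  classical
  let Lc : ∀ (F : Type _) [Field F], (K → F) →ₗ[F] MonoidAlgebra F H := fun F _ =>
    ∑ k, (LinearMap.toSpanSingleton F _ (gg F (κ k))) ∘ₗ LinearMap.proj k
  have hLc : ∀ (F : Type _) [Field F] (c : K → F) (k : K), (Lc F c).coeff (κ k) = c k := by
    intro F _ c k
    simp only [Lc, LinearMap.sum_apply, LinearMap.comp_apply, LinearMap.proj_apply, LinearMap.toSpanSingleton_apply]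
    have h0 : ∀ (s : Finset K) (f : K → MonoidAlgebra F H) (g : H), (∑ j ∈ s, f j).coeff g = ∑ j ∈ s, (f j).coeff g := by
      intro s f g
      induction s using Finset.induction_on with
      | empty => simp
      | insert a s ha ih => rw [Finset.sum_insert ha, Finset.sum_insert ha, MonoidAlgebra.coeff_add, Finsupp.add_apply, ih]
    rw [h0, Finset.sum_eq_single k]
    · simp [gg]
    · intro j _ hj
      simp [gg, MonoidAlgebra.single_apply, hκ.ne hj]
    · simp
  have hinj : ∀ (F : Type _) [Field F], Function.Injective (Lc F) := by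
    intro F _
    rw [← LinearMap.ker_eq_bot, LinearMap.ker_eq_bot']
    intro c hc
    funext k
    rw [← hLc F c k, hc]
    simp
  have h1 : LinearIndependent ℂ (fun i => Lc ℂ (v i)) := by
    refine indep_of_rd (M := M) _ ?_ ?_
    · intro i g
      simp only [Lc, LinearMap.sum_apply, LinearMap.comp_apply, LinearMap.proj_apply, LinearMap.toSpanSingleton_apply]
      refine localCoeff_sum_aux _ _ (fun k _ => ?_) g
      have e : v i k • gg ℂ (κ k) = MonoidAlgebra.single (κ k) (v i k) := by
        simp [gg, MonoidAlgebra.smul_single]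
      rw [e]
      exact localCoeff_single _ (hv i k)
    · have e : (fun i => rd M (Lc ℂ (v i))) = fun i => Lc (ResField M) (fun k => red M (v i k)) := by
        funext i
        simp only [Lc, LinearMap.sum_apply, LinearMap.comp_apply, LinearMap.proj_apply, LinearMap.toSpanSingleton_apply]
        rw [rd_sum]
        · refine Finset.sum_congr rfl fun k _ => ?_
          have e1 : v i k • gg ℂ (κ k) = MonoidAlgebra.single (κ k) (v i k) := by
            simp [gg, MonoidAlgebra.smul_single]
          have e2 : red M (v i k) • gg (ResField M) (κ k) = MonoidAlgebra.single (κ k) (red M (v i k)) := by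
            simp [gg, MonoidAlgebra.smul_single]
          rw [e1, e2]
          apply ext_coeff
          intro g
          rw [coeff_rd]
          by_cases hg : g = κ k
          · subst hg
            simp
          · simp [MonoidAlgebra.single_apply, Ne.symm hg, red_zero]
        · intro k _
          have e : v i k • gg ℂ (κ k) = MonoidAlgebra.single (κ k) (v i k) := by
            simp [gg, MonoidAlgebra.smul_single]
          rw [e]
          exact localCoeff_single _ (hv i k)
      rw [e]
      exact h.map' (Lc (ResField M)) (LinearMap.ker_eq_bot.2 (hinj _))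
  exact LinearIndependent.of_comp (Lc ℂ) h1

/-- The main family. -/
theorem exists_pim_family (hM : IsPModular p M) : ∃ (s : ℕ) (e : Fin s → MonoidAlgebra ℂ H),
    (∀ i, LocalCoeff M (e i) ∧ e i * e i = e i ∧ IsRankOneIdem (ResField M) (rd M (e i))) ∧
    LinearIndependent ℂ (fun i => pim0 p (e i)) ∧
    (∀ e', LocalCoeff M e' → e' * e' = e' → IsRankOneIdem (ResField M) (rd M e') → ∃ i, pim0 p e' = pim0 p (e i)) ∧
    regSpan p Set.univ ≤ Submodule.span ℂ (Set.range fun i => pim0 p (e i)) := by
  classical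
  haveI := charP_resField hM
  haveI : FiniteDimensional (ResField M) (MonoidAlgebra (ResField M) H) :=
    Module.Finite.of_basis (MonoidAlgebra.basis H _)
  obtain ⟨s, d, hd, Θ, hs, hR, m, hm⟩ := exists_wedderburn (F := ResField M) (T := MonoidAlgebra (ResField M) H)
  obtain ⟨n, hn0, hmn, hn', hn⟩ := exists_regPow (H := H) p m
  have hnil : ∀ x, Θ x = 0 → x ^ (p ^ n) = 0 := fun x hx => pow_eq_zero_of_le hmn (hm x hx)
  obtain ⟨R, hR0, hR1⟩ := exists_class_reps H (fun y => ¬ p ∣ orderOf y) (fun {a b} hab ha => by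
    rwa [← orderOf_eq_of_isConj hab])
  -- the standard idempotents
  have hidem : ∀ i : Fin s, ∃ x : MonoidAlgebra (ResField M) H, x * x = x ∧ Θ x = EE _ i 0 0 := by
    intro i
    let f : MonoidAlgebra (ResField M) H →+* Π i, Matrix (Fin (d i)) (Fin (d i)) (ResField M) := Θ.toRingHom
    obtain ⟨x, hx⟩ := exists_isIdempotentElem_eq_of_ker_isNilpotent f
      (fun x hx => ⟨m, hm x (RingHom.mem_ker.1 hx)⟩) (EE (ResField M) (d := d) i 0 0) (RingHom.mem_range.2 (hs _)) (by
        show EE (ResField M) (d := d) i 0 0 * EE (ResField M) (d := d) i 0 0 = _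
        rw [EE_mul_EE])
    exact ⟨x, hx.1, hx.2⟩
  choose E0 hE0 hE1 using hidem
  choose e he1 he2 he3 using fun i => localCoeff_idem_lift hM (hE0 i)
  have hrk : ∀ i, IsRankOneIdem (ResField M) (rd M (e i)) := by
    intro i
    rw [he3]
    exact isRankOneIdem_of_EE Θ hR hs (hE1 i) (hE0 i)
  -- independence
  have hindF := classSum_indep p hn0 hn hn' R hR1 E0 hE1 hE0
  have hindC : LinearIndependent ℂ (fun i : Fin s => fun h : R => clsSum (e i) (h : H)) := by
    refine indep_vec (M := M) (fun h : R => (h : H)) Subtype.val_injective _ ?_ ?_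
    · intro i h
      unfold clsSum
      refine memLocalRing_sum _ _ fun y _ => ?_
      split_ifs
      · exact he1 i y
      · exact memLocalRing_zero
    · have e1 : (fun i : Fin s => fun k : R => red M (clsSum (e i) (k : H))) =
          fun i : Fin s => fun k : R => lamF (indC (ResField M) (k : H)) (E0 i) := by
        funext i k
        rw [red_clsSum (he1 i), he3]
      rw [e1]
      exact hindF
  have hind : LinearIndependent ℂ (fun i => pim0 p (e i)) := by
    rw [Fintype.linearIndependent_iff]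
    intro c hc
    rw [Fintype.linearIndependent_iff] at hindC
    refine hindC c ?_
    funext h
    have h1 := congrFun hc (h : H)⁻¹
    simp only [Finset.sum_apply, Pi.smul_apply, smul_eq_mul, Pi.zero_apply, pim0_inv p (hR0 _ h.2)] at h1
    have h2 : (Nat.card (Subgroup.centralizer ({(h : H)} : Set H)) : ℂ) ≠ 0 := by
      exact_mod_cast Nat.card_pos.ne'
    have h3 : (Nat.card (Subgroup.centralizer ({(h : H)} : Set H)) : ℂ) *
        ∑ i, c i * clsSum (e i) (h : H) = 0 := by
      rw [← h1, Finset.mul_sum]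
      refine Finset.sum_congr rfl fun i _ => ?_
      ring
    simp only [Finset.sum_apply, Pi.smul_apply, smul_eq_mul, Pi.zero_apply]
    exact (mul_eq_zero.1 h3).resolve_left h2
  refine ⟨s, e, fun i => ⟨he1 i, he2 i, hrk i⟩, hind, ?_, ?_⟩
  · -- uniqueness
    intro e' he'1 he'2 he'3
    have hne : Θ (rd M e') ≠ 0 := rankOne_ne Θ hR he'3
    obtain ⟨i, hi⟩ : ∃ i, Θ (rd M e') i ≠ 0 := by
      by_contra h1
      push_neg at h1
      exact hne (funext h1)
    refine ⟨i, pim0_congr p fun χ => ?_⟩
    obtain ⟨a₀, b₀, h1, h2, h3, h4, h5, h6⟩ := rankOne_link Θ hR hs he'3 hi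
    obtain ⟨a₁, ha₁⟩ := hs a₀
    obtain ⟨b₁, hb₁⟩ := hs b₀
    obtain ⟨aT, haTl, haT⟩ := exists_lift (M := M) a₁
    obtain ⟨bT, hbTl, hbT⟩ := exists_lift (M := M) b₁
    have hΘe : Θ (rd M (e i)) = EE _ i 0 0 := by rw [he3, hE1]
    have hal : LocalCoeff M (e i * aT * e') := localCoeff_mul (localCoeff_mul (he1 i) haTl) he'1
    have hbl : LocalCoeff M (e' * bT * e i) := localCoeff_mul (localCoeff_mul he'1 hbTl) (he1 i)
    have hΘa : Θ (rd M (e i * aT * e')) = a₀ := by
      rw [rd_mul (localCoeff_mul (he1 i) haTl) he'1, rd_mul (he1 i) haTl, haT, map_mul, map_mul, hΘe, ha₁, h3, h4]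
    have hΘb : Θ (rd M (e' * bT * e i)) = b₀ := by
      rw [rd_mul (localCoeff_mul he'1 hbTl) (he1 i), rd_mul he'1 hbTl, hbT, map_mul, map_mul, hΘe, hb₁, h5, h6]
    refine idem_tr_eq_rad hM (IsIrrCharacter.isCharacter χ.2) he'2 (he2 i) he'1 (he1 i) hal hbl ?_ ?_ ?_ ?_ ?_ ?_
    · rw [← mul_assoc, ← mul_assoc, he2]
    · rw [mul_assoc, he'2]
    · rw [← mul_assoc, ← mul_assoc, he'2]
    · rw [mul_assoc, he2]
    · rw [← hR, map_sub, rd_mul hal hbl, map_mul, hΘa, hΘb, h1, hΘe, sub_self]
    · rw [← hR, map_sub, rd_mul hbl hal, map_mul, hΘa, hΘb, h2, sub_self]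
  · -- spanning
    have hcard := card_reps_le p hn0 hn hn' R hR0 hR1 hs hnil E0 hE1
    have hle : Submodule.span ℂ (Set.range fun i => pim0 p (e i)) ≤ regSpan p Set.univ := by
      rw [Submodule.span_le]
      rintro _ ⟨i, rfl⟩
      exact pim0_mem p fun χ hχ => absurd (Set.mem_univ χ) hχ
    have hfin : finrank ℂ (regSpan p (Set.univ : Set (IrrCharacter H))) ≤ R.card := by
      let ev : regSpan p (Set.univ : Set (IrrCharacter H)) →ₗ[ℂ] (R → ℂ) :=
        LinearMap.pi fun h => (LinearMap.proj (h : H)) ∘ₗ Submodule.subtype _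
      have hev : Function.Injective ev := by
        rw [← LinearMap.ker_eq_bot, LinearMap.ker_eq_bot']
        rintro ⟨f, hf⟩ h0
        apply Subtype.ext
        funext y
        show f y = 0
        by_cases hy : p ∣ orderOf y
        · exact regSpan_vanish hf hy
        · obtain ⟨x, ⟨hx, hc⟩, -⟩ := hR1 y hy
          have h1 := congrFun h0 ⟨x, hx⟩
          have h2 : f x = 0 := h1
          obtain ⟨c, hc⟩ := isConj_iff.1 hc
          rw [← regSpan_isClassFunction hf y c, hc, h2]
      have h1 := LinearMap.finrank_le_finrank_of_injective hev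
      simpa using h1
    have heq : Submodule.span ℂ (Set.range fun i => pim0 p (e i)) = regSpan p Set.univ := by
      refine Submodule.eq_of_le_of_finrank_le hle ?_
      rw [finrank_span_eq_card hind]
      simp only [Fintype.card_fin]
      exact hfin.trans hcard
    exact heq.ge

theorem pimSet_eq_range (hM : IsPModular p M) {s : ℕ} {e : Fin s → MonoidAlgebra ℂ H}
    (h1 : ∀ i, LocalCoeff M (e i) ∧ e i * e i = e i ∧ IsRankOneIdem (ResField M) (rd M (e i)))
    (h2 : ∀ e', LocalCoeff M e' → e' * e' = e' → IsRankOneIdem (ResField M) (rd M e') → ∃ i, pim0 p e' = pim0 p (e i)) :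
    pimSet p M H = Set.range fun i => pim0 p (e i) := by
  ext f
  constructor
  · rintro ⟨e', h3, h4, h5, rfl⟩
    obtain ⟨i, hi⟩ := h2 e' h3 h4 h5
    exact ⟨i, hi.symm⟩
  · rintro ⟨i, rfl⟩
    exact ⟨e i, (h1 i).1, (h1 i).2.1, (h1 i).2.2, rfl⟩

theorem pimSet_finite (hM : IsPModular p M) : (pimSet p M H).Finite := by
  obtain ⟨s, e, h1, -, h3, -⟩ := exists_pim_family (H := H) hM
  rw [pimSet_eq_range hM h1 h3]
  exact Set.finite_range _

theorem pimSet_indep (hM : IsPModular p M) : LinearIndepOn ℂ id (pimSet p M H) := by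
  obtain ⟨s, e, h1, h2, h3, -⟩ := exists_pim_family (H := H) hM
  rw [pimSet_eq_range hM h1 h3]
  exact h2.linearIndepOn_id

theorem regSpan_univ_le (hM : IsPModular p M) :
    regSpan p (Set.univ : Set (IrrCharacter H)) ≤ Submodule.span ℂ (pimSet p M H) := by
  obtain ⟨s, e, h1, -, h3, h4⟩ := exists_pim_family (H := H) hM
  rw [pimSet_eq_range hM h1 h3]
  exact h4

/-- A member of `pimSet` belongs to a block union or to its complement. -/
theorem pimSet_block (hM : IsPModular p M) {A : Set (IrrCharacter H)} (hA : IsBlockUnion M A) {f : H → ℂ}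
    (hf : f ∈ pimSet p M H) : f ∈ regSpan p A ∨ f ∈ regSpan p Aᶜ := by
  classical
  haveI := charP_resField hM
  haveI : FiniteDimensional (ResField M) (MonoidAlgebra (ResField M) H) :=
    Module.Finite.of_basis (MonoidAlgebra.basis H _)
  obtain ⟨s, d, hd, Θ, hs, hR, m, hm⟩ := exists_wedderburn (F := ResField M) (T := MonoidAlgebra (ResField M) H)
  obtain ⟨e, he1, he2, he3, rfl⟩ := hf
  set z := blockElt A with hz
  have hzl : LocalCoeff M z := localCoeff_blockElt hA
  have hzz : z * z = z := blockElt_mul_self A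
  have hzc : IsCentralElt z := isCentralElt_blockElt A
  have hcomm : e * z = z * e := (isCentralElt_commute hzc e).symm
  have hrc : rd M e * rd M z = rd M z * rd M e := by
    rw [← rd_mul he1 hzl, ← rd_mul hzl he1, hcomm]
  have hez : (e * z) * (e * z) = e * z := by
    calc (e * z) * (e * z) = (e * e) * (z * z) := by
          rw [mul_assoc, ← mul_assoc z, ← hcomm]
          simp only [mul_assoc]
      _ = e * z := by rw [he2, hzz]
  rcases rankOne_mul_idem Θ hR hs he3 (rd_idem hzl hzz) hrc with h | h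
  · -- `e z = 0`
    have h0 : e * z = 0 := by
      refine idem_zero_of_rad hM (localCoeff_mul he1 hzl) hez ?_
      rw [rd_mul he1 hzl]
      exact (hR _).1 h
    right
    refine pim0_mem p fun χ hχ => ?_
    have hχA : χ ∈ A := by
      by_contra hn
      exact hχ hn
    have h1 := tr_mul_central χ.2 hzc e
    rw [om_blockElt_of_mem hχA, one_mul, isCentralElt_commute hzc e, h0, tr_zero] at h1
    exact h1.symm
  · -- `e (1 - z) = 0`
    have h0 : e - e * z = 0 := by
      have hl : LocalCoeff M (e - e * z) := localCoeff_sub he1 (localCoeff_mul he1 hzl)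
      refine idem_zero_of_rad hM hl ?_ ?_
      · have e1 : e * (e * z) = e * z := by rw [← mul_assoc, he2]
        have e2 : (e * z) * e = e * z := by rw [hcomm, mul_assoc, he2]
        rw [mul_sub, sub_mul, sub_mul, he2, e1, e2, hez]
        abel
      · rw [rd_sub he1 (localCoeff_mul he1 hzl), ← hR, map_sub, rd_mul he1 hzl, h, sub_self]
    left
    refine pim0_mem p fun χ hχ => ?_
    have h1 := tr_mul_central χ.2 hzc e
    rw [om_blockElt_of_notMem hχ, zero_mul, isCentralElt_commute hzc e, ← sub_eq_zero.1 h0] at h1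
    exact h1

/-- The members of `pimSet` in a block union span the truncations of the block union. -/
theorem span_pimSet_inter (hM : IsPModular p M) {A : Set (IrrCharacter H)} (hA : IsBlockUnion M A) :
    Submodule.span ℂ (pimSet p M H ∩ regSpan p A) = regSpan p A := by
  refine le_antisymm ((Submodule.span_le).2 Set.inter_subset_right) ?_
  rw [regSpan, Submodule.span_le]
  rintro _ ⟨χ, hχ, rfl⟩
  have h1 : pRegularPart p (χ : H → ℂ) ∈ Submodule.span ℂ (pimSet p M H) :=
    regSpan_univ_le hM (Submodule.subset_span ⟨χ, Set.mem_univ _, rfl⟩)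
  have h2 : Submodule.span ℂ (pimSet p M H) ≤ Submodule.span ℂ (pimSet p M H ∩ regSpan p A) ⊔
      Submodule.span ℂ (pimSet p M H ∩ regSpan p Aᶜ) := by
    rw [Submodule.span_le]
    intro f hf
    rcases pimSet_block hM hA hf with h | h
    · exact Submodule.mem_sup_left (Submodule.subset_span ⟨hf, h⟩)
    · exact Submodule.mem_sup_right (Submodule.subset_span ⟨hf, h⟩)
  obtain ⟨a, ha, b, hb, hab⟩ := Submodule.mem_sup.1 (h2 h1)
  have hale : Submodule.span ℂ (pimSet p M H ∩ regSpan p A) ≤ regSpan p A :=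
    (Submodule.span_le).2 Set.inter_subset_right
  have hble : Submodule.span ℂ (pimSet p M H ∩ regSpan p Aᶜ) ≤ regSpan p Aᶜ :=
    (Submodule.span_le).2 Set.inter_subset_right
  have hbA : b ∈ regSpan p A := by
    have e : b = pRegularPart p (χ : H → ℂ) - a := by
      rw [← hab]
      abel
    rw [e]
    exact Submodule.sub_mem _ (Submodule.subset_span ⟨χ, hχ, rfl⟩) (hale ha)
  have hb0 : b ∈ regSpan p A ⊓ regSpan p Aᶜ := Submodule.mem_inf.2 ⟨hbA, hble hb⟩
  rw [regSpan_inf_eq_bot hM hA disjoint_compl_right, Submodule.mem_bot] at hb0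
  rw [hb0, add_zero] at hab
  rw [hab] at ha
  exact ha

/-- `pimSet` is invariant under isomorphisms. -/
theorem pimSet_comp {H' : Type*} [Group H'] [Fintype H'] (ι : H ≃* H') {f : H' → ℂ} (hf : f ∈ pimSet p M H') :
    f ∘ ι ∈ pimSet p M H := by
  classical
  obtain ⟨e, he1, he2, he3, rfl⟩ := hf
  let Ψ : MonoidAlgebra ℂ H' ≃ₐ[ℂ] MonoidAlgebra ℂ H := MonoidAlgebra.domCongr ℂ ℂ ι.symm
  let Ψ' : MonoidAlgebra (ResField M) H' ≃ₐ[ResField M] MonoidAlgebra (ResField M) H :=
    MonoidAlgebra.domCongr (ResField M) (ResField M) ι.symm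
  have hc : ∀ (x : MonoidAlgebra ℂ H') (g : H), (Ψ x).coeff g = x.coeff (ι g) := by
    intro x g
    simp [Ψ, MonoidAlgebra.coeff_domCongr]
  have hc' : ∀ (x : MonoidAlgebra (ResField M) H') (g : H), (Ψ' x).coeff g = x.coeff (ι g) := by
    intro x g
    simp [Ψ', MonoidAlgebra.coeff_domCongr]
  have hrd : rd M (Ψ e) = Ψ' (rd M e) := by
    apply ext_coeff
    intro g
    rw [coeff_rd, hc, hc', coeff_rd]
  have hrad : ∀ x, RadElt x → RadElt (Ψ' x) := by
    intro x hx y
    have h1 := (hx (Ψ'.symm y)).map Ψ'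
    rwa [map_mul, AlgEquiv.apply_symm_apply] at h1
  have hrad' : ∀ x, RadElt (Ψ' x) → RadElt x := by
    intro x hx y
    have h1 := (hx (Ψ' y)).map Ψ'.symm
    rwa [map_mul, AlgEquiv.symm_apply_apply, AlgEquiv.symm_apply_apply] at h1
  refine ⟨Ψ e, ?_, ?_, ?_, ?_⟩
  · intro g
    rw [hc]
    exact he1 _
  · rw [← map_mul, he2]
  · rw [hrd]
    obtain ⟨h1, h2, h3⟩ := he3
    refine ⟨by rw [← map_mul, h1], ?_, ?_⟩
    · intro h
      exact h2 (hrad' _ h)
    · intro y
      obtain ⟨c, hc1⟩ := h3 (Ψ'.symm y)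
      refine ⟨c, ?_⟩
      have h4 := hrad _ hc1
      rwa [map_sub, map_mul, map_mul, AlgEquiv.apply_symm_apply, map_smul] at h4
  · funext h
    show pim0 p e (ι h) = pim0 p (Ψ e) h
    unfold pim0
    by_cases hh : p ∣ orderOf h
    · rw [pRegularPart_of_sing hh, pRegularPart_of_sing (by rwa [MulEquiv.orderOf_eq])]
    · rw [pRegularPart_of_reg hh, pRegularPart_of_reg (by rwa [MulEquiv.orderOf_eq])]
      unfold pimFun
      refine (Fintype.sum_equiv ι.toEquiv.symm _ _ fun g => ?_)
      rw [hc]
      congr 1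
      simp

end Family

end Cfsg.Agent.Lib.Modular
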