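import Mathlib
import Cfsg.Agent.Lib.Modular.PimBasis
import Cfsg.Agent.Lib.Char.Brauer
import Cfsg.Agent.Lib.Block.Ortho

/-!
# Decompositions of idempotents into idempotents of rank one, and the lattice dual to the projective characters

Every idempotent of the group algebra over the local ring is a sum of idempotents of rank one, so that its truncated
character is a natural combination of the basis `pimSet`.  With Brauer's induction theorem, every class function on the
`p`-regular elements with integral inner products against `pimSet` is an integral combination of the truncations of the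
irreducible characters.
-/

set_option autoImplicit false
set_option linter.unusedSectionVars false
set_option linter.unusedSimpArgs false
set_option linter.unusedVariables false
set_option linter.style.haveILetI false
set_option linter.unnecessarySimpa false

namespace Cfsg.Agent.Lib.Modular

open Module Cfsg Cfsg.Agent.Lib.Block Cfsg.Agent.Lib.CharExtra Cfsg.Agent.Lib.Char
open scoped ComplexConjugate

section MatrixPart

variable {F : Type*} [Field F] {s : ℕ} {d : Fin s → ℕ}

theorem exists_rankOne_matrix {X : Π i, Matrix (Fin (d i)) (Fin (d i)) F} (hX : X * X = X) (h0 : X ≠ 0) :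
    ∃ Z : Π i, Matrix (Fin (d i)) (Fin (d i)) F, X * Z = Z ∧ Z * X = Z ∧ Z * Z = Z ∧ Z ≠ 0 ∧
      ∀ Y, ∃ c : F, Z * Y * Z = c • Z := by
  classical
  obtain ⟨i, hi⟩ : ∃ i, X i ≠ 0 := by
    by_contra h
    push_neg at h
    exact h0 (funext h)
  obtain ⟨k, l, hkl⟩ : ∃ k l, X i k l ≠ 0 := by
    by_contra h
    push_neg at h
    exact hi (Matrix.ext h)
  set c := X i k l with hc
  have hc0 : c ≠ 0 := hkl
  set E := EE F (d := d) i l k with hEdef
  have hE : ∀ W, E * W * E = W i k l • E := fun W => EE_mul_mul_EE i l k l k W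
  have hEne : E ≠ 0 := by
    intro h
    have h1 := congrFun (congrFun (congrFun h i) l) k
    rw [hEdef, EE_same] at h1
    simp at h1
  have hEXE : E * X * E = c • E := hE X
  have hmain : ∀ W, (X * E * X) * W * (X * E * X) = (X * W * X) i k l • (X * E * X) := by
    intro W
    calc (X * E * X) * W * (X * E * X) = X * (E * (X * W * X) * E) * X := by noncomm_ring
      _ = (X * W * X) i k l • (X * E * X) := by
          rw [hE]
          simp only [mul_smul_comm, smul_mul_assoc]
  refine ⟨c⁻¹ • (X * E * X), ?_, ?_, ?_, ?_, ?_⟩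
  · rw [mul_smul_comm, ← mul_assoc, ← mul_assoc, hX]
  · rw [smul_mul_assoc, mul_assoc, hX]
  · have h1 : (X * E * X) * (X * E * X) = c • (X * E * X) := by
      calc (X * E * X) * (X * E * X) = X * (E * (X * X) * E) * X := by noncomm_ring
        _ = X * (E * X * E) * X := by rw [hX]
        _ = c • (X * E * X) := by
            rw [hEXE]
            simp only [mul_smul_comm, smul_mul_assoc]
    rw [smul_mul_smul_comm, h1, smul_smul, mul_assoc, inv_mul_cancel₀ hc0, mul_one]
  · intro h
    have h1 : X * E * X = 0 := by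
      have h2 := congrArg (fun t => c • t) h
      simpa [smul_smul, mul_inv_cancel₀ hc0] using h2
    have h2 : E * (X * E * X) * E = (c * c) • E := by
      calc E * (X * E * X) * E = (E * X * E) * (X * E) := by noncomm_ring
        _ = c • (E * (X * E)) := by rw [hEXE, smul_mul_assoc]
        _ = c • (E * X * E) := by rw [mul_assoc]
        _ = (c * c) • E := by rw [hEXE, smul_smul]
    rw [h1, mul_zero, zero_mul] at h2
    have h3 := (smul_eq_zero.1 h2.symm).resolve_left (mul_ne_zero hc0 hc0)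
    exact hEne h3
  · intro Y
    refine ⟨c⁻¹ * (X * Y * X) i k l, ?_⟩
    have h2 : (c⁻¹ • (X * E * X)) * Y * (c⁻¹ • (X * E * X)) = (c⁻¹ * c⁻¹) • ((X * E * X) * Y * (X * E * X)) := by
      simp only [smul_mul_assoc, mul_smul_comm, smul_smul]
    rw [h2, hmain, smul_smul, smul_smul]
    congr 1
    ring

end MatrixPart

section Below

variable {H : Type*} [Group H] [Fintype H] {p : ℕ} [hp : Fact p.Prime] {M : Ideal AlgInt} [hMp : M.IsPrime]

/-- A nonzero idempotent over the local ring has a rank one idempotent below it. -/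
theorem exists_rankOne_below (hM : IsPModular p M) {e : MonoidAlgebra ℂ H} (hel : LocalCoeff M e) (hee : e * e = e)
    (hne : e ≠ 0) :
    ∃ f : MonoidAlgebra ℂ H, LocalCoeff M f ∧ f * f = f ∧ IsRankOneIdem (ResField M) (rd M f) ∧ e * f = f ∧ f * e = f := by
  classical
  haveI := charP_resField hM
  haveI : FiniteDimensional (ResField M) (MonoidAlgebra (ResField M) H) :=
    Module.Finite.of_basis (MonoidAlgebra.basis H _)
  obtain ⟨s, d, hd, Θ, hs, hR, m, hm⟩ := exists_wedderburn (F := ResField M) (T := MonoidAlgebra (ResField M) H)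
  set b := rd M e with hb
  have hbb : b * b = b := rd_idem hel hee
  have hΘ0 : Θ b ≠ 0 := by
    intro h
    exact hne (idem_zero_of_rad hM hel hee ((hR _).1 h))
  have hXX : Θ b * Θ b = Θ b := by rw [← map_mul, hbb]
  obtain ⟨Z, hZ1, hZ2, hZ3, hZ4, hZ5⟩ := exists_rankOne_matrix hXX hΘ0
  let φ : MonoidAlgebra (ResField M) H →+* Π i, Matrix (Fin (d i)) (Fin (d i)) (ResField M) := Θ.toRingHom
  have hφ : ∀ t, φ t = Θ t := fun t => rfl
  have hid : IsIdempotentElem (1 - b) := by
    show (1 - b) * (1 - b) = 1 - b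
    rw [mul_sub, sub_mul, sub_mul, hbb]
    simp
  obtain ⟨x, hx1, hx2, hx3, hx4⟩ := exists_isIdempotentElem_mul_eq_zero_of_ker_isNilpotent φ
    (fun x hx => ⟨m, hm x (RingHom.mem_ker.1 hx)⟩) Z (RingHom.mem_range.2 (hs Z)) hZ3 (1 - b) hid
    (by rw [hφ, map_sub, map_one, mul_sub, mul_one, hZ2, sub_self])
    (by rw [hφ, map_sub, map_one, sub_mul, one_mul, hZ1, sub_self])
  have hxb : x * b = x := by
    rw [mul_sub, mul_one, sub_eq_zero] at hx3
    exact hx3.symm
  have hbx : b * x = x := by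
    rw [sub_mul, one_mul, sub_eq_zero] at hx4
    exact hx4.symm
  have hΘx : Θ x = Z := hx2
  obtain ⟨a₀, ha₀l, ha₀⟩ := exists_lift (M := M) x
  set a := e * a₀ * e with ha
  have hal : LocalCoeff M a := localCoeff_mul (localCoeff_mul hel ha₀l) hel
  have hard : rd M a = x := by
    rw [ha, rd_mul (localCoeff_mul hel ha₀l) hel, rd_mul hel ha₀l, ha₀, ← hb, hbx, hxb]
  have h2 : LocalIdealCoeff M (a * a - a) := by
    rw [← rd_eq_iff (localCoeff_mul hal hal) hal, rd_mul hal hal, hard]
    exact hx1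
  obtain ⟨q, c1, c2, c3⟩ := exists_idem_lift hM hal h2
  have hea : e * a = a := by rw [ha, ← mul_assoc, ← mul_assoc, hee]
  have hae : a * e = a := by rw [ha, mul_assoc, hee]
  have hrd : rd M (a * Polynomial.aeval a q) = x := by
    rw [← hard]
    exact (rd_eq_iff c2 hal).2 c3
  refine ⟨_, c2, c1, ?_, ?_, ?_⟩
  · rw [hrd]
    refine ⟨hx1, ?_, fun y => ?_⟩
    · intro h
      exact hZ4 (by rw [← hΘx]; exact (hR _).2 h)
    · obtain ⟨c, hc⟩ := hZ5 (Θ y)
      refine ⟨c, (hR _).1 ?_⟩
      rw [map_sub, map_mul, map_mul, map_smul, hΘx, hc, sub_self]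
  · rw [← mul_assoc, hea]
  · have hcomm : Commute a (Polynomial.aeval a q) := (aeval_commute (Commute.refl a) q).symm
    rw [hcomm.eq, mul_assoc, hae]

variable (p) in
theorem pim0_add (a b : MonoidAlgebra ℂ H) : pim0 p (a + b) = pim0 p a + pim0 p b := by
  rw [pim0_eq_sum, pim0_eq_sum, pim0_eq_sum, ← Finset.sum_add_distrib]
  refine Finset.sum_congr rfl fun χ _ => ?_
  rw [tr_add, add_smul]

variable (p) in
theorem pim0_zero : pim0 p (0 : MonoidAlgebra ℂ H) = 0 := by
  rw [pim0_eq_sum]
  refine Finset.sum_eq_zero fun χ _ => ?_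
  rw [tr_zero, zero_smul]

/-- The truncated character of an idempotent is a natural combination of the family. -/
theorem pim0_nat_comb (hM : IsPModular p M) {s : ℕ} {e : Fin s → MonoidAlgebra ℂ H}
    (h2 : ∀ e', LocalCoeff M e' → e' * e' = e' → IsRankOneIdem (ResField M) (rd M e') → ∃ i, pim0 p e' = pim0 p (e i))
    {y : MonoidAlgebra ℂ H} (hyl : LocalCoeff M y) (hyy : y * y = y) :
    ∃ n : Fin s → ℕ, pim0 p y = ∑ i, (n i : ℂ) • pim0 p (e i) := by
  classical
  haveI : FiniteDimensional ℂ (MonoidAlgebra ℂ H) := Module.Finite.of_basis (MonoidAlgebra.basis H ℂ)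
  induction hN : finrank ℂ (LinearMap.range (LinearMap.mulLeft ℂ y)) using Nat.strong_induction_on generalizing y with
  | _ N ih =>
    by_cases hy0 : y = 0
    · refine ⟨0, ?_⟩
      rw [hy0, pim0_zero]
      simp
    · obtain ⟨f, hfl, hff, hfr, hyf, hfy⟩ := exists_rankOne_below hM hyl hyy hy0
      obtain ⟨j, hj⟩ := h2 f hfl hff hfr
      have hhl : LocalCoeff M (y - f) := localCoeff_sub hyl hfl
      have hhh : (y - f) * (y - f) = y - f := by
        rw [mul_sub, sub_mul, sub_mul, hyy, hyf, hfy, hff]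
        abel
      have hf0 : f ≠ 0 := by
        rintro rfl
        have h1 : rd M (0 : MonoidAlgebra ℂ H) = 0 := by
          have := rd_sub (M := M) (localCoeff_one (G := H)) (localCoeff_one (G := H))
          simpa using this
        rw [h1] at hfr
        exact hfr.2.1 (fun y => by simp)
      have hlt : LinearMap.range (LinearMap.mulLeft ℂ (y - f)) < LinearMap.range (LinearMap.mulLeft ℂ y) := by
        refine lt_of_le_of_ne ?_ ?_
        · rintro _ ⟨t, rfl⟩
          refine ⟨(y - f) * t, ?_⟩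
          simp only [LinearMap.mulLeft_apply]
          rw [← mul_assoc, mul_sub, hyy, hyf]
        · intro h
          have h1 : f ∈ LinearMap.range (LinearMap.mulLeft ℂ y) := ⟨f, hyf⟩
          rw [← h] at h1
          obtain ⟨t, ht⟩ := h1
          simp only [LinearMap.mulLeft_apply] at ht
          have h3 : (y - f) * f = 0 := by
            rw [sub_mul, hyf, hff, sub_self]
          have h4 : (y - f) * f = f := by
            calc (y - f) * f = (y - f) * ((y - f) * t) := by rw [ht]
              _ = ((y - f) * (y - f)) * t := by rw [mul_assoc]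
              _ = (y - f) * t := by rw [hhh]
              _ = f := ht
          exact hf0 (h4.symm.trans h3)
      obtain ⟨n', hn'⟩ := ih _ (by rw [← hN]; exact Submodule.finrank_lt_finrank_of_lt hlt) hhl hhh rfl
      refine ⟨n' + Pi.single j 1, ?_⟩
      have h5 : y = f + (y - f) := by abel
      conv_lhs => rw [h5]
      rw [pim0_add, hn', hj]
      have h6 : ∑ i, (((n' + Pi.single j 1 : Fin s → ℕ) i : ℕ) : ℂ) • pim0 p (e i) =
          ∑ i, (n' i : ℂ) • pim0 p (e i) + ∑ i, (((Pi.single j 1 : Fin s → ℕ) i : ℕ) : ℂ) • pim0 p (e i) := by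
        rw [← Finset.sum_add_distrib]
        refine Finset.sum_congr rfl fun i _ => ?_
        rw [← add_smul]
        simp
      rw [h6, add_comm]
      congr 1
      rw [Finset.sum_eq_single j]
      · simp
      · intro b _ hb
        simp [Pi.single_apply, hb]
      · simp

end Below

section Elem

theorem elem_pow_hom {E : Type*} [Group E] [Finite E] {p r N : ℕ} (hr : r.Prime) (hE : IsElementary r E) (hp : p.Prime)
    (h1 : ∀ y : E, ¬ p ∣ orderOf y → y ^ N = y) (h2 : ∀ u : E, (∃ k, orderOf u = p ^ k) → u ^ N = 1) (x y : E) :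
    (x * y) ^ N = x ^ N * y ^ N := by
  classical
  rw [isElementary_iff] at hE
  obtain ⟨C, hC, -, hcop, k, hk⟩ := hE
  haveI : Fact r.Prime := ⟨hr⟩
  obtain ⟨S⟩ : Nonempty (Sylow r E) := inferInstance
  have hcard : Nat.card C * r ^ k = Nat.card E := by
    rw [← hk, Subgroup.card_mul_index]
  have hfac : (Nat.card E).factorization r = k := by
    rw [← hcard, Nat.factorization_mul Nat.card_pos.ne' (pow_ne_zero _ hr.ne_zero), Nat.factorization_pow]
    have h3 : (Nat.card C).factorization r = 0 := by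
      apply Nat.factorization_eq_zero_of_not_dvd
      intro hd
      have h4 := Nat.Coprime.eq_one_of_dvd hcop.symm hd
      exact hr.ne_one h4
    simp [h3, hr.factorization_self]
  have hS : Nat.card S = r ^ k := by
    rw [Sylow.card_eq_multiplicity, hfac]
  have hcompl : Subgroup.IsComplement' C (S : Subgroup E) := by
    refine Subgroup.isComplement'_of_coprime ?_ ?_
    · rw [hS, hcard]
    · rw [hS]
      exact Nat.Coprime.pow_right _ hcop
  have hdec : ∀ z : E, ∃ c ∈ C, ∃ t ∈ (S : Subgroup E), c * t = z := by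
    intro z
    obtain ⟨⟨c, t⟩, hct⟩ := hcompl.2 z
    exact ⟨c.1, c.2, t.1, t.2, hct⟩
  have hSord : ∀ t ∈ (S : Subgroup E), ∃ j, orderOf t = r ^ j := by
    intro t ht
    obtain ⟨j, hj⟩ := IsPGroup.iff_orderOf.1 S.isPGroup' ⟨t, ht⟩
    exact ⟨j, by rw [← hj, Subgroup.orderOf_mk]⟩
  have hSS : ∀ t ∈ (S : Subgroup E), ∀ t' ∈ (S : Subgroup E), (t * t') ^ N = t ^ N * t' ^ N := by
    intro t ht t' ht'
    by_cases hrp : r = p
    · subst hrp
      rw [h2 _ (hSord _ (Subgroup.mul_mem _ ht ht')), h2 _ (hSord _ ht), h2 _ (hSord _ ht'), one_mul]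
    · have hreg : ∀ w ∈ (S : Subgroup E), w ^ N = w := by
        intro w hw
        refine h1 w ?_
        obtain ⟨j, hj⟩ := hSord w hw
        rw [hj]
        intro hd
        exact hrp ((Nat.prime_dvd_prime_iff_eq hp hr).1 (hp.dvd_of_dvd_pow hd)).symm
      rw [hreg _ (Subgroup.mul_mem _ ht ht'), hreg _ ht, hreg _ ht']
  obtain ⟨c, hc, t, ht, rfl⟩ := hdec x
  obtain ⟨c', hc', t', ht', rfl⟩ := hdec y
  have hcen : ∀ a ∈ C, ∀ b : E, Commute a b := fun a ha b => (Subgroup.mem_center_iff.1 (hC ha) b).symm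
  have e1 : c * t * (c' * t') = (c * c') * (t * t') := by
    rw [mul_assoc c t, ← mul_assoc t c', (hcen c' hc' t).symm.eq]
    simp only [mul_assoc]
  rw [e1, (hcen _ (Subgroup.mul_mem _ hc hc') _).mul_pow, (hcen c hc c').mul_pow, hSS t ht t' ht',
    (hcen c hc t).mul_pow, (hcen c' hc' t').mul_pow]
  have e2 : Commute (t ^ N) (c' ^ N) := (((hcen c' hc' t).pow_left N).pow_right N).symm
  calc c ^ N * c' ^ N * (t ^ N * t' ^ N) = c ^ N * (c' ^ N * t ^ N) * t' ^ N := by simp only [mul_assoc]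
    _ = c ^ N * (t ^ N * c' ^ N) * t' ^ N := by rw [e2.eq]
    _ = c ^ N * t ^ N * (c' ^ N * t' ^ N) := by simp only [mul_assoc]

end Elem

section Eps

variable {H : Type*} [Group H] [Fintype H] {Q : Type*} [Group Q] [Fintype Q]

/-- The idempotent attached to a linear character of a group mapping to `H`. -/
noncomputable def epsElt (ι : Q →* H) (μ : Q →* ℂˣ) : MonoidAlgebra ℂ H :=
  ∑ q : Q, MonoidAlgebra.single (ι q) ((Nat.card Q : ℂ)⁻¹ * ((μ q)⁻¹ : ℂˣ))

theorem epsElt_mul_self (ι : Q →* H) (μ : Q →* ℂˣ) : epsElt ι μ * epsElt ι μ = epsElt ι μ := by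
  classical
  have hQ : (Nat.card Q : ℂ) ≠ 0 := by exact_mod_cast Nat.card_pos.ne'
  unfold epsElt
  rw [Finset.sum_mul_sum]
  have h1 : ∀ q : Q, ∑ q' : Q, MonoidAlgebra.single (ι q) ((Nat.card Q : ℂ)⁻¹ * ((μ q)⁻¹ : ℂˣ)) *
      MonoidAlgebra.single (ι q') ((Nat.card Q : ℂ)⁻¹ * ((μ q')⁻¹ : ℂˣ)) =
      (Nat.card Q : ℂ)⁻¹ • ∑ q' : Q, MonoidAlgebra.single (ι q') ((Nat.card Q : ℂ)⁻¹ * ((μ q')⁻¹ : ℂˣ)) := by
    intro q
    rw [Finset.smul_sum]
    refine Fintype.sum_equiv (Equiv.mulLeft q) _ _ fun q' => ?_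
    rw [MonoidAlgebra.single_mul_single, MonoidAlgebra.smul_single, smul_eq_mul, Equiv.coe_mulLeft, map_mul]
    congr 1
    rw [map_mul, mul_inv]
    push_cast
    ring
  simp only [h1, Finset.sum_const, Finset.card_univ, ← Nat.card_eq_fintype_card]
  rw [← Nat.cast_smul_eq_nsmul ℂ, smul_smul, mul_inv_cancel₀ hQ, one_smul]

theorem classInner_pimFun_left (e : MonoidAlgebra ℂ H) {φ : H → ℂ} (hc : IsClassFunction H φ) :
    classInner (pimFun e) φ = tr (fun y => conj (φ y⁻¹)) e := by
  classical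
  rw [classInner_def]
  have h1 : ∀ h : H, pimFun e h * conj (φ h) =
      ∑ g, e.coeff (g * h⁻¹ * g⁻¹) * conj (φ (g * h⁻¹ * g⁻¹)⁻¹) := by
    intro h
    unfold pimFun
    rw [Finset.sum_mul]
    refine Finset.sum_congr rfl fun g _ => ?_
    have e1 : (g * h⁻¹ * g⁻¹)⁻¹ = g * h * g⁻¹ := by group
    rw [e1, hc h g]
  simp only [h1]
  rw [Finset.sum_comm]
  have h2 : ∀ g : H, ∑ h : H, e.coeff (g * h⁻¹ * g⁻¹) * conj (φ (g * h⁻¹ * g⁻¹)⁻¹) = tr (fun y => conj (φ y⁻¹)) e := by
    intro g
    unfold tr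
    exact Fintype.sum_equiv ((Equiv.inv H).trans (MulAut.conj g).toEquiv) _ _ fun h => rfl
  simp only [h2, Finset.sum_const, Finset.card_univ, nsmul_eq_mul]
  rw [← Nat.card_eq_fintype_card, ← mul_assoc, inv_mul_cancel₀ (by exact_mod_cast Nat.card_pos.ne'), one_mul]

theorem unit_hom_conj (μ : Q →* ℂˣ) (q : Q) : conj ((μ q : ℂˣ) : ℂ) = ((μ q)⁻¹ : ℂˣ) := by
  have h1 : (μ q) ^ Nat.card Q = 1 := by
    rw [← map_pow, pow_card_eq_one', map_one]
  have h2 : ((μ q : ℂˣ) : ℂ) ^ Nat.card Q = 1 := by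
    rw [← Units.val_pow_eq_pow_val, h1, Units.val_one]
  have h3 : ‖((μ q : ℂˣ) : ℂ)‖ = 1 := Complex.norm_eq_one_of_pow_eq_one h2 Nat.card_pos.ne'
  have h4 : ((μ q : ℂˣ) : ℂ) * conj ((μ q : ℂˣ) : ℂ) = 1 := by
    rw [Complex.mul_conj, Complex.normSq_eq_norm_sq, h3]
    simp
  have h5 : ((μ q : ℂˣ) : ℂ) * (((μ q)⁻¹ : ℂˣ) : ℂ) = 1 := by
    rw [← Units.val_mul, mul_inv_cancel, Units.val_one]
  exact mul_left_cancel₀ (Units.ne_zero (μ q)) (h4.trans h5.symm)

theorem classInner_epsElt (ι : Q →* H) (μ : Q →* ℂˣ) {φ : H → ℂ} (hc : IsClassFunction H φ) :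
    classInner φ (pimFun (epsElt ι μ)) = (Nat.card Q : ℂ)⁻¹ * ∑ q : Q, φ (ι q) * conj ((μ q : ℂˣ) : ℂ) := by
  classical
  rw [← conj_classInner, classInner_pimFun_left _ hc]
  unfold epsElt
  rw [tr_sum]
  simp only [tr_single]
  rw [map_sum, Finset.mul_sum]
  refine Fintype.sum_equiv (Equiv.inv Q) _ _ fun q => ?_
  simp only [map_mul, Equiv.inv_apply, map_inv₀, Complex.conj_natCast, Complex.conj_conj, map_inv, inv_inv, mul_assoc]
  ring

end Eps

section Local

variable {H : Type*} [Group H] [Fintype H] {Q : Type*} [Group Q] [Fintype Q]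
  {p : ℕ} [hp : Fact p.Prime] {M : Ideal AlgInt} [hMp : M.IsPrime]

theorem unit_hom_local (μ : Q →* ℂˣ) (g : Q) : MemLocalRing M (μ g : ℂ) := by
  refine memLocalRing_of_isIntegral ?_
  have hn : 0 < Nat.card Q := Nat.card_pos
  refine ⟨Polynomial.X ^ Nat.card Q - 1, Polynomial.monic_X_pow_sub_C 1 hn.ne', ?_⟩
  have h1 : (μ g) ^ Nat.card Q = 1 := by
    rw [← map_pow, pow_card_eq_one', map_one]
  have h2 : (μ g : ℂ) ^ Nat.card Q = 1 := by
    rw [← Units.val_pow_eq_pow_val, h1, Units.val_one]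
  simp [← Nat.card_eq_fintype_card, h2]

theorem localCoeff_epsElt (hM : IsPModular p M) (ι : Q →* H) (μ : Q →* ℂˣ) (hQ : ¬ p ∣ Nat.card Q) :
    LocalCoeff M (epsElt ι μ) := by
  unfold epsElt
  refine localCoeff_sum_aux _ _ fun q _ => localCoeff_single _ (memLocalRing_mul (memLocalRing_natCast_inv hM hQ) ?_)
  rw [← map_inv]
  exact unit_hom_local μ _

/-- The key integrality statement on elementary subgroups. -/
theorem classInner_hat_ind (hM : IsPModular p M) {f : H → ℂ} (hfreg : ∀ y, p ∣ orderOf y → f y = 0)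
    (hfc : IsClassFunction H f) {N : ℕ} (hN1 : ∀ y : H, ¬ p ∣ orderOf y → y ^ N = y)
    (hN2 : ∀ y : H, ¬ p ∣ orderOf (y ^ N)) (hN3 : ∀ u : H, (∃ k, orderOf u = p ^ k) → u ^ N = 1)
    (hz : ∀ ε, LocalCoeff M ε → ε * ε = ε → ∃ z : ℤ, classInner f (pim0 p ε) = z)
    (E : Subgroup H) {r : ℕ} (hr : r.Prime) (hE : IsElementary r E) (lam : E →* ℂˣ) :
    ∃ z : ℤ, classInner (fun x : H => f (x ^ N)) (indFun E (fun e => (lam e : ℂ))) = z := by
  classical
  haveI : Fintype E := Fintype.ofFinite _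
  have hc : IsClassFunction H (fun x : H => f (x ^ N)) := by
    intro g h
    show f ((h * g * h⁻¹) ^ N) = f (g ^ N)
    rw [conj_pow, hfc]
  rw [frobenius_reciprocity' E _ _ hc]
  have hE1 : ∀ y : E, ¬ p ∣ orderOf y → y ^ N = y := by
    intro y hy
    apply Subtype.ext
    rw [Subgroup.coe_pow]
    exact hN1 _ (by rwa [Subgroup.orderOf_coe])
  have hE2 : ∀ u : E, (∃ k, orderOf u = p ^ k) → u ^ N = 1 := by
    intro u hu
    apply Subtype.ext
    rw [Subgroup.coe_pow]
    exact hN3 _ (by rwa [Subgroup.orderOf_coe])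
  have hE3 : ∀ y : E, ¬ p ∣ orderOf (y ^ N) := by
    intro y
    have h1 := hN2 (y : H)
    rwa [← Subgroup.coe_pow, Subgroup.orderOf_coe] at h1
  have hhom := elem_pow_hom hr hE hp.out hE1 hE2
  let T : E →* E := { toFun := fun x => x ^ N, map_one' := one_pow _, map_mul' := hhom }
  have hT : ∀ x, T x = x ^ N := fun x => rfl
  have hTT : ∀ x, T (T x) = T x := fun x => hE1 _ (hE3 x)
  have hQfix : ∀ q : T.range, T q = q := by
    rintro ⟨_, x, rfl⟩
    exact hTT x
  haveI : Fintype T.range := Fintype.ofFinite _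
  haveI : Fintype T.ker := Fintype.ofFinite _
  let eqv : T.range × T.ker ≃ E :=
    { toFun := fun a => (a.1 : E) * (a.2 : E)
      invFun := fun x => (⟨T x, x, rfl⟩, ⟨(T x)⁻¹ * x, by
        rw [MonoidHom.mem_ker, map_mul, map_inv, hTT, inv_mul_cancel]⟩)
      left_inv := by
        rintro ⟨q, u⟩
        have h1 : T ((q : E) * (u : E)) = q := by
          rw [map_mul, hQfix, MonoidHom.mem_ker.1 u.2, mul_one]
        refine Prod.ext (Subtype.ext h1) (Subtype.ext ?_)
        show (T ((q : E) * (u : E)))⁻¹ * ((q : E) * (u : E)) = u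
        rw [h1, inv_mul_cancel_left]
      right_inv := by
        intro x
        show T x * ((T x)⁻¹ * x) = x
        rw [mul_inv_cancel_left] }
  have hsum : ∑ x : E, f ((x : H) ^ N) * conj ((lam x : ℂˣ) : ℂ) =
      (∑ q : T.range, f ((q : E) : H) * conj ((lam q : ℂˣ) : ℂ)) * ∑ u : T.ker, conj ((lam u : ℂˣ) : ℂ) := by
    rw [← eqv.sum_comp, Fintype.sum_prod_type, Finset.sum_mul_sum]
    refine Finset.sum_congr rfl fun q _ => Finset.sum_congr rfl fun u _ => ?_
    have h1 : T ((q : E) * (u : E)) = q := by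
      rw [map_mul, hQfix, MonoidHom.mem_ker.1 u.2, mul_one]
    have h2 : (((eqv (q, u) : E) : H)) ^ N = ((q : E) : H) := by
      have h3 : (eqv (q, u) : E) ^ N = q := h1
      rw [← Subgroup.coe_pow, h3]
    rw [h2]
    have h4 : eqv (q, u) = (q : E) * (u : E) := rfl
    rw [h4, map_mul, Units.val_mul, map_mul]
    ring
  have hcardE : Nat.card E = Nat.card T.range * Nat.card T.ker := by
    rw [← Nat.card_prod]
    exact (Nat.card_congr eqv).symm
  have hcardQ : (Nat.card T.range : ℂ) ≠ 0 := by exact_mod_cast Nat.card_pos.ne'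
  have hcardP : (Nat.card T.ker : ℂ) ≠ 0 := by exact_mod_cast Nat.card_pos.ne'
  rw [classInner_def, hsum]
  by_cases hl : ∀ u : T.ker, lam u = 1
  · have hS : ∑ u : T.ker, conj ((lam u : ℂˣ) : ℂ) = Nat.card T.ker := by
      simp [hl, Nat.card_eq_fintype_card]
    rw [hS]
    -- the idempotent
    have hQreg : ¬ p ∣ Nat.card T.range := by
      intro hd
      obtain ⟨x, hx⟩ := exists_prime_orderOf_dvd_card' (G := T.range) p hd
      obtain ⟨q, t, rfl⟩ := x
      have h1 := hE3 t
      have h0 : orderOf (T t) = p := by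
        rw [← hx]
        exact (Subgroup.orderOf_coe (⟨T t, t, rfl⟩ : T.range))
      rw [show orderOf (t ^ N) = orderOf (T t) from rfl, h0] at h1
      exact h1 dvd_rfl
    let ι : T.range →* H := E.subtype.comp T.range.subtype
    have hεl := localCoeff_epsElt hM ι (lam.comp T.range.subtype) hQreg
    obtain ⟨z, hz'⟩ := hz _ hεl (epsElt_mul_self _ _)
    refine ⟨z, ?_⟩
    rw [← hz']
    have h1 : classInner f (pim0 p (epsElt ι (lam.comp T.range.subtype))) =
        classInner f (pimFun (epsElt ι (lam.comp T.range.subtype))) := by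
      simp only [classInner_def]
      congr 1
      refine Finset.sum_congr rfl fun y _ => ?_
      unfold pim0
      by_cases hy : p ∣ orderOf y
      · rw [hfreg y hy, zero_mul, zero_mul]
      · rw [pRegularPart_of_reg hy]
    rw [h1, classInner_epsElt _ _ hfc, hcardE]
    push_cast
    have h2 : ∑ q : T.range, f (ι q) * conj ((lam.comp T.range.subtype q : ℂˣ) : ℂ) =
        ∑ q : T.range, f ((q : E) : H) * conj ((lam q : ℂˣ) : ℂ) := rfl
    rw [h2]
    field_simp
  · refine ⟨0, ?_⟩
    push_neg at hl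
    obtain ⟨u₀, hu₀⟩ := hl
    have hS : ∑ u : T.ker, conj ((lam u : ℂˣ) : ℂ) = 0 := by
      have h1 : conj ((lam u₀ : ℂˣ) : ℂ) * ∑ u : T.ker, conj ((lam u : ℂˣ) : ℂ) =
          ∑ u : T.ker, conj ((lam u : ℂˣ) : ℂ) := by
        rw [Finset.mul_sum]
        refine Fintype.sum_equiv (Equiv.mulLeft u₀) _ _ fun u => ?_
        rw [Equiv.coe_mulLeft]
        have e1 : ((u₀ * u : T.ker) : E) = (u₀ : E) * (u : E) := rfl
        rw [e1, map_mul, Units.val_mul, map_mul]
      have h2 : conj ((lam u₀ : ℂˣ) : ℂ) ≠ 1 := by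
        intro h
        apply hu₀
        have h3 : ((lam u₀ : ℂˣ) : ℂ) = 1 := by
          have := congrArg conj h
          simpa using this
        exact Units.ext h3
      have h3 : (conj ((lam u₀ : ℂˣ) : ℂ) - 1) * ∑ u : T.ker, conj ((lam u : ℂˣ) : ℂ) = 0 := by
        rw [sub_mul, h1, one_mul, sub_self]
      exact (mul_eq_zero.1 h3).resolve_left (sub_ne_zero.2 h2)
    rw [hS]
    simp

/-- An integral combination of the truncated irreducible characters, from integral inner products with projectives. -/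
theorem exists_int_expansion (hM : IsPModular p M) {f : H → ℂ} (hf : f ∈ regSpan p (Set.univ : Set (IrrCharacter H)))
    (hz : ∀ ε, LocalCoeff M ε → ε * ε = ε → ∃ z : ℤ, classInner f (pim0 p ε) = z) :
    ∃ m : IrrCharacter H → ℤ, f = ∑ χ : IrrCharacter H, (m χ : ℂ) • pRegularPart p (χ : H → ℂ) := by
  classical
  obtain ⟨n, -, hnle, hn1, hn2⟩ := exists_regPow (H := H) (p := p) (Nat.card H)
  have hfreg : ∀ y, p ∣ orderOf y → f y = 0 := fun y hy => regSpan_vanish hf hy
  have hfc : IsClassFunction H f := regSpan_isClassFunction hf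
  have hN3 : ∀ u : H, (∃ k, orderOf u = p ^ k) → u ^ (p ^ n) = 1 := by
    rintro u ⟨k, hk⟩
    have h1 : p ^ k ≤ p ^ n := by
      rw [← hk]
      exact (orderOf_le_card_univ).trans (by rw [← Nat.card_eq_fintype_card]; exact hnle)
    have h2 : k ≤ n := (Nat.pow_le_pow_iff_right hp.out.one_lt).1 h1
    have h3 : orderOf u ∣ p ^ n := by
      rw [hk]
      exact pow_dvd_pow p h2
    exact orderOf_dvd_iff_pow_eq_one.1 h3
  set fh : H → ℂ := fun x => f (x ^ (p ^ n)) with hfh
  have hc : IsClassFunction H fh := by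
    intro g h
    show f ((h * g * h⁻¹) ^ (p ^ n)) = f (g ^ (p ^ n))
    rw [conj_pow, hfc]
  have hint : ∀ χ : IrrCharacter H, ∃ z : ℤ, classInner fh (χ : H → ℂ) = z := by
    intro χ
    obtain ⟨l, hl, hl'⟩ := brauer_induction (IsIrrCharacter.isCharacter χ.2)
    rw [hl']
    clear hl'
    induction l with
    | nil => exact ⟨0, by simp [classInner_zero_right]⟩
    | cons a l ih =>
      obtain ⟨z₁, hz₁⟩ := ih fun t ht => hl t (List.mem_cons_of_mem _ ht)
      obtain ⟨r, hr, hEl⟩ := hl a List.mem_cons_self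
      obtain ⟨z₂, hz₂⟩ := classInner_hat_ind hM hfreg hfc hn1 hn2 hN3 hz a.1 hr hEl a.2.1
      refine ⟨a.2.2 * z₂ + z₁, ?_⟩
      simp only [List.map_cons, List.sum_cons]
      rw [classInner_add_right, hz₁, classInner_smul_right, hz₂]
      push_cast
      simp
  choose m hm using hint
  refine ⟨m, ?_⟩
  have h1 := classFunction_eq_sum fh hc
  funext y
  rw [Finset.sum_apply]
  by_cases hy : p ∣ orderOf y
  · rw [hfreg y hy]
    symm
    refine Finset.sum_eq_zero fun χ _ => ?_
    rw [Pi.smul_apply, pRegularPart_of_sing hy, smul_zero]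
  · have h2 := congrFun h1 y
    rw [Finset.sum_apply] at h2
    have h3 : fh y = f y := by
      show f (y ^ (p ^ n)) = f y
      rw [hn1 y hy]
    rw [← h3, h2]
    refine Finset.sum_congr rfl fun χ _ => ?_
    rw [Pi.smul_apply, Pi.smul_apply, pRegularPart_of_reg hy, hm]

end Local

end Cfsg.Agent.Lib.Modular
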