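import Mathlib
import Cfsg.Agent.Lib.Modular.MinDim
import Cfsg.Agent.Lib.Modular.BlockCenter
import Cfsg.Agent.Lib.BPair.Basic

/-!
# A block with `Σ χ(1)² = p^(2a-d)` is nilpotent
-/

set_option autoImplicit false
set_option linter.unusedSectionVars false
set_option linter.unusedSimpArgs false
set_option linter.unusedVariables false
set_option linter.style.haveILetI false
set_option linter.unnecessarySimpa false

namespace Cfsg.Agent.Lib.Modular

open Module Cfsg Cfsg.Agent.Lib.Block Cfsg.Agent.Lib.BPair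

attribute [local instance] Cfsg.Agent.Lib.BPair.subFintype

section Val

theorem nonunits_mul_mem (V : ValuationSubring ℂ) {x y : ℂ} (hx : x ∈ V.nonunits) (hy : y ∈ V) : x * y ∈ V.nonunits := by
  have hx' : x ∈ V := V.nonunits_subset hx
  have h1 : (⟨x, hx'⟩ : V) ∈ IsLocalRing.maximalIdeal V := V.coe_mem_nonunits_iff.1 hx
  have h2 := Ideal.mul_mem_right (⟨y, hy⟩ : V) _ h1
  exact V.coe_mem_nonunits_iff.2 h2

theorem one_notMem_nonunits (V : ValuationSubring ℂ) : (1 : ℂ) ∉ V.nonunits := by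
  rw [ValuationSubring.mem_nonunits_iff, map_one]
  exact lt_irrefl _

variable {M : Ideal AlgInt}

/-- Algebraic integers outside `M` are units of `V`. -/
theorem inv_mem_of_integral [M.IsPrime] (V : ValuationSubring ℂ) (hVl : ∀ z, MemLocalRing M z → z ∈ V) {z : ℂ}
    (hz : IsIntegral ℤ z) (h : ¬ MemLocalIdeal M z) : z ≠ 0 ∧ z⁻¹ ∈ V := by
  have hmem : z ∈ AlgInt := hz
  have h1 : (1 : AlgInt) ∉ M := (Ideal.ne_top_iff_one M).1 (Ideal.IsPrime.ne_top inferInstance)
  have hzM : (⟨z, hmem⟩ : AlgInt) ∉ M := by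
    intro hM
    apply h
    exact ⟨⟨z, hmem⟩, 1, hM, h1, by simp⟩
  have hz0 : z ≠ 0 := by
    rintro rfl
    exact hzM (by simpa using M.zero_mem)
  refine ⟨hz0, hVl _ ⟨1, ⟨z, hmem⟩, hzM, by simp⟩⟩

end Val

section Cover

variable {G : Type*} [Group G] [Fintype G] {p : ℕ} {M : Ideal AlgInt} (V : ValuationSubring ℂ)
  (hVl : ∀ z, MemLocalRing M z → z ∈ V) (hVi : ∀ z, MemLocalIdeal M z → z ∈ V.nonunits)
  [M.IsPrime] [Fintype (ConjClasses G)] {B : Set (IrrCharacter G)}
  (hE : ∀ g, (blockElt B).coeff g ∈ V)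

local notation "F" => IsLocalRing.ResidueField V

theorem coeff_oS {K : Type*} [Field K] [DecidableEq G] (X : Finset G) (u : G) :
    (oS K X).coeff u = if u ∈ X then 1 else 0 := by
  unfold oS
  rw [MonoidAlgebra.coeff_sum, Finset.sum_apply']
  simp [gg, MonoidAlgebra.coeff_single, Finsupp.single_apply]

include hVl hVi in
/-- The class sum of a defect class is invertible on the block. -/
theorem exists_cover (hB : IsPBlock M B) {g₀ : G} (hg₀ : ∀ χ ∈ B, ¬ MemLocalIdeal M (centralChar (χ : G → ℂ) g₀))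
    (H : Subgroup G) :
    ∃ y' ∈ fx F H, y' * (piV G V (eHat V hE) * oS F (orbS ⊤ g₀)) = piV G V (eHat V hE) := by
  classical
  set ē := piV G V (eHat V hE) with hē
  set X : Finset G := orbS ⊤ g₀ with hX
  have hmemX : ∀ u, u ∈ X ↔ IsConj g₀ u := by
    intro u
    rw [hX, mem_orbS, isConj_iff]
    constructor
    · rintro ⟨y, -, rfl⟩
      exact ⟨y, rfl⟩
    · rintro ⟨y, rfl⟩
      exact ⟨y, trivial, rfl⟩
  have hStop : oS F X ∈ fx F (⊤ : Subgroup G) := oS_mem_fx (orbS_stable ⊤ g₀)
  have hScomm : ∀ x, oS F X * x = x * oS F X := by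
    intro x
    rw [eq_sum_gg x, Finset.mul_sum, Finset.sum_mul]
    refine Finset.sum_congr rfl fun g _ => ?_
    rw [mul_smul_comm, smul_mul_assoc, ← mem_fx.1 hStop g trivial]
  set v := ē * oS F X with hv
  have hv1 : v ∈ corner F ē := by
    show ē * v = v
    rw [hv, ← mul_assoc, eBar_idem V hE]
  have hv2 : v ∈ centerSub F (MonoidAlgebra F G) := by
    intro x
    rw [hv, mul_assoc, hScomm, ← mul_assoc, eBar_comm V hE, mul_assoc]
  obtain ⟨α, k, hk⟩ := exists_nil_shift V hVl hVi hE hB v hv1 hv2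
  have hα : α ≠ 0 := by
    rintro rfl
    rw [zero_smul, sub_zero] at hk
    obtain ⟨χ, hχ⟩ := IsPBlock_nonempty hB
    obtain ⟨hz0, hzinv⟩ := inv_mem_of_integral V hVl (isIntegral_centralChar χ.2 g₀) (hg₀ χ hχ)
    set z := centralChar (χ : G → ℂ) g₀ with hz
    -- the lift of the class sum
    let Khat : MonoidAlgebra V G := ofFun fun u => if u ∈ X then 1 else 0
    have hK1 : iotaV G V Khat = classSum g₀ := by
      apply ext_coeff
      intro u
      rw [iotaV_coeff, coeff_classSum]
      simp only [Khat, coeff_ofFun, hmemX]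
      split_ifs <;> simp
    have hK2 : piV G V Khat = oS F X := by
      apply ext_coeff
      intro u
      rw [piV_coeff, coeff_oS]
      simp only [Khat, coeff_ofFun]
      split_ifs <;> simp
    set y := eHat V hE * Khat with hy
    have hyi : iotaV G V y = blockElt B * classSum g₀ := by rw [hy, map_mul, iota_eHat, hK1]
    have hyc : IsCentralElt (iotaV G V y) := by
      rw [hyi]
      exact isCentralElt_mul (isCentralElt_blockElt B) (isCentralElt_classSum g₀)
    have hyp : piV G V y = v := by rw [hy, map_mul, hK2]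
    have hcf := Cfsg.Agent.Lib.Char.IsCharacter.isClassFunction
      (Cfsg.Agent.Lib.Char.IsIrrCharacter.isCharacter χ.2)
    have hom1 : om (χ : G → ℂ) (iotaV G V y) = z := by
      rw [hyi, om_mul χ.2 (isCentralElt_blockElt B), om_blockElt_of_mem hχ, one_mul, om_classSum hcf]
    have hpow : ∀ n : ℕ, IsCentralElt (iotaV G V (y ^ n)) ∧ om (χ : G → ℂ) (iotaV G V (y ^ n)) = z ^ n := by
      intro n
      induction n with
      | zero =>
        have h1 : iotaV G V ((y : MonoidAlgebra V G) ^ 0) = 1 := by rw [pow_zero, map_one]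
        rw [h1, pow_zero]
        exact ⟨isCentralElt_one, om_one χ.2⟩
      | succ n ih =>
        have h1 : iotaV G V (y ^ (n + 1)) = iotaV G V y * iotaV G V (y ^ n) := by
          rw [pow_succ', map_mul]
        rw [h1, om_mul χ.2 hyc, hom1, ih.2, pow_succ']
        exact ⟨isCentralElt_mul hyc ih.1, rfl⟩
    obtain ⟨hc, hom⟩ := hpow k
    have hres : IsLocalRing.residue V (omV V hVl χ (y ^ k)) = 0 := by
      unfold omV
      rw [map_sum]
      refine Finset.sum_eq_zero fun c _ => ?_
      rw [map_mul, ← piV_coeff, map_pow, hyp, hk]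
      simp
    have hmax : omV V hVl χ (y ^ k) ∈ IsLocalRing.maximalIdeal V := (IsLocalRing.residue_eq_zero_iff _).1 hres
    have hnon : z ^ k ∈ V.nonunits := by
      rw [← hom, ← coe_omV V hVl χ hc]
      exact V.coe_mem_nonunits_iff.2 hmax
    rw [ValuationSubring.mem_nonunits_iff_or] at hnon
    rcases hnon with h | h
    · exact pow_ne_zero _ hz0 h
    · apply h
      rw [← inv_pow]
      exact pow_mem hzinv _
  have hcor : IsCor (fx F H) ē v := by
    refine ⟨mem_fx.2 fun s _ => (hv2 _).symm, hv1, ?_⟩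
    exact (hv2 ē).trans hv1
  have hēfx : ē ∈ fx F H := mem_fx.2 fun s _ => (eBar_comm V hE _).symm
  obtain ⟨y', hy', h1, -⟩ := cor_inv (eBar_idem V hE) hēfx hcor hα ⟨k, hk⟩
  exact ⟨y', hy'.1, h1⟩

include hVl hVi in
/-- Brauer pairs of `B` on `Q` force a nonzero coefficient of the idempotent on `C_G(Q)`. -/
theorem exists_coeff_ne [hp : Fact p.Prime] {Q : Subgroup G} {e : Set (IrrCharacter (Cen Q))} (hpair : IsBrauerPairOf p M B Q e) :
    ∃ c ∈ Subgroup.centralizer (Q : Set G), (piV G V (eHat V hE)).coeff c ≠ 0 := by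
  by_contra hcon
  push_neg at hcon
  obtain ⟨hpb, hB', hω⟩ := isBrauerPairOf_iff.1 hpair
  obtain ⟨ξ, hξ⟩ := IsPBlock_nonempty hpb.2
  have h1 := hVi _ (hω ξ hξ)
  haveI : Fintype (ConjClasses (Cen Q)) := Fintype.ofFinite _
  have hcent : IsCentralElt (resAlg (Cen Q) (blockElt B)) :=
    isCentralElt_resAlg_of_isInvBy fun u _ g => isCentralElt_blockElt B u g
  have hcf := Cfsg.Agent.Lib.Char.IsCharacter.isClassFunction (Cfsg.Agent.Lib.Char.IsIrrCharacter.isCharacter ξ.2)
  have h2 : om (ξ : Cen Q → ℂ) (resAlg (Cen Q) (blockElt B)) ∈ V.nonunits := by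
    rw [om_eq_sum_conjClasses hcent hcf]
    refine sum_mem fun c _ => ?_
    refine nonunits_mul_mem V ?_ (hVl _ (memLocalRing_centralChar ξ.2 _))
    rw [coeff_resAlg]
    have h3 := hcon _ (Quotient.out c).2
    rw [piV_coeff, IsLocalRing.residue_eq_zero_iff] at h3
    have h4 := V.coe_mem_nonunits_iff.2 h3
    rwa [← iotaV_coeff, iota_eHat] at h4
  have h3 := V.nonunits.sub_mem h2 h1
  simp only [sub_sub_cancel] at h3
  exact one_notMem_nonunits V h3

end Cover

section Final

variable {G : Type*} [Group G] [Fintype G] {p : ℕ} [hp : Fact p.Prime] {M : Ideal AlgInt}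

open Classical in
/-- **A block of least dimension is nilpotent.** -/
theorem isNilpotentBlock_of_min (hM : IsPModular p M) {B : Set (IrrCharacter G)} (hB : IsPBlock M B) {D : Subgroup G}
    (hD : IsDefectGroup p M B D) {a d : ℕ} (ha : (Nat.card G).factorization p = a) (hd : Nat.card D = p ^ d)
    (hmin : (∑ χ : IrrCharacter G, if χ ∈ B then charDegree (χ : G → ℂ) ^ 2 else 0) = p ^ (2 * a - d)) :
    IsNilpotentBlock p M B := by
  classical
  haveI := isPModular_isPrime hM
  haveI : Fintype (ConjClasses G) := Fintype.ofFinite _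
  obtain ⟨V, hVl, hVi⟩ := exists_val hM
  haveI : IsAlgClosed (IsLocalRing.ResidueField V) := isAlgClosed_residue V
  have hE : ∀ g, (blockElt B).coeff g ∈ V := fun g =>
    hVl _ (localCoeff_blockElt (isBlockUnion_of_isPBlock hB) g)
  set F := IsLocalRing.ResidueField V with hF
  haveI : FiniteDimensional F (MonoidAlgebra F G) := Module.Finite.of_basis (MonoidAlgebra.basis G F)
  haveI : CharP F p := by
    have hp0 : ((p : ℕ) : F) = 0 := by
      have h1 : MemLocalIdeal M (p : ℂ) := ⟨(p : AlgInt), 1, hM.2.2,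
        (Ideal.ne_top_iff_one M).1 (Ideal.IsPrime.ne_top inferInstance), by simp⟩
      have h2 := hVi _ h1
      have h3 : (p : V) ∈ IsLocalRing.maximalIdeal V := by
        rw [← ValuationSubring.coe_mem_nonunits_iff]
        simpa using h2
      have h4 := (IsLocalRing.residue_eq_zero_iff _).2 h3
      simpa using h4
    obtain ⟨q, hq⟩ := CharP.exists F
    have h1 : q ∣ p := (CharP.cast_eq_zero_iff F q p).1 hp0
    rcases (Nat.dvd_prime hp.out).1 h1 with h | h
    · exact absurd h (CharP.char_ne_one F q)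
    · exact h ▸ hq
  refine ⟨hB, fun Q e hpair x hxN _ hxreg => ?_⟩
  obtain ⟨g₀, hdc, P, rfl⟩ := hD
  obtain ⟨hpb, -, -⟩ := isBrauerPairOf_iff.1 hpair
  have hQp : IsPGroup p Q := hpb.1
  obtain ⟨P₀, hQP₀⟩ := hQp.exists_le_sylow
  have hHp : IsPGroup p (P₀ : Subgroup G) := P₀.isPGroup'
  have hHcard : Nat.card (P₀ : Subgroup G) = p ^ a := by
    rw [Sylow.card_eq_multiplicity, ha]
  set ē := piV G V (eHat V hE) with hē
  have hfinrank : finrank F (corner F ē) = p ^ (2 * a - d) := by
    rw [← hmin, corner_eq_range _ (eBar_idem V hE), finrank_range_eq V _ (eHat_idem V hE), iota_eHat,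
      finrank_blockElt]
  have hPcard : Nat.card P = p ^ d := by
    rw [← hd]
    exact (Subgroup.card_map_of_injective (Subgroup.subtype_injective _)).symm
  have hdle : d ≤ 2 * a := by
    have h1 : p ^ d ∣ Nat.card G := by
      rw [← hd]
      exact Subgroup.card_subgroup_dvd_card _
    have h2 := (Nat.Prime.pow_dvd_iff_le_factorization hp.out Nat.card_pos.ne').1 h1
    omega
  have hdim : finrank F (corner F ē) * p ^ d = (Nat.card (P₀ : Subgroup G)) ^ 2 := by
    rw [hfinrank, hHcard, ← pow_add, ← pow_mul]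
    congr 1
    omega
  have hē0 : ē ≠ 0 := by
    intro h0
    have hbot : corner F (0 : MonoidAlgebra F G) = ⊥ := by
      ext x
      rw [mem_corner, Submodule.mem_bot, zero_mul, eq_comm]
    rw [h0, hbot, finrank_bot] at hfinrank
    exact (pow_pos hp.out.pos _).ne hfinrank
  obtain ⟨y', hy', hcov⟩ := exists_cover V hVl hVi hE hB hdc.2.2 (P₀ : Subgroup G)
  obtain ⟨c, hcQ, hcne⟩ := exists_coeff_ne V hVl hVi hE hpair
  refine min_mem_centralizer hHp (eBar_idem V hE) (eBar_comm V hE) hē0 (X := orbS ⊤ g₀)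
    (fun g hg y _ => orbS_stable ⊤ g₀ g hg y trivial) (m := p ^ d) ?_ hy' hcov hdim hQP₀ hcQ hcne
    (fun z => Subgroup.mem_normalizer_iff.1 hxN z) hxreg
  intro g hg
  rw [← hPcard]
  refine card_inf_centralizer_le hHp P ?_
  obtain ⟨y, -, rfl⟩ := mem_orbS.1 hg
  exact isConj_iff.2 ⟨y, rfl⟩

end Final

end Cfsg.Agent.Lib.Modular
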