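import Mathlib
import Cfsg.Agent.Lib.Degree.Burnside
import Cfsg.Agent.Lib.Block.Ortho

/-!
# Positive generalized characters with mean one

A generalized character with positive real values and mean one is the trivial character
(Galois conjugation and the arithmetic-geometric mean inequality).
-/

set_option autoImplicit false
set_option linter.unusedSectionVars false
set_option linter.unusedSimpArgs false
set_option linter.unusedVariables false
set_option linter.style.haveILetI false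
set_option linter.unnecessarySimpa false

open scoped ComplexConjugate

namespace Cfsg.Agent.Lib.Modular

open Module Cfsg Cfsg.Agent.Lib.Block Cfsg.Agent.Lib.Char Cfsg.Agent.Lib.Degree

section PosGen

variable {G : Type*} [Group G] [Fintype G]

/-- The Galois product of the values of a generalized character. -/
theorem prod_units_generalized {w : G → ℂ} (hw : IsGeneralizedCharacter G w) (g : G) (n : ℕ) [NeZero n]
    (h2 : 2 ∣ n) (hg : g ^ n = 1) :
    ∃ z : ℤ, (∏ u : (ZMod n)ˣ, w (g ^ (u : ZMod n).val) = (z : ℂ)) ∧ (w g ≠ 0 → z ≠ 0) := by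
  classical
  obtain ⟨χ₁, χ₂, ⟨m₁, ρ₁, rfl⟩, ⟨m₂, ρ₂, rfl⟩, rfl⟩ := hw
  obtain ⟨ζ₁, hζ₁, hk₁⟩ := character_eq_sum_roots ρ₁ g (isOfFinOrder_of_finite g)
  obtain ⟨ζ₂, hζ₂, hk₂⟩ := character_eq_sum_roots ρ₂ g (isOfFinOrder_of_finite g)
  have hnd : orderOf g ∣ n := orderOf_dvd_of_pow_eq_one hg
  let ζ : Fin (finrank ℂ (Fin m₁ → ℂ)) ⊕ Fin (finrank ℂ (Fin m₂ → ℂ)) → ℂ := Sum.elim ζ₁ (fun j => - ζ₂ j)
  have hζ : ∀ i, ζ i ^ n = 1 := by
    obtain ⟨c, hc⟩ := hnd
    obtain ⟨d, hd⟩ := h2
    rintro (i | i)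
    · show ζ₁ i ^ n = 1
      rw [hc, pow_mul, hζ₁ i, one_pow]
    · show (- ζ₂ i) ^ n = 1
      have h3 : Even n := ⟨d, by omega⟩
      rw [h3.neg_pow, hc, pow_mul, hζ₂ i, one_pow]
  obtain ⟨z, hz1, hz2⟩ := prod_units_powerSum_eq_int n ζ hζ
  have hval : ∀ k : ℕ, Odd k → (ρ₁.character - ρ₂.character) (g ^ k) = ∑ i, ζ i ^ k := by
    intro k hk
    have h1 := hk₁ (k : ℤ)
    have h2 := hk₂ (k : ℤ)
    simp only [zpow_natCast] at h1 h2
    rw [Pi.sub_apply, h1, h2, Fintype.sum_sum_type, sub_eq_add_neg, ← Finset.sum_neg_distrib]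
    congr 1
    refine Finset.sum_congr rfl fun i _ => ?_
    show _ = (- ζ₂ i) ^ k
    rw [hk.neg_pow]
  have hodd : ∀ u : (ZMod n)ˣ, Odd (u : ZMod n).val := by
    intro u
    have hcop : (u : ZMod n).val.Coprime n := ZMod.val_coe_unit_coprime u
    have h5 : (u : ZMod n).val.Coprime 2 := Nat.Coprime.coprime_dvd_right h2 hcop
    rw [← Nat.not_even_iff_odd]
    intro he
    have h6 := Nat.Coprime.eq_one_of_dvd (Nat.Coprime.symm h5) he.two_dvd
    omega
  refine ⟨z, ?_, ?_⟩
  · rw [← hz1]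
    exact Finset.prod_congr rfl fun u _ => hval _ (hodd u)
  · intro h0
    apply hz2
    have := hval 1 odd_one
    simp only [pow_one] at this
    rwa [← this]

theorem all_eq_one_of_sum_eq_card {ι : Type*} (s : Finset ι) (x : ι → ℝ) (hx : ∀ i ∈ s, 0 < x i)
    (hprod : 1 ≤ ∏ i ∈ s, x i) (hsum : ∑ i ∈ s, x i = s.card) : ∀ i ∈ s, x i = 1 := by
  classical
  have h1 : ∑ i ∈ s, Real.log (x i) ≤ ∑ i ∈ s, (x i - 1) :=
    Finset.sum_le_sum fun i hi => Real.log_le_sub_one_of_pos (hx i hi)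
  have h2 : Real.log (∏ i ∈ s, x i) = ∑ i ∈ s, Real.log (x i) :=
    Real.log_prod (fun i hi => (hx i hi).ne')
  have h3 : 0 ≤ Real.log (∏ i ∈ s, x i) := Real.log_nonneg hprod
  have h4 : ∑ i ∈ s, (x i - 1) = 0 := by
    rw [Finset.sum_sub_distrib, hsum]
    simp
  intro i hi
  by_contra hne
  have h5 : Real.log (x i) < x i - 1 := Real.log_lt_sub_one_of_pos (hx i hi) hne
  have h6 : ∑ j ∈ s, Real.log (x j) < ∑ j ∈ s, (x j - 1) :=
    Finset.sum_lt_sum (fun j hj => Real.log_le_sub_one_of_pos (hx j hj)) ⟨i, hi, h5⟩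
  linarith

/-- **A positive generalized character with mean one is trivial.** -/
theorem eq_one_of_pos_generalized {w : G → ℂ} (hw : IsGeneralizedCharacter G w) {r : G → ℝ} (hr : ∀ g, 0 < r g)
    (hwr : ∀ g, w g = (r g : ℂ)) (hsum : ∑ g, r g = Nat.card G) : ∀ g, r g = 1 := by
  classical
  set n := 2 * Nat.card G with hn
  have hcpos : 0 < Nat.card G := Nat.card_pos
  haveI : NeZero n := ⟨by omega⟩
  have hn2 : 2 ∣ n := ⟨_, rfl⟩
  have hgn : ∀ g : G, g ^ n = 1 := by
    intro g
    rw [hn, mul_comm, pow_mul, pow_card_eq_one', one_pow]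
  have hprod : ∀ g : G, 1 ≤ ∏ u : (ZMod n)ˣ, r (g ^ (u : ZMod n).val) := by
    intro g
    obtain ⟨z, hz1, hz2⟩ := prod_units_generalized hw g n hn2 (hgn g)
    have hz0 : z ≠ 0 := hz2 (by rw [hwr]; exact_mod_cast (hr g).ne')
    have h1 : ((∏ u : (ZMod n)ˣ, r (g ^ (u : ZMod n).val) : ℝ) : ℂ) = (z : ℂ) := by
      rw [← hz1]
      push_cast
      exact Finset.prod_congr rfl fun u _ => (hwr _).symm
    have h2 : (∏ u : (ZMod n)ˣ, r (g ^ (u : ZMod n).val)) = (z : ℝ) := by exact_mod_cast h1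
    have h3 : 0 < (z : ℝ) := by
      rw [← h2]
      exact Finset.prod_pos fun u _ => hr _
    have h4 : 0 < z := by exact_mod_cast h3
    rw [h2]
    exact_mod_cast h4
  have hbij : ∀ u : (ZMod n)ˣ, ∑ g : G, r (g ^ (u : ZMod n).val) = ∑ g : G, r g := by
    intro u
    have hcop : (u : ZMod n).val.Coprime n := ZMod.val_coe_unit_coprime u
    have hcop2 : (Nat.card G).Coprime (u : ZMod n).val :=
      (Nat.Coprime.coprime_dvd_right (Dvd.intro_left 2 rfl) hcop).symm
    exact Equiv.sum_comp (powCoprime hcop2 : G ≃ G) r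
  have htot : ∑ g : G, ∑ u : (ZMod n)ˣ, r (g ^ (u : ZMod n).val) = ∑ g : G, (Fintype.card (ZMod n)ˣ : ℝ) := by
    rw [Finset.sum_comm]
    simp only [hbij, hsum]
    simp only [Finset.sum_const, Finset.card_univ, nsmul_eq_mul]
    rw [Nat.card_eq_fintype_card]
    ring
  have hle : ∀ g : G, (Fintype.card (ZMod n)ˣ : ℝ) ≤ ∑ u : (ZMod n)ˣ, r (g ^ (u : ZMod n).val) := by
    intro g
    have := card_le_sum_of_prod_ge_one Finset.univ (fun u : (ZMod n)ˣ => r (g ^ (u : ZMod n).val)) (fun u _ => hr _) (hprod g)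
    simpa using this
  have heq : ∀ g : G, ∑ u : (ZMod n)ˣ, r (g ^ (u : ZMod n).val) = (Fintype.card (ZMod n)ˣ : ℝ) := by
    intro g
    have h1 := (Finset.sum_eq_sum_iff_of_le (s := Finset.univ) (f := fun _ : G => (Fintype.card (ZMod n)ˣ : ℝ))
      (g := fun g : G => ∑ u : (ZMod n)ˣ, r (g ^ (u : ZMod n).val)) (fun g _ => hle g)).1 htot.symm
    exact (h1 g (Finset.mem_univ g)).symm
  intro g
  have h1 := all_eq_one_of_sum_eq_card Finset.univ (fun u : (ZMod n)ˣ => r (g ^ (u : ZMod n).val)) (fun u _ => hr _)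
    (hprod g) (by simpa using heq g) 1 (Finset.mem_univ _)
  have hval : ((1 : (ZMod n)ˣ) : ZMod n).val = 1 := by
    haveI : Fact (1 < n) := ⟨by omega⟩
    rw [Units.val_one]
    exact ZMod.val_one n
  rw [hval, pow_one] at h1
  exact h1

open Classical in
/-- The size of the class of `v`. -/
noncomputable def clSize (v : G) : ℕ := (Finset.univ.filter fun x : G => IsConj x v).card

theorem clSize_pos (v : G) : 0 < clSize v := by
  classical
  unfold clSize
  rw [Finset.card_pos]
  exact ⟨v, Finset.mem_filter.2 ⟨Finset.mem_univ _, IsConj.refl v⟩⟩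

theorem clSize_conj {v v' : G} (h : IsConj v v') : clSize v = clSize v' := by
  classical
  unfold clSize
  congr 1
  ext x
  simp only [Finset.mem_filter, Finset.mem_univ, true_and]
  exact ⟨fun h1 => h1.trans h, fun h1 => h1.trans h.symm⟩

theorem classInd_conj {v v' : G} (h : IsConj v v') : classInd v = classInd v' := by
  classical
  funext x
  unfold classInd
  have : IsConj x v ↔ IsConj x v' := ⟨fun h1 => h1.trans h, fun h1 => h1.trans h.symm⟩
  simp only [this]

/-- A class function in terms of indicators of classes. -/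
theorem classFn_eq_sum_ind {μ : G → ℂ} (hμ : IsClassFunction G μ) :
    μ = ∑ v : G, (μ v / clSize v) • classInd v := by
  classical
  funext x
  rw [Finset.sum_apply]
  simp only [Pi.smul_apply, smul_eq_mul, classInd]
  have h1 : ∀ v : G, μ v / (clSize v : ℂ) * (if IsConj x v then (1 : ℂ) else 0) =
      if IsConj v x then μ x / (clSize x : ℂ) else 0 := by
    intro v
    by_cases h : IsConj v x
    · have hxv : IsConj x v := h.symm
      rw [if_pos hxv, if_pos h, mul_one, clSize_conj h]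
      obtain ⟨c, rfl⟩ := isConj_iff.1 h
      rw [hμ v c]
    · have hxv : ¬ IsConj x v := fun h2 => h h2.symm
      rw [if_neg hxv, if_neg h, mul_zero]
  simp only [h1]
  rw [← Finset.sum_filter, Finset.sum_const, nsmul_eq_mul]
  have hne : (clSize x : ℂ) ≠ 0 := by exact_mod_cast (clSize_pos x).ne'
  have e : ((Finset.univ.filter fun v : G => IsConj v x).card : ℂ) = (clSize x : ℂ) := rfl
  rw [e]
  field_simp

/-- **Uniqueness of the positive functional.** -/
theorem theta_eq_inner (Θ : (G → ℂ) → ℂ)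
    (hsum : ∀ μ : G → ℂ, IsClassFunction G μ → Θ μ = ∑ v : G, (μ v / clSize v) * Θ (classInd v))
    {R : G → ℝ} (hpos : ∀ v, 0 < R v) (hR : ∀ v, Θ (classInd v) = (R v : ℂ))
    (hint : ∀ l : IrrCharacter G, ∃ n : ℤ, Θ (l : G → ℂ) = n)
    (h1 : Θ (fun _ => 1) = 1) {μ : G → ℂ} (hμ : IsClassFunction G μ) :
    Θ μ = classInner μ (fun _ => (1 : ℂ)) := by
  classical
  have hcard : (Nat.card G : ℂ) ≠ 0 := by exact_mod_cast Nat.card_pos.ne'
  set r : G → ℝ := fun v => (Nat.card G : ℝ) * R v / clSize v with hr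
  have hrpos : ∀ v, 0 < r v := fun v => div_pos (mul_pos (by exact_mod_cast Nat.card_pos) (hpos v)) (by exact_mod_cast clSize_pos v)
  set w : G → ℂ := fun v => (r v : ℂ) with hw
  have hΘ : ∀ μ : G → ℂ, IsClassFunction G μ → Θ μ = classInner μ w := by
    intro μ hμ
    rw [hsum μ hμ]
    unfold classInner
    rw [Finset.mul_sum]
    refine Finset.sum_congr rfl fun v _ => ?_
    rw [hR, hw]
    simp only [Complex.conj_ofReal, hr]
    push_cast
    have hne : (clSize v : ℂ) ≠ 0 := by exact_mod_cast (clSize_pos v).ne'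
    field_simp
  have hwc : IsClassFunction G w := by
    intro g h
    have h2 : IsConj (h * g * h⁻¹) g := (isConj_iff.2 ⟨h, rfl⟩).symm
    simp only [hw, hr]
    have e1 : R (h * g * h⁻¹) = R g := by
      have h3 := hR (h * g * h⁻¹)
      rw [classInd_conj h2, hR g] at h3
      exact_mod_cast h3.symm
    rw [e1, clSize_conj h2]
  have hgen : IsGeneralizedCharacter G w := by
    refine isGeneralized_of_coeff_int hwc fun χ hχ => ?_
    obtain ⟨n, hn⟩ := hint ⟨χ, hχ⟩
    refine ⟨n, ?_⟩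
    have h2 := hΘ χ (IsCharacter.isClassFunction (IsIrrCharacter.isCharacter hχ))
    rw [← conj_classInner, ← h2]
    show conj (Θ ((⟨χ, hχ⟩ : IrrCharacter G) : G → ℂ)) = _
    rw [hn]
    simp
  have hmean : ∑ g, r g = Nat.card G := by
    have h2 := hΘ (fun _ => 1) (by intro g h; rfl)
    rw [h1] at h2
    unfold classInner at h2
    simp only [one_mul] at h2
    have h3 : ∑ g, conj (w g) = Nat.card G := by
      have h4 := congrArg (fun t => (Nat.card G : ℂ) * t) h2
      simp only [mul_one] at h4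
      rw [← mul_assoc, mul_inv_cancel₀ hcard, one_mul] at h4
      exact h4.symm
    have h5 : ((∑ g, r g : ℝ) : ℂ) = ((Nat.card G : ℝ) : ℂ) := by
      push_cast
      rw [← h3]
      refine Finset.sum_congr rfl fun g _ => ?_
      simp [hw]
    exact_mod_cast h5
  have hone := eq_one_of_pos_generalized hgen hrpos (fun g => rfl) hmean
  rw [hΘ μ hμ]
  congr 1
  funext g
  simp [hw, hone g]

end PosGen

end Cfsg.Agent.Lib.Modular
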