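import Mathlib
import Cfsg.Agent.Lib.Modular.Units
import Cfsg.Agent.Lib.Modular.PosGen
import Cfsg.Agent.Lib.BPair.Fully

/-!
# Basic properties of the star construction at a block
-/

set_option autoImplicit false
set_option linter.unusedSectionVars false
set_option linter.unusedSimpArgs false
set_option linter.unusedVariables false
set_option linter.style.haveILetI false
set_option linter.unnecessarySimpa false

open scoped ComplexConjugate

namespace Cfsg.Agent.Lib.Modular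

open Module Cfsg Cfsg.Agent.Lib.Block Cfsg.Agent.Lib.CharExtra Cfsg.Agent.Lib.BPair Cfsg.Agent.Lib.Char

attribute [local instance] Cfsg.Agent.Lib.BPair.subFintype

section Facts

variable {G : Type*} [Group G] [Fintype G] {p : ℕ} [hp : Fact p.Prime] {M : Ideal AlgInt} [hMp : M.IsPrime]
variable {B : Set (IrrCharacter G)} {P : Subgroup G} {e : Set (IrrCharacter (Cen P))}

local notation "Bcj" => Cfsg.Agent.Lib.BPair.cj
local notation "ZP" => Subgroup.zpowers

theorem blockProj_eq_zero_of_induced (hM : IsPModular p M) {u : G} (hu : ∃ k, orderOf u = p ^ k) (H : Subgroup G)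
    (hH : H = Subgroup.centralizer ({u} : Set G)) {b : Set (IrrCharacter H)} (hind : IsInducedBlock M H b B)
    {χ : IrrCharacter G} (hχ : χ ∉ B) : blockProj p b (fun c : H => (χ : G → ℂ) (u * c)) = 0 := by
  subst hH
  exact secF_eq_zero_of_notMem hM hu hind hχ

theorem sec_eq_zero_of_notMem (hM : IsPModular p M) {u : G} (hu : ∃ k, orderOf u = p ^ k)
    {b : Set (IrrCharacter (Cen (ZP u)))} (hind : IsInducedBlock M (Cen (ZP u)) b B) {χ : IrrCharacter G} (hχ : χ ∉ B) :
    sec p (ZP u) b u (χ : G → ℂ) = 0 :=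
  blockProj_eq_zero_of_induced hM hu _ (centralizer_zpowers_eq u) hind hχ

theorem sec_eq_zero_of_pair (hM : IsPModular p M) {u : G} (hu : ∃ k, orderOf u = p ^ k)
    {b : Set (IrrCharacter (Cen (ZP u)))} (h : IsBrauerPairOf p M B (ZP u) b) {χ : IrrCharacter G} (hχ : χ ∉ B) :
    sec p (ZP u) b u (χ : G → ℂ) = 0 :=
  sec_eq_zero_of_notMem hM hu (isInducedBlock_of_pair_sec hM (zpowers_le_cen u) h) hχ

theorem isPGroup_zpowers' {u : G} (hu : ∃ k, orderOf u = p ^ k) : IsPGroup p (ZP u) := by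
  obtain ⟨k, hk⟩ := hu
  apply IsPGroup.of_card (n := k)
  rw [Nat.card_zpowers, hk]

theorem sec_eq_zero_of_not_pair (hM : IsPModular p M) (hBp : IsPBlock M B) {u : G} (hu : ∃ k, orderOf u = p ^ k)
    {b : Set (IrrCharacter (Cen (ZP u)))} (hb : IsPBlock M b) (hnot : ¬ IsBrauerPairOf p M B (ZP u) b)
    {χ : IrrCharacter G} (hχ : χ ∈ B) : sec p (ZP u) b u (χ : G → ℂ) = 0 := by
  have hU := isPGroup_zpowers' (p := p) hu
  obtain ⟨B', hind⟩ := inducedBlockDefined_of_normalizer hM hU (zpowers_le_cen u) le_rfl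
    (centralizer_le_normalizer_self (ZP u)) hb
  have hpair : IsBrauerPairOf p M B' (ZP u) b := isBrauerPairOf_of_induced hU hind
  have hne : B ≠ B' := fun h => hnot (h ▸ hpair)
  exact sec_eq_zero_of_notMem hM hu hind (disjoint_blocks hBp hind.2.1 hne hχ)

theorem pair_of_RT (hM : IsPModular p M) (hmax : IsMaximalBrauerPair p M B P e) {a : BrauerPairIdx G} {y : G}
    (h : RT p M (conjIdx y a) ⟨P, e⟩) : IsBrauerPairOf p M B a.1 a.2 := by
  have h1 : IsBrauerPairOf p M B (conjIdx y a).1 (conjIdx y a).2 := isBrauerPairOf_of_le hM hmax h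
  have h2 : IsBrauerPairOf p M B (conjIdx y⁻¹ (conjIdx y a)).1 (conjIdx y⁻¹ (conjIdx y a)).2 :=
    isBrauerPairOf_conj h1
  rwa [conjIdx_inv] at h2

theorem RT_of_pair (hM : IsPModular p M) (hmax : IsMaximalBrauerPair p M B P e) {a : BrauerPairIdx G}
    (h : IsBrauerPairOf p M B a.1 a.2) : ∃ y : G, RT p M (conjIdx y a) ⟨P, e⟩ :=
  exists_conj_subpair hM hmax h

theorem conj_mem_of_RT {a : BrauerPairIdx G} {y : G} (h : RT p M (conjIdx y a) ⟨P, e⟩) {v : G} (hv : v ∈ a.1) :
    y * v * y⁻¹ ∈ P :=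
  chain_le h (conj_mem_cj.2 hv)

theorem RT_self {a : BrauerPairIdx G} (h : SubpairLE p M a.1 a.2 P e) : RT p M (conjIdx 1 a) ⟨P, e⟩ := by
  rw [conjIdx_one]
  exact h

/-- Fusion stability of extensions by zero. -/
theorem fstable_extend {lamP : P → ℂ}
    (H : ∀ (a : BrauerPairIdx G) (y y' : G), RT p M (conjIdx y a) ⟨P, e⟩ → RT p M (conjIdx y' a) ⟨P, e⟩ →
      ∀ v ∈ a.1, ∀ (h1 : y * v * y⁻¹ ∈ P) (h2 : y' * v * y'⁻¹ ∈ P), lamP ⟨_, h1⟩ = lamP ⟨_, h2⟩) :
    FStable p M P e (extendByZero P lamP) := by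
  intro a y y' hy hy' v hv
  have h1 := conj_mem_of_RT hy hv
  have h2 := conj_mem_of_RT hy' hv
  rw [extendByZero_of_mem P _ h1, extendByZero_of_mem P _ h2]
  exact H a y y' hy hy' v hv h1 h2

/-- The value of the label at a pair. -/
theorem Lb_of_RT {lamP : P → ℂ} (hs : FStable p M P e (extendByZero P lamP)) {a : BrauerPairIdx G} {y : G}
    (h : RT p M (conjIdx y a) ⟨P, e⟩) {v : G} (hv : v ∈ a.1) :
    Lb p M P e (extendByZero P lamP) a v = lamP ⟨_, conj_mem_of_RT h hv⟩ := by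
  rw [Lb_eq hs h hv, extendByZero_of_mem P _ (conj_mem_of_RT h hv)]

theorem Lb_of_le {lamP : P → ℂ} (hs : FStable p M P e (extendByZero P lamP)) {a : BrauerPairIdx G}
    (h : SubpairLE p M a.1 a.2 P e) {v : G} (hv : v ∈ a.1) (hvP : v ∈ P) :
    Lb p M P e (extendByZero P lamP) a v = lamP ⟨v, hvP⟩ := by
  rw [Lb_eq hs (RT_self h) hv, extendByZero_of_mem P _ (by simpa using hvP)]
  congr 1
  apply Subtype.ext
  simp

theorem hLc_of_fstable {lam : G → ℂ} (hs : FStable p M P e lam) :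
    ∀ (x : G) (a : BrauerPairIdx G) (v : G), v ∈ a.1 → Lb p M P e lam (conjIdx x a) (x * v * x⁻¹) = Lb p M P e lam a v :=
  fun x a v hv => Lb_conj hs x a hv

open Classical in
/-- The inner product of two stars. -/
theorem star_inner (hM : IsPModular p M) {L L' : BrauerPairIdx G → G → ℂ}
    (hLc : ∀ (x : G) (a : BrauerPairIdx G) (v : G), v ∈ a.1 → L (conjIdx x a) (x * v * x⁻¹) = L a v)
    (hLc' : ∀ (x : G) (a : BrauerPairIdx G) (v : G), v ∈ a.1 → L' (conjIdx x a) (x * v * x⁻¹) = L' a v)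
    {χ χ' : G → ℂ} (hχ : IsClassFunction G χ) (hχ' : IsClassFunction G χ') :
    classInner (star M p L χ) (star M p L' χ') =
      ∑ u ∈ Finset.univ.filter (fun u : G => ∃ k, orderOf u = p ^ k),
        ((Nat.card (Cen (ZP u)) : ℂ) / (Nat.card G : ℂ)) *
          ∑ b : Blocks M (Cen (ZP u)), L ⟨ZP u, b.1⟩ u * conj (L' ⟨ZP u, b.1⟩ u) *
            classInner (sec p (ZP u) b.1 u χ) (sec p (ZP u) b.1 u χ') := by
  classical
  rw [inner_formula hM (star_isClass (fun x g => hχ g x) hLc) (star_isClass (fun x g => hχ' g x) hLc')]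
  refine Finset.sum_congr rfl fun u hu => ?_
  congr 1
  refine Finset.sum_congr rfl fun b _ => ?_
  have hu' := (Finset.mem_filter.1 hu).2
  rw [sec_star hM hχ hLc hu' b.2, sec_star hM hχ' hLc' hu' b.2, classInner_smul_left, classInner_smul_right]
  ring

open Classical in
/-- The inner product of a star with a class function. -/
theorem star_inner_one (hM : IsPModular p M) {L : BrauerPairIdx G → G → ℂ}
    (hLc : ∀ (x : G) (a : BrauerPairIdx G) (v : G), v ∈ a.1 → L (conjIdx x a) (x * v * x⁻¹) = L a v)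
    {χ χ' : G → ℂ} (hχ : IsClassFunction G χ) (hχ' : IsClassFunction G χ') :
    classInner (star M p L χ) χ' =
      ∑ u ∈ Finset.univ.filter (fun u : G => ∃ k, orderOf u = p ^ k),
        ((Nat.card (Cen (ZP u)) : ℂ) / (Nat.card G : ℂ)) *
          ∑ b : Blocks M (Cen (ZP u)), L ⟨ZP u, b.1⟩ u *
            classInner (sec p (ZP u) b.1 u χ) (sec p (ZP u) b.1 u χ') := by
  classical
  rw [inner_formula hM (star_isClass (fun x g => hχ g x) hLc) hχ']
  refine Finset.sum_congr rfl fun u hu => ?_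
  congr 1
  refine Finset.sum_congr rfl fun b _ => ?_
  have hu' := (Finset.mem_filter.1 hu).2
  rw [sec_star hM hχ hLc hu' b.2, classInner_smul_left]

/-- **Adjunction.** -/
theorem star_adj (hM : IsPModular p M) {L L' L'' : BrauerPairIdx G → G → ℂ}
    (hLc : ∀ (x : G) (a : BrauerPairIdx G) (v : G), v ∈ a.1 → L (conjIdx x a) (x * v * x⁻¹) = L a v)
    (hLc' : ∀ (x : G) (a : BrauerPairIdx G) (v : G), v ∈ a.1 → L' (conjIdx x a) (x * v * x⁻¹) = L' a v)
    (hLc'' : ∀ (x : G) (a : BrauerPairIdx G) (v : G), v ∈ a.1 → L'' (conjIdx x a) (x * v * x⁻¹) = L'' a v)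
    (hL : ∀ a v, L'' a v = L a v * conj (L' a v))
    {χ χ' : G → ℂ} (hχ : IsClassFunction G χ) (hχ' : IsClassFunction G χ') :
    classInner (star M p L χ) (star M p L' χ') = classInner (star M p L'' χ) χ' := by
  rw [star_inner hM hLc hLc' hχ hχ', star_inner_one hM hLc'' hχ hχ']
  simp only [hL]

/-- Stars of characters in the block are orthogonal to characters outside the block. -/
theorem star_orth (hM : IsPModular p M) (hmax : IsMaximalBrauerPair p M B P e) {lam : G → ℂ} (hs : FStable p M P e lam)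
    {χ ψ : IrrCharacter G} (hχ : χ ∈ B) (hψ : ψ ∉ B) :
    classInner (star M p (Lb p M P e lam) (χ : G → ℂ)) (ψ : G → ℂ) = 0 := by
  classical
  have hBp : IsPBlock M B := hmax.1.2.1
  have hχc : IsClassFunction G (χ : G → ℂ) := IsCharacter.isClassFunction (IsIrrCharacter.isCharacter χ.2)
  have hψc : IsClassFunction G (ψ : G → ℂ) := IsCharacter.isClassFunction (IsIrrCharacter.isCharacter ψ.2)
  rw [star_inner_one hM (hLc_of_fstable hs) hχc hψc]
  refine Finset.sum_eq_zero fun u hu => ?_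
  have hu' := (Finset.mem_filter.1 hu).2
  rw [Finset.sum_eq_zero, mul_zero]
  intro b _
  by_cases hpair : IsBrauerPairOf p M B (ZP u) b.1
  · rw [sec_eq_zero_of_pair hM hu' hpair hψ]
    simp [classInner_def]
  · rw [sec_eq_zero_of_not_pair hM hBp hu' b.2 hpair hχ]
    simp [classInner_def]

/-- Evaluation of `TT` when the label is constant on pairs of the block. -/
theorem TT_eq_const (hM : IsPModular p M) (hBp : IsPBlock M B) {χ : IrrCharacter G} (hχ : χ ∈ B)
    {L : BrauerPairIdx G → G → ℂ} {u s : G} (hu : ∃ k, orderOf u = p ^ k) (hcomm : Commute u s) (hs : ¬ p ∣ orderOf s) {c : ℂ}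
    (hL : ∀ b : Blocks M (Cen (ZP u)), IsBrauerPairOf p M B (ZP u) b.1 → L ⟨ZP u, b.1⟩ u = c) :
    TT M L (χ : G → ℂ) (ZP u) u s = c * (χ : G → ℂ) (u * s) := by
  classical
  have hχc : IsClassFunction G (χ : G → ℂ) := IsCharacter.isClassFunction (IsIrrCharacter.isCharacter χ.2)
  have huU : u ∈ ZP u := Subgroup.mem_zpowers u
  have hsC : s ∈ Cen (ZP u) := by
    rw [Cfsg.Agent.Lib.Modular.mem_CU]
    rw [hcomm.eq]
    group
  unfold TT
  have hfc := isClass_shift huU hχc
  have hsum := sum_blockPart (M := M) hfc (⟨s, hsC⟩ : Cen (ZP u))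
  simp only at hsum
  rw [← hsum, Finset.mul_sum]
  refine Finset.sum_congr rfl fun b _ => ?_
  have hs' : ¬ p ∣ orderOf (⟨s, hsC⟩ : Cen (ZP u)) := by rwa [Subgroup.orderOf_mk]
  have h1 : blockPart b.1 (fun c : Cen (ZP u) => (χ : G → ℂ) (u * c)) ⟨s, hsC⟩ = sv (χ : G → ℂ) (ZP u) b.1 u s :=
    (sv_eq_blockPart huU hχc b.1 ⟨s, hsC⟩).symm
  rw [h1]
  by_cases hpair : IsBrauerPairOf p M B (ZP u) b.1
  · rw [hL b hpair]
  · have h2 := congrFun (sec_eq_zero_of_not_pair hM hBp hu b.2 hpair hχ) ⟨s, hsC⟩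
    rw [sec_of_reg huU hχc b.1 hs'] at h2
    have h3 : sv (χ : G → ℂ) (ZP u) b.1 u s = 0 := h2
    rw [h3, mul_zero, mul_zero]

theorem pp_reg_eq_one {s : G} (hs : ¬ p ∣ orderOf s) : (1 : G) * s = s := one_mul s

/-- Stars at regular elements. -/
theorem star_reg (hM : IsPModular p M) (hmax : IsMaximalBrauerPair p M B P e) {lamP : P → ℂ}
    (hs : FStable p M P e (extendByZero P lamP)) {χ : IrrCharacter G} (hχ : χ ∈ B) {s : G} (hsr : ¬ p ∣ orderOf s) :
    star M p (Lb p M P e (extendByZero P lamP)) (χ : G → ℂ) s = lamP 1 * (χ : G → ℂ) s := by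
  classical
  have hu : ∃ k, orderOf (1 : G) = p ^ k := ⟨0, by simp⟩
  have h1 := star_mul (M := M) (L := Lb p M P e (extendByZero P lamP)) (χ := (χ : G → ℂ)) (Commute.one_left s) hu hsr
  rw [one_mul] at h1
  rw [h1, TT_eq_const hM hmax.1.2.1 hχ hu (Commute.one_left s) hsr (c := lamP 1), one_mul]
  intro b hpair
  obtain ⟨y, hy⟩ := RT_of_pair (a := ⟨ZP (1 : G), b.1⟩) hM hmax hpair
  rw [Lb_of_RT hs hy (Subgroup.mem_zpowers 1)]
  congr 1
  apply Subtype.ext
  simp

/-- `1 * χ = χ`. -/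
theorem star_one (hM : IsPModular p M) (hmax : IsMaximalBrauerPair p M B P e)
    (hs : FStable p M P e (extendByZero P (fun _ => 1))) {χ : IrrCharacter G} (hχ : χ ∈ B) :
    star M p (Lb p M P e (extendByZero P (fun _ => 1))) (χ : G → ℂ) = (χ : G → ℂ) := by
  classical
  funext g
  show TT M _ (χ : G → ℂ) (ZP (pp p g)) (pp p g) (pr p g) = _
  rw [TT_eq_const hM hmax.1.2.1 hχ (pp_pow g) (commute_pp_pr g) (pr_reg g) (c := 1), one_mul, pp_mul_pr]
  intro b hpair
  obtain ⟨y, hy⟩ := RT_of_pair (a := ⟨ZP (pp p g), b.1⟩) hM hmax hpair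
  rw [Lb_of_RT hs hy (Subgroup.mem_zpowers _)]

/-- Composition of stars. -/
theorem star_star (hM : IsPModular p M) {L L' L'' : BrauerPairIdx G → G → ℂ}
    (hLc' : ∀ (x : G) (a : BrauerPairIdx G) (v : G), v ∈ a.1 → L' (conjIdx x a) (x * v * x⁻¹) = L' a v)
    (hL : ∀ a v, L'' a v = L a v * L' a v)
    {χ : G → ℂ} (hχ : IsClassFunction G χ) :
    star M p L (star M p L' χ) = star M p L'' χ := by
  classical
  funext g
  have hstar : IsClassFunction G (star M p L' χ) := star_isClass (fun x g => hχ g x) hLc'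
  show TT M L (star M p L' χ) (ZP (pp p g)) (pp p g) (pr p g) = TT M L'' χ (ZP (pp p g)) (pp p g) (pr p g)
  set u := pp p g with hu
  set s := pr p g with hs
  have huU : u ∈ ZP u := Subgroup.mem_zpowers u
  have hcomm : Commute u s := commute_pp_pr g
  have hsC : s ∈ Cen (ZP u) := by
    rw [Cfsg.Agent.Lib.Modular.mem_CU]
    rw [hcomm.eq]
    group
  have hs' : ¬ p ∣ orderOf (⟨s, hsC⟩ : Cen (ZP u)) := by
    rw [Subgroup.orderOf_mk]
    exact pr_reg g
  unfold TT
  refine Finset.sum_congr rfl fun b _ => ?_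
  have h1 := congrFun (sec_star hM hχ hLc' (pp_pow g) b.2) ⟨s, hsC⟩
  rw [sec_of_reg huU hstar b.1 hs', Pi.smul_apply, sec_of_reg huU (hχ) b.1 hs', smul_eq_mul] at h1
  have h2 : sv (star M p L' χ) (ZP u) b.1 u s = L' ⟨ZP u, b.1⟩ u * sv χ (ZP u) b.1 u s := h1
  rw [h2, hL]
  ring

/-- The nonvanishing of sections of height zero characters, for a block. -/
theorem sec_height_zero_ne (hM : IsPModular p M) (hmax : IsMaximalBrauerPair p M B P e) {χ₀ : IrrCharacter G} (hχ₀ : χ₀ ∈ B)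
    (h0 : (charDegree (χ₀ : G → ℂ)).factorization p = minExp p B)
    {u : G} (hu : u ∈ P) {b : Set (IrrCharacter (Cen (ZP u)))} (hb : IsPBlock M b) (hle : SubpairLE p M (ZP u) b P e) :
    sec p (ZP u) b u (χ₀ : G → ℂ) ≠ 0 := by
  classical
  obtain ⟨i, hiP, hii, hil, hiB, hbr, hK⟩ := exists_source hM hmax hχ₀ h0
  obtain ⟨î, hîl, hîî, hrd, hinv⟩ := exists_idem_lift_fx hM P hiP hii
  have hχ : IsCharacter G (χ₀ : G → ℂ) := IsIrrCharacter.isCharacter χ₀.2
  have h1 := tr_shift_ne_of_Kap hM hχ hmax.1.1.1 hii hiP hK hîl hrd hu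
  refine sec_ne_zero hM hmax.1.1 hii hiP hil hbr hîl hîî hrd hinv hu hb hle hχ ?_
  intro h2
  apply h1
  rw [h2]
  exact memLocalIdeal_zero

/-- The regular section is nonzero for every block: the regular inner product of a height zero character with any character of the block. -/
theorem regInner_ne (hM : IsPModular p M) (hB : IsPBlock M B) {θ ξ : IrrCharacter G} (hθ : θ ∈ B) (hξ : ξ ∈ B)
    (h0 : (charDegree (θ : G → ℂ)).factorization p = minExp p B) :
    classInner (pRegularPart p (ξ : G → ℂ)) (θ : G → ℂ) ≠ 0 := by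
  classical
  have hθmin : ∀ u ∈ B, (charDegree (θ : G → ℂ)).factorization p ≤ (charDegree (u : G → ℂ)).factorization p := by
    intro u hu
    rw [h0]
    exact minExp_le hu
  have h1 := memLocalIdeal_regCoeff_div_iff hM hB hθ hθmin hθ
  have h2 : ¬ MemLocalIdeal M ((regCoeff p θ θ : ℂ) / (θ : G → ℂ) 1) := by
    rw [h1]
    exact lt_irrefl _
  have h3 := memLocalIdeal_regCoeff_div_sub hM (sameBlock_of_mem hB hξ hθ) θ
  have hspec := regCoeff_spec (p := p) ξ θ
  rw [classInner_regPart] at hspec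
  intro h
  have h5 : classInner (pRegularPart p (ξ : G → ℂ)) (θ : G → ℂ) =
      (Nat.card G : ℂ)⁻¹ * ∑ x : G, (if p ∣ orderOf x then (0 : ℂ) else (ξ : G → ℂ) x * conj ((θ : G → ℂ) x)) := by
    unfold classInner
    congr 1
    refine Finset.sum_congr rfl fun x _ => ?_
    rw [pRegularPart_eq_ite]
    split_ifs <;> simp
  rw [h5] at h
  have h4 : regCoeff p ξ θ = 0 := by
    have h6 : ((regCoeff p ξ θ : ℤ) : ℂ) = 0 := by
      rw [← hspec]
      rw [mul_right_comm, h, zero_mul]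
    exact_mod_cast h6
  rw [h4] at h3
  simp only [Int.cast_zero, zero_div, zero_sub] at h3
  apply h2
  simpa using memLocalIdeal_neg h3

end Facts

end Cfsg.Agent.Lib.Modular
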