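import Mathlib
import Cfsg.Agent.Lib.Modular.StarFacts
import Cfsg.Agent.Lib.BPair.Frob

/-!
# Nilpotent blocks: the bijection with the characters of a defect group (Broué-Puig)
-/

set_option autoImplicit false
set_option linter.unusedSectionVars false
set_option linter.unusedSimpArgs false
set_option linter.unusedVariables false
set_option linter.style.haveILetI false
set_option linter.unnecessarySimpa false

open scoped ComplexConjugate

namespace Cfsg.Agent.Lib.Modular

open Module Cfsg Cfsg.Agent.Lib.Block Cfsg.Agent.Lib.CharExtra Cfsg.Agent.Lib.BPair Cfsg.Agent.Lib.Char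

attribute [local instance] Cfsg.Agent.Lib.BPair.subFintype

section Lin

variable {G : Type*} [Group G] [Fintype G] {p : ℕ} [hp : Fact p.Prime] {M : Ideal AlgInt} [hMp : M.IsPrime]
variable {B : Set (IrrCharacter G)} {P : Subgroup G} {e : Set (IrrCharacter (Cen P))}

local notation "Bcj" => Cfsg.Agent.Lib.BPair.cj
local notation "ZP" => Subgroup.zpowers

theorem Lb_ext_linear {ι : Type*} (s : Finset ι) (c : ι → ℂ) (f : ι → P → ℂ) {μ : P → ℂ} (hμ : μ = ∑ i ∈ s, c i • f i)
    (a : BrauerPairIdx G) (v : G) :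
    Lb p M P e (extendByZero P μ) a v = ∑ i ∈ s, c i * Lb p M P e (extendByZero P (f i)) a v := by
  classical
  unfold Lb
  split_ifs with h
  · by_cases hv : h.choose * v * h.choose⁻¹ ∈ P
    · simp only [extendByZero_of_mem P _ hv]
      rw [hμ, Finset.sum_apply]
      rfl
    · simp only [extendByZero_of_not_mem P _ hv, mul_zero, Finset.sum_const_zero]
  · simp

theorem Lb_mul_conj (f g : P → ℂ) (a : BrauerPairIdx G) (v : G) :
    Lb p M P e (extendByZero P (fun x => f x * conj (g x))) a v =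
      Lb p M P e (extendByZero P f) a v * conj (Lb p M P e (extendByZero P g) a v) := by
  classical
  unfold Lb
  split_ifs with h
  · by_cases hv : h.choose * v * h.choose⁻¹ ∈ P
    · simp only [extendByZero_of_mem P _ hv]
    · simp only [extendByZero_of_not_mem P _ hv, map_zero, mul_zero]
  · simp

theorem Lb_mul (f g : P → ℂ) (a : BrauerPairIdx G) (v : G) :
    Lb p M P e (extendByZero P (fun x => f x * g x)) a v =
      Lb p M P e (extendByZero P f) a v * Lb p M P e (extendByZero P g) a v := by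
  classical
  unfold Lb
  split_ifs with h
  · by_cases hv : h.choose * v * h.choose⁻¹ ∈ P
    · simp only [extendByZero_of_mem P _ hv]
    · simp only [extendByZero_of_not_mem P _ hv, mul_zero]
  · simp

theorem inner_star_linear (hM : IsPModular p M) {ι : Type*} (s : Finset ι) (c : ι → ℂ) (f : ι → P → ℂ) {μ : P → ℂ}
    (hμ : μ = ∑ i ∈ s, c i • f i) (hsμ : FStable p M P e (extendByZero P μ))
    (hsf : ∀ i ∈ s, FStable p M P e (extendByZero P (f i))) {χ χ' : G → ℂ} (hχ : IsClassFunction G χ)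
    (hχ' : IsClassFunction G χ') :
    classInner (star M p (Lb p M P e (extendByZero P μ)) χ) χ' =
      ∑ i ∈ s, c i * classInner (star M p (Lb p M P e (extendByZero P (f i))) χ) χ' := by
  classical
  have hR : ∑ i ∈ s, c i * classInner (star M p (Lb p M P e (extendByZero P (f i))) χ) χ' =
      ∑ i ∈ s, c i * ∑ u ∈ Finset.univ.filter (fun u : G => ∃ k, orderOf u = p ^ k),
        ((Nat.card (Cen (ZP u)) : ℂ) / (Nat.card G : ℂ)) *
          ∑ b : Blocks M (Cen (ZP u)), Lb p M P e (extendByZero P (f i)) ⟨ZP u, b.1⟩ u *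
            classInner (sec p (ZP u) b.1 u χ) (sec p (ZP u) b.1 u χ') :=
    Finset.sum_congr rfl fun i hi => by rw [star_inner_one hM (hLc_of_fstable (hsf i hi)) hχ hχ']
  rw [star_inner_one hM (hLc_of_fstable hsμ) hχ hχ', hR]
  simp only [Lb_ext_linear s c f hμ, Finset.mul_sum, Finset.sum_mul]
  rw [Finset.sum_comm (s := s)]
  refine Finset.sum_congr rfl fun u _ => ?_
  rw [Finset.sum_comm]
  refine Finset.sum_congr rfl fun b _ => Finset.sum_congr rfl fun i _ => ?_
  ring

/-- Characters of the block on regular elements. -/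
theorem conj_reg_inner {θ ξ : IrrCharacter G} :
    classInner (pRegularPart p (θ : G → ℂ)) (ξ : G → ℂ) = conj (classInner (pRegularPart p (ξ : G → ℂ)) (θ : G → ℂ)) := by
  have h1 : classInner (pRegularPart p (θ : G → ℂ)) (ξ : G → ℂ) =
      classInner (pRegularPart p (θ : G → ℂ)) (pRegularPart p (ξ : G → ℂ)) :=
    (classInner_reg_left (fun y hy => pRegularPart_eq_zero_of_dvd _ hy) _).symm
  have h2 : classInner (pRegularPart p (ξ : G → ℂ)) (θ : G → ℂ) =
      classInner (pRegularPart p (ξ : G → ℂ)) (pRegularPart p (θ : G → ℂ)) :=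
    (classInner_reg_left (fun y hy => pRegularPart_eq_zero_of_dvd _ hy) _).symm
  rw [h1, h2, conj_classInner]

end Lin

section Nil

variable {G : Type*} [Group G] [Fintype G] {p : ℕ} [hp : Fact p.Prime] {M : Ideal AlgInt} [hMp : M.IsPrime]
variable {B : Set (IrrCharacter G)} {P : Subgroup G} {e : Set (IrrCharacter (Cen P))}

local notation "Bcj" => Cfsg.Agent.Lib.BPair.cj
local notation "ZP" => Subgroup.zpowers

theorem fstable_of_nil (hM : IsPModular p M) (hmax : IsMaximalBrauerPair p M B P e) (hnil : IsNilpotentBlock p M B)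
    {lamP : P → ℂ} (hc : IsClassFunction P lamP) : FStable p M P e (extendByZero P lamP) := by
  apply fstable_extend
  intro a y y' hy hy' v hv h1 h2
  have hy2 : SubpairLE p M (Bcj (y' * y⁻¹) (Bcj y a.1)) (conjBlock (Bcj y a.1) (y' * y⁻¹) (conjBlock a.1 y a.2)) P e := by
    have h3 : conjIdx (y' * y⁻¹) (conjIdx y a) = conjIdx y' a := by
      rw [← conjIdx_mul]
      congr 1
      group
    have h4 : RT p M (conjIdx (y' * y⁻¹) (conjIdx y a)) ⟨P, e⟩ := by
      rw [h3]
      exact hy'
    exact h4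
  obtain ⟨u, huP, hu⟩ := innerOn_of_nilpotent hM hmax hnil (R := Bcj y a.1) (f := conjBlock a.1 y a.2) hy hy2
  have h3 := hu (y * v * y⁻¹) (conj_mem_cj.2 hv)
  have e1 : (y' * y⁻¹) * (y * v * y⁻¹) * (y' * y⁻¹)⁻¹ = y' * v * y'⁻¹ := by group
  rw [e1] at h3
  have e2 : (⟨y' * v * y'⁻¹, h2⟩ : P) = ⟨u, huP⟩ * ⟨y * v * y⁻¹, h1⟩ * ⟨u, huP⟩⁻¹ := by
    apply Subtype.ext
    simp [h3]
  rw [e2, hc]

open scoped ComplexOrder in
/-- The functional is positive at indicator functions of classes. -/
theorem theta_ind_pos (hM : IsPModular p M) (hmax : IsMaximalBrauerPair p M B P e) (hnil : IsNilpotentBlock p M B)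
    {χ₀ : IrrCharacter G} (hχ₀ : χ₀ ∈ B) (h0 : (charDegree (χ₀ : G → ℂ)).factorization p = minExp p B) (v : P) :
    0 < classInner (star M p (Lb p M P e (extendByZero P (classInd v))) (χ₀ : G → ℂ)) (χ₀ : G → ℂ) := by
  classical
  have hχc : IsClassFunction G (χ₀ : G → ℂ) := IsCharacter.isClassFunction (IsIrrCharacter.isCharacter χ₀.2)
  have hs := fstable_of_nil hM hmax hnil (classInd_isClassFunction v)
  rw [star_inner_one hM (hLc_of_fstable hs) hχc hχc]
  have hG : (0 : ℂ) < (Nat.card G : ℂ) := by exact_mod_cast Nat.card_pos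
  have hw : ∀ u : G, (0 : ℂ) < ((Nat.card (Cen (ZP u)) : ℂ) / (Nat.card G : ℂ)) := by
    intro u
    have h1 : (0 : ℂ) < (Nat.card (Cen (ZP u)) : ℂ) := by exact_mod_cast Nat.card_pos
    exact div_pos h1 hG
  have hN : ∀ f : Cen (ZP (v : G)) → ℂ, 0 ≤ classInner f f := by
    intro f
    rw [classInner_self_eq]
    apply Complex.zero_le_real.2
    positivity
  have hL : ∀ (a : BrauerPairIdx G) (x : G), 0 ≤ Lb p M P e (extendByZero P (classInd v)) a x := by
    intro a x
    unfold Lb
    split_ifs with h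
    · by_cases hx : h.choose * x * h.choose⁻¹ ∈ P
      · rw [extendByZero_of_mem P _ hx]
        unfold classInd
        split_ifs
        · exact zero_le_one
        · exact le_rfl
      · rw [extendByZero_of_not_mem P _ hx]
    · exact le_rfl
  have hterm : ∀ u ∈ Finset.univ.filter (fun u : G => ∃ k, orderOf u = p ^ k),
      0 ≤ ((Nat.card (Cen (ZP u)) : ℂ) / (Nat.card G : ℂ)) *
        ∑ b : Blocks M (Cen (ZP u)), Lb p M P e (extendByZero P (classInd v)) ⟨ZP u, b.1⟩ u *
          classInner (sec p (ZP u) b.1 u (χ₀ : G → ℂ)) (sec p (ZP u) b.1 u (χ₀ : G → ℂ)) := by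
    intro u _
    refine mul_nonneg (hw u).le (Finset.sum_nonneg fun b _ => mul_nonneg (hL _ _) ?_)
    rw [classInner_self_eq]
    apply Complex.zero_le_real.2
    positivity
  refine Finset.sum_pos' hterm ⟨(v : G), ?_, ?_⟩
  · rw [Finset.mem_filter]
    refine ⟨Finset.mem_univ _, ?_⟩
    obtain ⟨k, hk⟩ := (IsPGroup.iff_orderOf.1 hmax.1.1.1) v
    exact ⟨k, by rw [← Subgroup.orderOf_coe] at hk; exact hk⟩
  · refine mul_pos (hw _) ?_
    have hUP : ZP (v : G) ≤ P := (Subgroup.zpowers_le).2 v.2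
    obtain ⟨bv, ⟨hbv, hle⟩, -⟩ := existsUnique_subpair hM hmax.1.1 hUP
    refine Finset.sum_pos' (fun b _ => mul_nonneg (hL _ _) ?_) ⟨⟨bv, hbv⟩, Finset.mem_univ _, ?_⟩
    · rw [classInner_self_eq]
      apply Complex.zero_le_real.2
      positivity
    · rw [Lb_of_le hs (a := ⟨ZP (v : G), bv⟩) hle (Subgroup.mem_zpowers _) v.2]
      have h1 : classInd v (⟨(v : G), v.2⟩ : P) = 1 := by
        unfold classInd
        rw [if_pos (IsConj.refl _)]
      rw [h1, one_mul]
      have hne := sec_height_zero_ne hM hmax hχ₀ h0 v.2 hbv hle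
      have h2 : classInner (sec p (ZP (v : G)) bv (v : G) (χ₀ : G → ℂ)) (sec p (ZP (v : G)) bv (v : G) (χ₀ : G → ℂ)) ≠ 0 :=
        fun h => hne (classInner_self_eq_zero.1 h)
      have h3 : 0 ≤ classInner (sec p (ZP (v : G)) bv (v : G) (χ₀ : G → ℂ)) (sec p (ZP (v : G)) bv (v : G) (χ₀ : G → ℂ)) := by
        rw [classInner_self_eq]
        apply Complex.zero_le_real.2
        positivity
      exact lt_of_le_of_ne h3 (Ne.symm h2)

/-- **The functional for a height zero character.** -/
theorem theta_eq (hM : IsPModular p M) (hmax : IsMaximalBrauerPair p M B P e) (hnil : IsNilpotentBlock p M B)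
    {χ₀ : IrrCharacter G} (hχ₀ : χ₀ ∈ B) (h0 : (charDegree (χ₀ : G → ℂ)).factorization p = minExp p B)
    {μ : P → ℂ} (hμ : IsClassFunction P μ) :
    classInner (star M p (Lb p M P e (extendByZero P μ)) (χ₀ : G → ℂ)) (χ₀ : G → ℂ) = classInner μ (fun _ => (1 : ℂ)) := by
  classical
  have hχc : IsClassFunction G (χ₀ : G → ℂ) := IsCharacter.isClassFunction (IsIrrCharacter.isCharacter χ₀.2)
  have hpos := fun v : P => theta_ind_pos hM hmax hnil hχ₀ h0 v
  set Θ : (P → ℂ) → ℂ := fun μ => classInner (star M p (Lb p M P e (extendByZero P μ)) (χ₀ : G → ℂ)) (χ₀ : G → ℂ) with hΘ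
  refine theta_eq_inner Θ ?_ (R := fun v => (Θ (classInd v)).re) ?_ ?_ ?_ ?_ hμ
  · intro μ hμ
    exact inner_star_linear hM Finset.univ _ (fun v => classInd v) (classFn_eq_sum_ind hμ) (fstable_of_nil hM hmax hnil hμ)
      (fun v _ => fstable_of_nil hM hmax hnil (classInd_isClassFunction v)) hχc hχc
  · intro v
    exact (Complex.pos_iff.1 (hpos v)).1
  · intro v
    have h1 := (Complex.pos_iff.1 (hpos v)).2
    apply Complex.ext
    · simp
    · simp [hΘ, ← h1]
  · intro l
    have hg := star_isGeneralized hM hmax (fstable_of_nil hM hmax hnil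
      (IsCharacter.isClassFunction (IsIrrCharacter.isCharacter l.2)))
      (IsGeneralizedCharacter.of_isCharacter (IsIrrCharacter.isCharacter l.2)) hχ₀
    exact classInner_isGeneralized_int hg (IsGeneralizedCharacter.of_isCharacter (IsIrrCharacter.isCharacter χ₀.2))
  · have h1 : IsClassFunction P (fun _ : P => (1 : ℂ)) := fun g h => rfl
    show classInner _ _ = 1
    rw [star_one hM hmax (fstable_of_nil hM hmax hnil h1) hχ₀]
    exact classInner_irr_self χ₀.2

/-- **Stars of a height zero character are orthonormal.** -/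
theorem nil_inner (hM : IsPModular p M) (hmax : IsMaximalBrauerPair p M B P e) (hnil : IsNilpotentBlock p M B)
    {χ₀ : IrrCharacter G} (hχ₀ : χ₀ ∈ B) (h0 : (charDegree (χ₀ : G → ℂ)).factorization p = minExp p B)
    {μ ν : P → ℂ} (hμ : IsClassFunction P μ) (hν : IsClassFunction P ν) :
    classInner (star M p (Lb p M P e (extendByZero P μ)) (χ₀ : G → ℂ))
      (star M p (Lb p M P e (extendByZero P ν)) (χ₀ : G → ℂ)) = classInner μ ν := by
  classical
  have hχc : IsClassFunction G (χ₀ : G → ℂ) := IsCharacter.isClassFunction (IsIrrCharacter.isCharacter χ₀.2)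
  have hμν : IsClassFunction P (fun x => μ x * conj (ν x)) := by
    intro g h
    simp only
    rw [hμ g h, hν g h]
  have hsμ := fstable_of_nil hM hmax hnil hμ
  have hsν := fstable_of_nil hM hmax hnil hν
  have hsμν := fstable_of_nil hM hmax hnil hμν
  rw [star_adj hM (hLc_of_fstable hsμ) (hLc_of_fstable hsν) (hLc_of_fstable hsμν) (fun a v => Lb_mul_conj μ ν a v) hχc hχc,
    theta_eq hM hmax hnil hχ₀ h0 hμν]
  unfold classInner
  simp

/-- The star of the regular character. -/
theorem star_delta (hM : IsPModular p M) (hmax : IsMaximalBrauerPair p M B P e) {χ : IrrCharacter G} (hχ : χ ∈ B)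
    (hs : FStable p M P e (extendByZero P (classInd (1 : P)))) :
    star M p (Lb p M P e (extendByZero P (classInd (1 : P)))) (χ : G → ℂ) = pRegularPart p (χ : G → ℂ) := by
  classical
  funext g
  show TT M _ (χ : G → ℂ) (ZP (pp p g)) (pp p g) (pr p g) = _
  by_cases hg : p ∣ orderOf g
  · -- the `p`-part is nontrivial
    have hne : pp p g ≠ 1 := by
      intro h
      have h2 := pp_mul_pr (p := p) g
      rw [h, one_mul] at h2
      exact pr_reg (p := p) g (by rw [h2]; exact hg)
    rw [TT_eq_const hM hmax.1.2.1 hχ (pp_pow g) (commute_pp_pr g) (pr_reg g) (c := 0), zero_mul,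
      pRegularPart_eq_zero_of_dvd _ hg]
    intro b hpair
    obtain ⟨y, hy⟩ := RT_of_pair (a := ⟨ZP (pp p g), b.1⟩) hM hmax hpair
    rw [Lb_of_RT hs hy (Subgroup.mem_zpowers _)]
    unfold classInd
    rw [if_neg]
    intro hc
    apply hne
    have h3 := isConj_one_left.1 hc
    have h4 : y * pp p g * y⁻¹ = 1 := congrArg Subtype.val h3
    have h5 : pp p g = y⁻¹ * (y * pp p g * y⁻¹) * y := by group
    rw [h5, h4]
    group
  · have hpp : pp p g = 1 := (pp_eq (p := p) (one_mul g) (Commute.one_left g) ⟨0, by simp⟩ hg).1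
    have hpr : pr p g = g := (pp_eq (p := p) (one_mul g) (Commute.one_left g) ⟨0, by simp⟩ hg).2
    rw [hpp, hpr, TT_eq_const hM hmax.1.2.1 hχ ⟨0, by simp⟩ (Commute.one_left g) hg (c := 1), one_mul, one_mul,
      pRegularPart_eq_of_regular _ hg]
    intro b hpair
    obtain ⟨y, hy⟩ := RT_of_pair (a := ⟨ZP (1 : G), b.1⟩) hM hmax hpair
    rw [Lb_of_RT hs hy (Subgroup.mem_zpowers _)]
    unfold classInd
    rw [if_pos]
    apply isConj_one_left.2
    apply Subtype.ext
    simp

/-- **The Broué-Puig theorem.** -/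
theorem nil_main (hM : IsPModular p M) (hmax : IsMaximalBrauerPair p M B P e) (hnil : IsNilpotentBlock p M B)
    {χ₀ : IrrCharacter G} (hχ₀ : χ₀ ∈ B) (h0 : (charDegree (χ₀ : G → ℂ)).factorization p = minExp p B) :
    ∃ Φ : IrrCharacter P → IrrCharacter G, (∀ l, Φ l ∈ B) ∧ Function.Injective Φ ∧ (∀ ψ ∈ B, ∃ l, Φ l = ψ) ∧
      ∀ l s, ¬ p ∣ orderOf s → (Φ l : G → ℂ) s = (l : P → ℂ) 1 * (χ₀ : G → ℂ) s := by
  classical
  have hχc : IsClassFunction G (χ₀ : G → ℂ) := IsCharacter.isClassFunction (IsIrrCharacter.isCharacter χ₀.2)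
  have hcl : ∀ l : IrrCharacter P, IsClassFunction P (l : P → ℂ) := fun l =>
    IsCharacter.isClassFunction (IsIrrCharacter.isCharacter l.2)
  have hs : ∀ l : IrrCharacter P, FStable p M P e (extendByZero P (l : P → ℂ)) := fun l => fstable_of_nil hM hmax hnil (hcl l)
  have hreg : ∀ (l : IrrCharacter P) (s : G), ¬ p ∣ orderOf s →
      star M p (Lb p M P e (extendByZero P (l : P → ℂ))) (χ₀ : G → ℂ) s = (l : P → ℂ) 1 * (χ₀ : G → ℂ) s :=
    fun l s hsr => star_reg hM hmax (hs l) hχ₀ hsr
  have hirr : ∀ l : IrrCharacter P, IsIrrCharacter G (star M p (Lb p M P e (extendByZero P (l : P → ℂ))) (χ₀ : G → ℂ)) := by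
    intro l
    refine isIrr_of_generalized_norm_one (star_isGeneralized hM hmax (hs l)
      (IsGeneralizedCharacter.of_isCharacter (IsIrrCharacter.isCharacter l.2)) hχ₀) ?_ ?_
    · rw [nil_inner hM hmax hnil hχ₀ h0 (hcl l) (hcl l)]
      exact classInner_irr_self l.2
    · rw [hreg l 1 (by simp [hp.out.one_lt.ne']), map_one_eq_charDegree (IsIrrCharacter.isCharacter l.2),
        map_one_eq_charDegree (IsIrrCharacter.isCharacter χ₀.2)]
      have h1 := charDegree_pos_of_irr l.2
      have h2 := charDegree_pos_of_irr χ₀.2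
      have h3 : (0 : ℝ) < (charDegree (l : P → ℂ) : ℝ) * (charDegree (χ₀ : G → ℂ) : ℝ) := by
        have h1' : (0 : ℝ) < (charDegree (l : P → ℂ) : ℝ) := by exact_mod_cast h1
        have h2' : (0 : ℝ) < (charDegree (χ₀ : G → ℂ) : ℝ) := by exact_mod_cast h2
        positivity
      have h4 : (((charDegree (l : P → ℂ) : ℕ) : ℂ) * ((charDegree (χ₀ : G → ℂ) : ℕ) : ℂ)).re =
          (charDegree (l : P → ℂ) : ℝ) * (charDegree (χ₀ : G → ℂ) : ℝ) := by
        rw [← Nat.cast_mul, Complex.natCast_re]
        push_cast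
        rfl
      rw [h4]
      exact h3
  refine ⟨fun l => ⟨_, hirr l⟩, ?_, ?_, ?_, ?_⟩
  · intro l
    by_contra hnot
    have h1 := star_orth hM hmax (hs l) hχ₀ hnot
    have h2 := classInner_irr_self (hirr l)
    exact one_ne_zero (h2.symm.trans h1)
  · intro l l' h
    by_contra hne
    have h1 : (star M p (Lb p M P e (extendByZero P (l : P → ℂ))) (χ₀ : G → ℂ)) =
        (star M p (Lb p M P e (extendByZero P (l' : P → ℂ))) (χ₀ : G → ℂ)) := congrArg Subtype.val h
    have h2 := nil_inner hM hmax hnil hχ₀ h0 (hcl l) (hcl l')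
    rw [← h1, classInner_irr_self (hirr l), classInner_irr_of_ne l.2 l'.2 (fun h3 => hne (Subtype.ext h3))] at h2
    exact one_ne_zero h2
  · intro ψ hψ
    by_contra hcon
    push_neg at hcon
    have hψc : IsClassFunction G (ψ : G → ℂ) := IsCharacter.isClassFunction (IsIrrCharacter.isCharacter ψ.2)
    have hzero : ∀ l : IrrCharacter P, classInner (star M p (Lb p M P e (extendByZero P (l : P → ℂ))) (χ₀ : G → ℂ)) (ψ : G → ℂ) = 0 := by
      intro l
      apply classInner_irr_of_ne (hirr l) ψ.2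
      intro h
      exact hcon l (Subtype.ext h)
    have hδ : IsClassFunction P (classInd (1 : P)) := classInd_isClassFunction _
    have hsδ := fstable_of_nil hM hmax hnil hδ
    have h1 := inner_star_linear hM (M := M) (e := e) Finset.univ _ (fun l : IrrCharacter P => (l : P → ℂ))
      (classFunction_eq_sum (classInd (1 : P)) hδ) hsδ (fun l _ => hs l) hχc hψc
    rw [star_delta hM hmax hχ₀ hsδ, Finset.sum_eq_zero (fun l _ => by rw [hzero l, mul_zero]),
      conj_reg_inner] at h1
    have h2 : classInner (pRegularPart p (ψ : G → ℂ)) (χ₀ : G → ℂ) = 0 := by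
      have := congrArg conj h1
      simpa using this
    exact regInner_ne hM hmax.1.2.1 hχ₀ hψ h0 h2
  · intro l s hsr
    exact hreg l s hsr

end Nil

end Cfsg.Agent.Lib.Modular
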