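import Mathlib
import Cfsg.Agent.Lib.BPair.Abel
import Cfsg.Agent.Lib.BPair.Rel
import Cfsg.Agent.Lib.Block.Cover
import Cfsg.Agent.Lib.CharExtra.Covering

/-!
# Nilpotent blocks and normal subgroups of `p`-power index

If `N` is normal of `p`-power index in `G` and a block `c` of `N` has the same idempotent as a block
`B` of `G`, then `c` is nilpotent exactly when `B` is.
-/

set_option autoImplicit false
set_option linter.unusedSectionVars false
set_option linter.unusedSimpArgs false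
set_option linter.unusedVariables false
set_option linter.unnecessarySimpa false

open Cfsg MonoidAlgebra
open Cfsg.Agent.Lib.Block Cfsg.Agent.Lib.Char Cfsg.Agent.Lib.CharExtra Cfsg.Agent.Lib.BPair

namespace Cfsg.Agent.Lib.Modular

attribute [local instance] Cfsg.Agent.Lib.BPair.subFintype

section

variable {G : Type*} [Group G] [Fintype G] {M : Ideal AlgInt} [hMp : M.IsPrime] {p : ℕ} [hp : Fact p.Prime]
  {N : Subgroup G} [hN : N.Normal]

/-- The part of the centralizer of `up Q₀` lying in `N`, as a normal subgroup of that centralizer. -/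
abbrev HH (Q₀ : Subgroup N) : Subgroup (Cen (up Q₀)) := N.subgroupOf (Cen (up Q₀))

/-- The centralizer in `N` is that part. -/
noncomputable def hIso (Q₀ : Subgroup N) : Cen Q₀ ≃* HH Q₀ where
  toFun c := ⟨⟨((c : N) : G), coe_mem_cen_up c.2⟩, Subgroup.mem_subgroupOf.2 (c : N).2⟩
  invFun h := ⟨⟨((h : Cen (up Q₀)) : G), Subgroup.mem_subgroupOf.1 h.2⟩,
    mem_cen_of_coe (L := N) (R := Q₀) (c := ⟨((h : Cen (up Q₀)) : G), Subgroup.mem_subgroupOf.1 h.2⟩) (h : Cen (up Q₀)).2⟩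
  left_inv _ := rfl
  right_inv _ := rfl
  map_mul' _ _ := rfl

@[simp] theorem hIso_coe (Q₀ : Subgroup N) (c : Cen Q₀) : (((hIso Q₀ c : HH Q₀) : Cen (up Q₀)) : G) = ((c : N) : G) := rfl

@[simp] theorem hIso_symm_coe (Q₀ : Subgroup N) (h : HH Q₀) :
    ((((hIso Q₀).symm h : Cen Q₀) : N) : G) = ((h : Cen (up Q₀)) : G) := rfl

/-- Conjugation on `HH`. -/
noncomputable def gam (Q₀ : Subgroup N) {g : G} (hg : g ∈ Subgroup.normalizer ((up Q₀ : Subgroup G) : Set G)) :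
    HH Q₀ ≃* HH Q₀ where
  toFun h := ⟨nConj (normalizer_le_normalizer_cen hg) h.1, by
    rw [Subgroup.mem_subgroupOf, nConj_coe]
    exact hN.conj_mem _ (Subgroup.mem_subgroupOf.1 h.2) g⟩
  invFun h := ⟨(nConj (normalizer_le_normalizer_cen hg)).symm h.1, by
    rw [Subgroup.mem_subgroupOf, nConj_symm_coe]
    have := hN.conj_mem _ (Subgroup.mem_subgroupOf.1 h.2) g⁻¹
    simpa using this⟩
  left_inv h := by
    apply Subtype.ext
    exact (nConj (normalizer_le_normalizer_cen hg)).symm_apply_apply h.1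
  right_inv h := by
    apply Subtype.ext
    exact (nConj (normalizer_le_normalizer_cen hg)).apply_symm_apply h.1
  map_mul' a b := by
    apply Subtype.ext
    exact map_mul (nConj (normalizer_le_normalizer_cen hg)) a.1 b.1

@[simp] theorem gam_coe (Q₀ : Subgroup N) {g : G} (hg : g ∈ Subgroup.normalizer ((up Q₀ : Subgroup G) : Set G))
    (h : HH Q₀) : ((gam Q₀ hg h : Cen (up Q₀)) : G) = g * (h : Cen (up Q₀)) * g⁻¹ := rfl

@[simp] theorem gam_symm_coe (Q₀ : Subgroup N) {g : G} (hg : g ∈ Subgroup.normalizer ((up Q₀ : Subgroup G) : Set G))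
    (h : HH Q₀) : (((gam Q₀ hg).symm h : Cen (up Q₀)) : G) = g⁻¹ * (h : Cen (up Q₀)) * g := rfl

theorem inner_gam (Q₀ : Subgroup N) {g : G} (hg : g ∈ Subgroup.normalizer ((up Q₀ : Subgroup G) : Set G))
    (χ : IrrCharacter (Cen (up Q₀))) (θ : IrrCharacter (HH Q₀)) :
    classInner (fun n : HH Q₀ => (mapIrr (nConj (normalizer_le_normalizer_cen hg)) χ : Cen (up Q₀) → ℂ) n)
      (mapIrr (gam Q₀ hg) θ : HH Q₀ → ℂ) =
    classInner (fun n : HH Q₀ => (χ : Cen (up Q₀) → ℂ) n) (θ : HH Q₀ → ℂ) := by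
  unfold classInner
  congr 1
  refine Fintype.sum_equiv (gam Q₀ hg).symm _ _ fun n => ?_
  dsimp only
  rw [mapIrr_apply', mapIrr_apply']
  rfl

theorem gam_mapIrr (Q₀ : Subgroup N) {w : N} (hC : w ∈ Subgroup.normalizer ((Cen Q₀ : Subgroup N) : Set N))
    (hg : (w : G) ∈ Subgroup.normalizer ((up Q₀ : Subgroup G) : Set G)) (ξ : IrrCharacter (Cen Q₀)) :
    mapIrr (gam Q₀ hg) (mapIrr (hIso Q₀) ξ) = mapIrr (hIso Q₀) (mapIrr (nConj hC) ξ) := by
  apply Subtype.ext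
  funext v
  rw [mapIrr_apply', mapIrr_apply', mapIrr_apply', mapIrr_apply']
  congr 1

/-- The map on irreducibles is compatible with products. -/
theorem gam_mul (Q₀ : Subgroup N) {a b : G} (ha : a ∈ Subgroup.normalizer ((up Q₀ : Subgroup G) : Set G))
    (hb : b ∈ Subgroup.normalizer ((up Q₀ : Subgroup G) : Set G))
    (hab : a * b ∈ Subgroup.normalizer ((up Q₀ : Subgroup G) : Set G)) (θ : IrrCharacter (HH Q₀)) :
    mapIrr (gam Q₀ hab) θ = mapIrr (gam Q₀ ha) (mapIrr (gam Q₀ hb) θ) := by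
  apply Subtype.ext
  funext v
  rw [mapIrr_apply', mapIrr_apply', mapIrr_apply']
  have : (gam Q₀ hab).symm v = (gam Q₀ hb).symm ((gam Q₀ ha).symm v) := by
    apply Subtype.ext
    apply Subtype.ext
    simp [mul_assoc]
  rw [this]

theorem om_key {B : Set (IrrCharacter G)} {c : Set (IrrCharacter N)}
    (hBc : ∀ g : G, blockCoeff B g = subgroupBlockCoeff N c g) (Q₀ : Subgroup N)
    (χ : IrrCharacter (Cen (up Q₀))) (θ : IrrCharacter (HH Q₀))
    (h : classInner (fun n : HH Q₀ => (χ : Cen (up Q₀) → ℂ) n) (θ : HH Q₀ → ℂ) ≠ 0) :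
    om (χ : Cen (up Q₀) → ℂ) (resAlg (Cen (up Q₀)) (blockElt B)) =
      om (mapIrr (hIso Q₀).symm θ : Cen Q₀ → ℂ) (resAlg (Cen Q₀) (blockElt c)) := by
  classical
  have hinc : incl (HH Q₀) (resAlg (HH Q₀) (resAlg (Cen (up Q₀)) (blockElt B))) =
      resAlg (Cen (up Q₀)) (blockElt B) := by
    apply ext_coeff
    intro t
    by_cases ht : t ∈ HH Q₀
    · have := coeff_incl_coe (HH Q₀) (resAlg (HH Q₀) (resAlg (Cen (up Q₀)) (blockElt B))) ⟨t, ht⟩
      rw [coeff_resAlg] at this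
      exact this
    · rw [coeff_incl_of_notMem _ _ ht, coeff_resAlg, coeff_blockElt, hBc, subgroupBlockCoeff, dif_neg]
      exact fun h' => ht (Subgroup.mem_subgroupOf.2 h')
  have hcen : IsCentralElt (incl (HH Q₀) (resAlg (HH Q₀) (resAlg (Cen (up Q₀)) (blockElt B)))) := by
    rw [hinc]
    exact isCentralElt_resAlg_of_isInvBy ((isCentralElt_blockElt B).isInvBy _)
  have h1 := om_incl_of_constituent (HH Q₀) χ θ h hcen
  rw [hinc] at h1
  rw [h1]
  unfold om tr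
  have e1 : (mapIrr (hIso Q₀).symm θ : Cen Q₀ → ℂ) 1 = (θ : HH Q₀ → ℂ) 1 := by
    rw [mapIrr_apply', MulEquiv.symm_symm, map_one]
  rw [e1]
  congr 1
  symm
  refine Fintype.sum_equiv (hIso Q₀) _ _ fun n => ?_
  rw [mapIrr_apply', MulEquiv.symm_symm]
  congr 1
  rw [coeff_resAlg, coeff_resAlg, coeff_resAlg, coeff_blockElt, coeff_blockElt, hBc, subgroupBlockCoeff]
  split_ifs with hm
  · rfl
  · exact absurd (n : N).2 hm

theorem index_HH (hidx : ∃ k : ℕ, N.index = p ^ k) (Q₀ : Subgroup N) : ∃ k : ℕ, (HH Q₀).index = p ^ k := by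
  obtain ⟨k, hk⟩ := hidx
  have h1 : (HH Q₀).index ∣ N.index := Subgroup.relIndex_dvd_index_of_normal N _
  rw [hk] at h1
  obtain ⟨j, -, hj⟩ := (Nat.dvd_prime_pow hp.out).1 h1
  exact ⟨j, hj⟩

theorem up_normalizer {Q₀ : Subgroup N} {w : N} (hw : w ∈ Subgroup.normalizer ((Q₀ : Subgroup N) : Set N)) :
    (w : G) ∈ Subgroup.normalizer ((up Q₀ : Subgroup G) : Set G) := by
  rw [Subgroup.mem_normalizer_iff]
  intro u
  constructor
  · rintro ⟨v, hv, rfl⟩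
    exact ⟨w * v * w⁻¹, (Subgroup.mem_normalizer_iff.1 hw v).1 hv, rfl⟩
  · rintro ⟨v, hv, hvu⟩
    refine ⟨w⁻¹ * v * w, ?_, ?_⟩
    · have := (Subgroup.mem_normalizer_iff.1 ((Subgroup.normalizer ((Q₀ : Subgroup N) : Set N)).inv_mem hw) v).1 hv
      simpa using this
    · simp only [Subgroup.subtype_apply, Subgroup.coe_mul, Subgroup.coe_inv] at hvu ⊢
      rw [hvu]
      group

theorem down_normalizer {Q₀ : Subgroup N} {w : N} (hw : (w : G) ∈ Subgroup.normalizer ((up Q₀ : Subgroup G) : Set G)) :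
    w ∈ Subgroup.normalizer ((Q₀ : Subgroup N) : Set N) := by
  rw [Subgroup.mem_normalizer_iff]
  intro u
  have h1 := Subgroup.mem_normalizer_iff.1 hw (u : G)
  constructor
  · intro hu
    have h2 : (w : G) * u * (w : G)⁻¹ ∈ up Q₀ := h1.1 (coe_mem_up.2 hu)
    exact (coe_mem_up (u := w * u * w⁻¹)).1 h2
  · intro hu
    have h2 : ((w * u * w⁻¹ : N) : G) ∈ up Q₀ := coe_mem_up.2 hu
    exact coe_mem_up.1 (h1.2 h2)

theorem isPRegular_coe {w : N} (h : IsPRegular p w) : IsPRegular p (w : G) := by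
  unfold IsPRegular at *
  rwa [Subgroup.orderOf_coe]

theorem isPRegular_of_coe {w : N} (h : IsPRegular p (w : G)) : IsPRegular p w := by
  unfold IsPRegular at *
  rwa [Subgroup.orderOf_coe] at h

/-- `B` nilpotent gives `c` nilpotent. -/
theorem nil_down (hM : IsPModular p M) (hidx : ∃ k : ℕ, N.index = p ^ k) {c : Set (IrrCharacter N)}
    (hc : IsPBlock M c) {B : Set (IrrCharacter G)} (hBc : ∀ g : G, blockCoeff B g = subgroupBlockCoeff N c g)
    (hnil : IsNilpotentBlock p M B) : IsNilpotentBlock p M c := by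
  classical
  refine ⟨hc, ?_⟩
  intro Q₀ f hpair x hxN hxs hxreg
  obtain ⟨⟨hQ₀, hf⟩, -, hom⟩ := isBrauerPairOf_iff.1 hpair
  obtain ⟨ξ₀, hξ₀⟩ := IsPBlock_nonempty hf
  obtain ⟨χ₀, hχ₀⟩ := exists_irr_over (HH Q₀) (mapIrr (hIso Q₀) ξ₀)
  have he₀ : IsPBlock M (blockOf M (χ₀ : Cen (up Q₀) → ℂ)) := ⟨χ₀, rfl⟩
  have hup : IsPGroup p (up Q₀) := hQ₀.map _
  have hpairB : IsBrauerPairOf p M B (up Q₀) (blockOf M (χ₀ : Cen (up Q₀) → ℂ)) := by
    refine isBrauerPairOf_iff.2 ⟨⟨hup, he₀⟩, hnil.1, ?_⟩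
    intro η hη
    refine om_block_congr he₀ hη (mem_blockOf_self χ₀) ((isCentralElt_blockElt B).isInvBy _)
      (localCoeff_blockElt (isBlockUnion_of_isPBlock hnil.1)) ?_
    rw [om_key hBc Q₀ χ₀ _ hχ₀, mapIrr_symm_mapIrr]
    exact hom ξ₀ hξ₀
  have hxN₁ := up_normalizer hxN
  have hxC₁ := normalizer_le_normalizer_cen hxN₁
  obtain ⟨hxC, hmap⟩ := (stabilizes_iff hf).1 hxs
  have hξ₁ : mapIrr (nConj hxC) ξ₀ ∈ f := by
    rw [← hmap]
    exact mapIrr_mem_mapBlock.2 hξ₀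
  have hin : classInner (fun n : HH Q₀ => (mapIrr (nConj hxC₁) χ₀ : Cen (up Q₀) → ℂ) n)
      (mapIrr (hIso Q₀) (mapIrr (nConj hxC) ξ₀) : HH Q₀ → ℂ) ≠ 0 := by
    rw [← gam_mapIrr Q₀ hxC hxN₁, inner_gam]
    exact hχ₀
  have hsb : SameBlock M (χ₀ : Cen (up Q₀) → ℂ) (mapIrr (nConj hxC₁) χ₀ : Cen (up Q₀) → ℂ) :=
    sameBlock_of_sameBlock_constituent (HH Q₀) hM (index_HH hidx Q₀) hχ₀ hin
      (sameBlock_mapIrr (hIso Q₀) (sameBlock_of_mem hf hξ₀ hξ₁))
  have hst : StabilizesBlock (Cen (up Q₀)) (blockOf M (χ₀ : Cen (up Q₀) → ℂ)) (x : G) := by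
    refine (stabilizes_iff he₀).2 ⟨hxC₁, ?_⟩
    refine blocks_eq_or_disjoint (isPBlock_mapBlock _ he₀) he₀ (θ := mapIrr (nConj hxC₁) χ₀)
      (mapIrr_mem_mapBlock.2 (mem_blockOf_self χ₀)) hsb
  have := hnil.2 (up Q₀) _ hpairB x hxN₁ hst (isPRegular_coe hxreg)
  exact mem_cen_of_coe this

/-- A power of `w` of order prime to `p` that is congruent to `1` modulo the order of `x`. -/
theorem exists_reg_power (w x : G) (hx : ¬ p ∣ orderOf x) :
    ∃ a : ℕ, a ≡ 1 [MOD orderOf x] ∧ ¬ p ∣ orderOf (w ^ a) := by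
  have hpos : 0 < orderOf w := orderOf_pos w
  obtain ⟨s, r, hr, hsr⟩ := Nat.exists_eq_pow_mul_and_not_dvd hpos.ne' p hp.out.ne_one
  have hcop : Nat.Coprime (p ^ s) (r * orderOf x) := by
    apply Nat.Coprime.pow_left
    rw [hp.out.coprime_iff_not_dvd, hp.out.dvd_mul]
    tauto
  let a := Nat.chineseRemainder hcop 0 1
  have ha1 : (a : ℕ) ≡ 0 [MOD p ^ s] := a.2.1
  have ha2 : (a : ℕ) ≡ 1 [MOD r * orderOf x] := a.2.2
  refine ⟨a, ha2.of_mul_left _, ?_⟩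
  have h0 : p ^ s ∣ (a : ℕ) := (Nat.modEq_zero_iff_dvd.1 ha1)
  have h1 : orderOf (w ^ (a : ℕ)) ∣ r := by
    apply orderOf_dvd_of_pow_eq_one
    rw [← pow_mul]
    apply orderOf_dvd_iff_pow_eq_one.1
    rw [hsr]
    exact mul_dvd_mul h0 dvd_rfl
  exact fun h => hr (h.trans h1)

/-- A `p'`-element of `N` that centralizes `Q ∩ N` centralizes `Q`. -/
theorem cen_of_cen_inf {Q : Subgroup G} (hQ : IsPGroup p Q) {x : G} (hxN : x ∈ N)
    (hxQ : x ∈ Subgroup.normalizer (Q : Set G)) (hreg : ¬ p ∣ orderOf x)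
    (hc : ∀ u ∈ Q, u ∈ N → x * u * x⁻¹ = u) : x ∈ Subgroup.centralizer (Q : Set G) := by
  rw [Subgroup.mem_centralizer_iff]
  intro u hu
  set t := u⁻¹ * (x * u * x⁻¹) with ht
  have ht1 : t ∈ Q := Q.mul_mem (Q.inv_mem hu) ((Subgroup.mem_normalizer_iff.1 hxQ u).1 hu)
  have ht2 : t ∈ N := by
    have e : t = (u⁻¹ * x * (u⁻¹)⁻¹) * x⁻¹ := by rw [ht]; group
    rw [e]
    exact N.mul_mem (hN.conj_mem x hxN u⁻¹) (N.inv_mem hxN)
  have htx : x * t * x⁻¹ = t := hc t ht1 ht2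
  have key : ∀ n : ℕ, x ^ n * u * (x ^ n)⁻¹ = u * t ^ n := by
    intro n
    induction n with
    | zero => simp
    | succ n ih =>
      have h1 : x * t ^ n * x⁻¹ = t ^ n := by
        have : ∀ m : ℕ, x * t ^ m * x⁻¹ = t ^ m := by
          intro m
          induction m with
          | zero => simp
          | succ m ihm =>
            calc x * t ^ (m + 1) * x⁻¹ = (x * t ^ m * x⁻¹) * (x * t * x⁻¹) := by rw [pow_succ]; group
              _ = t ^ (m + 1) := by rw [ihm, htx, pow_succ]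
        exact this n
      calc x ^ (n + 1) * u * (x ^ (n + 1))⁻¹ = x * (x ^ n * u * (x ^ n)⁻¹) * x⁻¹ := by
            rw [pow_succ']; group
        _ = (x * u * x⁻¹) * (x * t ^ n * x⁻¹) := by rw [ih]; group
        _ = u * t ^ (n + 1) := by
            have hut : x * u * x⁻¹ = u * t := by rw [ht]; group
            rw [h1, hut, pow_succ', mul_assoc]
  have h2 := key (orderOf x)
  rw [pow_orderOf_eq_one] at h2
  have h3 : t ^ orderOf x = 1 := by
    have : u = u * t ^ orderOf x := by simpa using h2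
    exact (mul_eq_left.1 this.symm)
  have h4 : orderOf t ∣ orderOf x := orderOf_dvd_of_pow_eq_one h3
  have hQ' : IsPGroup p (Q : Subgroup G) := hQ
  obtain ⟨k, hk⟩ := (IsPGroup.iff_orderOf.1 hQ') ⟨t, ht1⟩
  rw [Subgroup.orderOf_mk] at hk
  have h5 : orderOf t = 1 := by
    rcases k with _ | k
    · simpa using hk
    · exfalso
      apply hreg
      rw [hk] at h4
      exact (dvd_pow_self p (Nat.succ_ne_zero k)).trans h4
  have h6 : t = 1 := orderOf_eq_one_iff.1 h5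
  have h7 : x * u * x⁻¹ = u := by
    have : u⁻¹ * (x * u * x⁻¹) = 1 := h6
    exact (inv_mul_eq_one.1 this).symm
  calc u * x = (x * u * x⁻¹) * x := by rw [h7]
    _ = x * u := by group

/-- An element normalizing `up Q₀` whose action preserves a set of characters of `HH Q₀`. -/
def StabG (Q₀ : Subgroup N) (f : Set (IrrCharacter (HH Q₀))) (g : G) : Prop :=
  ∃ hg : g ∈ Subgroup.normalizer ((up Q₀ : Subgroup G) : Set G), ∀ θ ∈ f, mapIrr (gam Q₀ hg) θ ∈ f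

theorem StabG_one (Q₀ : Subgroup N) (f : Set (IrrCharacter (HH Q₀))) : StabG Q₀ f (1 : G) := by
  refine ⟨Subgroup.one_mem _, fun θ hθ => ?_⟩
  have : mapIrr (gam Q₀ (Subgroup.one_mem _)) θ = θ := by
    apply Subtype.ext
    funext v
    rw [mapIrr_apply']
    refine congrArg (θ : HH Q₀ → ℂ) ?_
    apply Subtype.ext
    apply Subtype.ext
    simp
  rwa [this]

theorem StabG_mul {Q₀ : Subgroup N} {f : Set (IrrCharacter (HH Q₀))} {a b : G} (ha : StabG Q₀ f a)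
    (hb : StabG Q₀ f b) : StabG Q₀ f (a * b) := by
  obtain ⟨ha₁, ha₂⟩ := ha
  obtain ⟨hb₁, hb₂⟩ := hb
  refine ⟨Subgroup.mul_mem _ ha₁ hb₁, fun θ hθ => ?_⟩
  rw [gam_mul Q₀ ha₁ hb₁]
  exact ha₂ _ (hb₂ _ hθ)

theorem StabG_pow {Q₀ : Subgroup N} {f : Set (IrrCharacter (HH Q₀))} {a : G} (ha : StabG Q₀ f a) (n : ℕ) :
    StabG Q₀ f (a ^ n) := by
  induction n with
  | zero => simpa using StabG_one Q₀ f
  | succ n ih =>
    rw [pow_succ]
    exact StabG_mul ih ha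

/-- `c` nilpotent gives `B` nilpotent. -/
theorem nil_up (hM : IsPModular p M) (hidx : ∃ k : ℕ, N.index = p ^ k) {c : Set (IrrCharacter N)}
    {B : Set (IrrCharacter G)} (hB : IsPBlock M B) (hBc : ∀ g : G, blockCoeff B g = subgroupBlockCoeff N c g)
    (hnil : IsNilpotentBlock p M c) : IsNilpotentBlock p M B := by
  classical
  refine ⟨hB, ?_⟩
  intro Q e hpair x hxN hxs hxreg
  have hxin : x ∈ N := mem_of_regular_of_index N hidx hxreg
  let Q₀ : Subgroup N := Q.subgroupOf N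
  have hQ₁Q : up Q₀ ≤ Q := by
    rintro _ ⟨v, hv, rfl⟩
    exact Subgroup.mem_subgroupOf.1 hv
  have hmemQ₁ : ∀ {u : G}, u ∈ Q → u ∈ N → u ∈ up Q₀ := fun {u} h1 h2 =>
    ⟨⟨u, h2⟩, Subgroup.mem_subgroupOf.2 h1, rfl⟩
  have hQ₁N : ∀ {u : G}, u ∈ up Q₀ → u ∈ N := by
    rintro _ ⟨v, hv, rfl⟩
    exact v.2
  have hPe : IsBrauerPair p M Q e := (isBrauerPairOf_iff.1 hpair).1
  obtain ⟨e₀, ⟨he₀, hle⟩, -⟩ := existsUnique_subpair hM hPe hQ₁Q
  have hpair₀ : IsBrauerPairOf p M B (up Q₀) e₀ := (isBrauerPairOf_le_iff hM hle B).1 hpair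
  have hQ₀p : IsPGroup p Q₀ := IsPGroup.comap_subtype (hPe.1) |> fun h => h
  have hxN₁ : x ∈ Subgroup.normalizer ((up Q₀ : Subgroup G) : Set G) := by
    have : (⟨x, hxin⟩ : N) ∈ Subgroup.normalizer ((Q₀ : Subgroup N) : Set N) := by
      rw [Subgroup.mem_normalizer_iff]
      intro u
      show u ∈ Q.subgroupOf N ↔ _ ∈ Q.subgroupOf N
      rw [Subgroup.mem_subgroupOf, Subgroup.mem_subgroupOf]
      exact Subgroup.mem_normalizer_iff.1 hxN (u : G)
    exact up_normalizer this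
  have h1 : Relation.ReflTransGen (NormalSubpairRel p M) (conjIdx x ⟨up Q₀, e₀⟩) (conjIdx x ⟨Q, e⟩) := chain_conj x hle
  rw [conjIdx_eq_of_stabilizes hPe.2 hxN hxs] at h1
  have h2 : conjIdx x ⟨up Q₀, e₀⟩ = ⟨up Q₀, e₀⟩ := eq_idx_of_chain hM hPe hle h1 (cj_eq_of_mem_normalizer hxN₁)
  have hxs₀ := (stabilizes_of_conjIdx_eq he₀ h2).2
  obtain ⟨hxC₁, hmap⟩ := (stabilizes_iff he₀).1 hxs₀
  obtain ⟨χ₀, hχ₀⟩ := IsPBlock_nonempty he₀
  obtain ⟨θ₀, hθ₀⟩ := exists_constituent (HH Q₀) χ₀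
  have hf' : IsPBlock M (blockOf M (θ₀ : HH Q₀ → ℂ)) := ⟨θ₀, rfl⟩
  have hχ₁ : mapIrr (nConj hxC₁) χ₀ ∈ e₀ := by
    rw [← hmap]
    exact mapIrr_mem_mapBlock.2 hχ₀
  have hin : classInner (fun n : HH Q₀ => (mapIrr (nConj hxC₁) χ₀ : Cen (up Q₀) → ℂ) n)
      (mapIrr (gam Q₀ hxN₁) θ₀ : HH Q₀ → ℂ) ≠ 0 := by
    rw [inner_gam]
    exact hθ₀
  have hmemU : mapIrr (gam Q₀ hxN₁) θ₀ ∈ sat (HH Q₀) (blockOf M (θ₀ : HH Q₀ → ℂ)) :=
    constituent_mem_of_sameBlock (HH Q₀) (isStable_sat (HH Q₀) _) (isBlockUnion_sat (HH Q₀) (isBlockUnion_of_isPBlock hf'))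
      (sameBlock_of_mem he₀ hχ₀ hχ₁) ⟨θ₀, subset_sat (HH Q₀) _ (mem_blockOf_self θ₀), hθ₀⟩ hin
  obtain ⟨y, t, ht, hty⟩ := hmemU
  have hyN : (y : G) ∈ Subgroup.normalizer ((up Q₀ : Subgroup G) : Set G) := cen_le_normalizer _ y.2
  have hw₀ : (y : G) * x ∈ Subgroup.normalizer ((up Q₀ : Subgroup G) : Set G) :=
    Subgroup.mul_mem _ hyN hxN₁
  -- the conjugate of `θ₀` by `y x` is `t`
  have hty' : mapIrr (gam Q₀ hw₀) θ₀ = t := by
    have h3 : t = conjIrr (HH Q₀) y⁻¹ (mapIrr (gam Q₀ hxN₁) θ₀) := by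
      rw [hty, conjIrr_inv_conjIrr]
    rw [h3]
    apply Subtype.ext
    funext v
    rw [mapIrr_apply', conjIrr_coe]
    show _ = (mapIrr (gam Q₀ hxN₁) θ₀ : HH Q₀ → ℂ) _
    rw [mapIrr_apply']
    refine congrArg (θ₀ : HH Q₀ → ℂ) ?_
    apply Subtype.ext
    apply Subtype.ext
    simp [mul_assoc]
  have hsw : StabG Q₀ (blockOf M (θ₀ : HH Q₀ → ℂ)) ((y : G) * x) := by
    refine ⟨hw₀, fun θ hθ => ?_⟩
    have h4 : SameBlock M (θ₀ : HH Q₀ → ℂ) (θ : HH Q₀ → ℂ) := sameBlock_of_mem hf' (mem_blockOf_self θ₀) hθ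
    have h5 := sameBlock_mapIrr (gam Q₀ hw₀) h4
    rw [hty'] at h5
    by_contra hcon
    exact isBlockUnion_of_isPBlock hf' t ht _ hcon h5
  obtain ⟨a, ha1, ha2⟩ := exists_reg_power (p := p) ((y : G) * x) x hxreg
  obtain ⟨hw, hwst⟩ := StabG_pow hsw a
  have hwN : ((y : G) * x) ^ a ∈ N := mem_of_regular_of_index N hidx ha2
  have hw'N : (⟨((y : G) * x) ^ a, hwN⟩ : N) ∈ Subgroup.normalizer ((Q₀ : Subgroup N) : Set N) :=
    down_normalizer hw
  have hw'C := normalizer_le_normalizer_cen hw'N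
  have hf : IsPBlock M (mapBlock (hIso Q₀).symm (blockOf M (θ₀ : HH Q₀ → ℂ))) := isPBlock_mapBlock _ hf'
  have hξ₀ : mapIrr (hIso Q₀).symm θ₀ ∈ mapBlock (hIso Q₀).symm (blockOf M (θ₀ : HH Q₀ → ℂ)) :=
    mapIrr_mem_mapBlock.2 (mem_blockOf_self θ₀)
  have hcpair : IsBrauerPairOf p M c Q₀ (mapBlock (hIso Q₀).symm (blockOf M (θ₀ : HH Q₀ → ℂ))) := by
    refine isBrauerPairOf_iff.2 ⟨⟨hQ₀p, hf⟩, hnil.1, fun ξ hξ => ?_⟩
    refine om_block_congr hf hξ hξ₀ ((isCentralElt_blockElt c).isInvBy _)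
      (localCoeff_blockElt (isBlockUnion_of_isPBlock hnil.1)) ?_
    rw [← om_key hBc Q₀ χ₀ θ₀ hθ₀]
    exact (isBrauerPairOf_iff.1 hpair₀).2.2 χ₀ hχ₀
  have hst : StabilizesBlock (Cen Q₀) (mapBlock (hIso Q₀).symm (blockOf M (θ₀ : HH Q₀ → ℂ)))
      (⟨((y : G) * x) ^ a, hwN⟩ : N) := by
    refine (stabilizes_iff hf).2 ⟨hw'C, blocks_eq_or_disjoint (isPBlock_mapBlock _ hf) hf
      (θ := mapIrr (nConj hw'C) (mapIrr (hIso Q₀).symm θ₀)) (mapIrr_mem_mapBlock.2 hξ₀) ?_⟩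
    rw [mem_mapBlock, MulEquiv.symm_symm, ← gam_mapIrr Q₀ hw'C hw, mapIrr_mapIrr_symm]
    exact hwst θ₀ (mem_blockOf_self θ₀)
  have hcen := hnil.2 Q₀ _ hcpair _ hw'N hst (isPRegular_of_coe ha2)
  have hconj : ∀ n : ℕ, ∀ u ∈ up Q₀, ((y : G) * x) ^ n * u * (((y : G) * x) ^ n)⁻¹ = x ^ n * u * (x ^ n)⁻¹ := by
    intro n u hu
    induction n with
    | zero => simp
    | succ n ih =>
      have h6 : x ^ (n + 1) * u * (x ^ (n + 1))⁻¹ ∈ up Q₀ :=
        (Subgroup.mem_normalizer_iff.1 ((Subgroup.normalizer _).pow_mem hxN₁ (n + 1)) u).1 hu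
      have h7 := Subgroup.mem_centralizer_iff.1 y.2 _ h6
      have step1 : ∀ W : G, W ^ (n + 1) * u * (W ^ (n + 1))⁻¹ = W * (W ^ n * u * (W ^ n)⁻¹) * W⁻¹ := by
        intro W
        rw [pow_succ']
        group
      calc ((y : G) * x) ^ (n + 1) * u * (((y : G) * x) ^ (n + 1))⁻¹
          = ((y : G) * x) * (((y : G) * x) ^ n * u * (((y : G) * x) ^ n)⁻¹) * ((y : G) * x)⁻¹ := step1 _
        _ = (y : G) * (x ^ (n + 1) * u * (x ^ (n + 1))⁻¹) * (y : G)⁻¹ := by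
            rw [ih, step1 x]; group
        _ = x ^ (n + 1) * u * (x ^ (n + 1))⁻¹ := by
            rw [← h7]; group
  have hpa : x ^ a = x := by
    have := (pow_eq_pow_iff_modEq (x := x)).2 ha1
    simpa using this
  have hcx : ∀ u ∈ up Q₀, x * u * x⁻¹ = u := by
    intro u hu
    have h5 := hconj a u hu
    rw [hpa] at h5
    rw [← h5]
    obtain ⟨v, hv, rfl⟩ := hu
    have h8 := congrArg Subtype.val (Subgroup.mem_centralizer_iff.1 hcen v hv)
    have h9 : (v : G) * ((y : G) * x) ^ a = ((y : G) * x) ^ a * (v : G) := h8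
    show ((y : G) * x) ^ a * (v : G) * (((y : G) * x) ^ a)⁻¹ = (v : G)
    rw [← h9]
    group
  exact cen_of_cen_inf hPe.1 hxin hxN hxreg (fun u h1 h2 => hcx u (hmemQ₁ h1 h2))

end

end Cfsg.Agent.Lib.Modular
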