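import Mathlib
import Cfsg.Agent.Lib.Modular.NilpBlock
import Cfsg.Agent.Lib.Char.Burnside
import Cfsg.Prelude.Def_BlockFusion

/-!
# Robinson's theorem: the linear characters of `P / foc` act on the characters of a block
-/

set_option autoImplicit false
set_option linter.unusedSectionVars false
set_option linter.unusedSimpArgs false
set_option linter.unusedVariables false
set_option linter.style.haveILetI false
set_option linter.unnecessarySimpa false

open scoped ComplexConjugate

namespace Cfsg.Agent.Lib.Modular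

open Module Cfsg Cfsg.Agent.Lib.Block Cfsg.Agent.Lib.CharExtra Cfsg.Agent.Lib.BPair Cfsg.Agent.Lib.Char

attribute [local instance] Cfsg.Agent.Lib.BPair.subFintype

section Generic

theorem index_dvd_card_of_stab {Γ X₀ : Type*} [Group Γ] [MulAction Γ X₀] [Finite X₀] (K : Subgroup Γ)
    (h : ∀ x : X₀, MulAction.stabilizer Γ x ≤ K) : K.index ∣ Nat.card X₀ := by
  classical
  haveI := Fintype.ofFinite X₀
  obtain ⟨r, hr, he⟩ := exists_sum_eq_mul_of_orbit (Γ := Γ) (X := X₀) ((Int.castRingHom ℂ).range) K.index (fun _ => 1)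
    (fun _ => one_mem _) (fun _ _ => rfl) (fun x _ => by
      rw [Nat.card_coe_set_eq, ← MulAction.index_stabilizer]
      exact Subgroup.index_dvd_of_le (h x))
  obtain ⟨m, rfl⟩ := hr
  have h1 : ((Nat.card X₀ : ℤ) : ℂ) = ((K.index * m : ℤ) : ℂ) := by
    push_cast
    simp only [Finset.sum_const, Finset.card_univ, nsmul_eq_mul, mul_one] at he
    rw [Nat.card_eq_fintype_card, he]
    simp
  have h2 : (Nat.card X₀ : ℤ) = K.index * m := by exact_mod_cast h1
  exact Int.natCast_dvd_natCast.1 ⟨m, h2⟩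

theorem hasEnough_of_finite (A₀ : Type*) [Group A₀] [Finite A₀] : HasEnoughRootsOfUnity ℂ (Monoid.exponent A₀) := by
  haveI : NeZero (Monoid.exponent A₀) := ⟨Monoid.exponent_ne_zero_of_finite⟩
  infer_instance

theorem card_hom_of_comm {A₀ : Type*} [Group A₀] [Finite A₀] (hc : ∀ a b : A₀, a * b = b * a) :
    Nat.card (A₀ →* ℂˣ) = Nat.card A₀ := by
  letI : CommGroup A₀ := { ‹Group A₀› with mul_comm := hc }
  haveI := hasEnough_of_finite A₀
  exact CommGroup.card_monoidHom_of_hasEnoughRootsOfUnity A₀ ℂ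

theorem restrict_surj {A₀ : Type*} [Group A₀] [Finite A₀] (hc : ∀ a b : A₀, a * b = b * a) (Y : Subgroup A₀) :
    Function.Surjective (MonoidHom.domRestrictHom Y ℂˣ) := by
  letI : CommGroup A₀ := { ‹Group A₀› with mul_comm := hc }
  haveI := hasEnough_of_finite A₀
  exact MonoidHom.domRestrict_surjective (M := ℂ) Y

end Generic

section Foc

variable {G : Type*} [Group G] {P : Subgroup G} (F : FusionSystem P)

/-- The focal subgroup inside `P`. -/
abbrev focP : Subgroup P := F.focalSubgroup.subgroupOf P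

theorem inv_mul_conj_mem_foc (x g : P) : x⁻¹ * (g * x * g⁻¹) ∈ focP F := by
  rw [Subgroup.mem_subgroupOf]
  refine Subgroup.subset_closure ⟨P, conjHom P (g : G), x, F.conj_mem le_rfl g.2, ?_⟩
  simp [conjHom]

instance focP_normal : (focP F).Normal := by
  refine ⟨fun n hn g => ?_⟩
  have h1 := inv_mul_conj_mem_foc F n g
  have e : g * n * g⁻¹ = n * (n⁻¹ * (g * n * g⁻¹)) := by group
  rw [e]
  exact (focP F).mul_mem hn h1

theorem comm_A (a b : P ⧸ focP F) : a * b = b * a := by
  induction a using QuotientGroup.induction_on with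
  | H x =>
  induction b using QuotientGroup.induction_on with
  | H y =>
  rw [← QuotientGroup.mk_mul, ← QuotientGroup.mk_mul, QuotientGroup.eq]
  have h1 := inv_mul_conj_mem_foc F y x⁻¹
  have e : (x * y)⁻¹ * (y * x) = y⁻¹ * (x⁻¹ * y * x⁻¹⁻¹) := by group
  rw [e]
  exact h1

/-- The value of a linear character of `P / foc`. -/
noncomputable def lamX (lam : (P ⧸ focP F) →* ℂˣ) : P → ℂ := fun v => ((lam (v : P ⧸ focP F) : ℂˣ) : ℂ)

theorem lamX_isIrr (lam : (P ⧸ focP F) →* ℂˣ) : IsIrrCharacter P (lamX F lam) :=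
  isIrrCharacter_of_hom (lam.comp (QuotientGroup.mk' (focP F)))

theorem lamX_one : lamX F (1 : (P ⧸ focP F) →* ℂˣ) = fun _ => 1 := by
  funext v
  simp [lamX]

theorem lamX_mul (lam lam' : (P ⧸ focP F) →* ℂˣ) : lamX F (lam * lam') = fun v => lamX F lam v * lamX F lam' v := by
  funext v
  simp [lamX]

theorem lamX_at_one (lam : (P ⧸ focP F) →* ℂˣ) : lamX F lam 1 = 1 := by
  have h1 : ((1 : P) : P ⧸ focP F) = 1 := rfl
  simp [lamX, h1]

variable [Finite G]

theorem lamX_mul_conj (lam : (P ⧸ focP F) →* ℂˣ) : (fun v => lamX F lam v * conj (lamX F lam v)) = fun _ => 1 := by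
  funext v
  have h1 : ((lam (v : P ⧸ focP F) : ℂˣ) : ℂ) ^ orderOf (v : P ⧸ focP F) = 1 := by
    rw [← Units.val_pow_eq_pow_val, ← map_pow, pow_orderOf_eq_one, map_one, Units.val_one]
  have h2 : ‖((lam (v : P ⧸ focP F) : ℂˣ) : ℂ)‖ = 1 :=
    Complex.norm_eq_one_of_pow_eq_one h1 (orderOf_pos _).ne'
  show ((lam (v : P ⧸ focP F) : ℂˣ) : ℂ) * conj ((lam (v : P ⧸ focP F) : ℂˣ) : ℂ) = 1
  rw [Complex.mul_conj, Complex.normSq_eq_norm_sq, h2]
  simp

end Foc

section Act

variable {G : Type*} [Group G] [Fintype G] {p : ℕ} [hp : Fact p.Prime] {M : Ideal AlgInt} [hMp : M.IsPrime]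
variable {B : Set (IrrCharacter G)} {P : Subgroup G} {e : Set (IrrCharacter (Cen P))} {F : FusionSystem P}

local notation "Bcj" => Cfsg.Agent.Lib.BPair.cj
local notation "ZP" => Subgroup.zpowers

/-- Linear characters of `P / foc` are fusion stable. -/
theorem fstable_X (hF : IsBlockFusionSystemOn p M B P e F) (lam : (P ⧸ focP F) →* ℂˣ) :
    FStable p M P e (extendByZero P (lamX F lam)) := by
  apply fstable_extend
  intro a y y' hy hy' v hv h1 h2
  have hy2 : SubpairLE p M (Bcj (y' * y⁻¹) (Bcj y a.1)) (conjBlock (Bcj y a.1) (y' * y⁻¹) (conjBlock a.1 y a.2)) P e := by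
    have h3 : conjIdx (y' * y⁻¹) (conjIdx y a) = conjIdx y' a := by
      rw [← conjIdx_mul]
      congr 1
      group
    have h4 : RT p M (conjIdx (y' * y⁻¹) (conjIdx y a)) ⟨P, e⟩ := by
      rw [h3]
      exact hy'
    exact h4
  have hφ : conjHom (Bcj y a.1) (y' * y⁻¹) ∈ F.Hom (Bcj y a.1) :=
    (hF.2 (Bcj y a.1) _).2 ⟨chain_le hy, y' * y⁻¹, fun u => rfl, chain_le hy2, conjBlock a.1 y a.2, hy, hy2⟩
  have hmem : (⟨y * v * y⁻¹, h1⟩ : P)⁻¹ * ⟨y' * v * y'⁻¹, h2⟩ ∈ focP F := by
    rw [Subgroup.mem_subgroupOf]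
    refine Subgroup.subset_closure ⟨Bcj y a.1, _, ⟨y * v * y⁻¹, conj_mem_cj.2 hv⟩, hφ, ?_⟩
    simp only [conjHom, MonoidHom.comp_apply, Subgroup.coe_mul, Subgroup.coe_inv, Subgroup.subtype_apply,
      MulEquiv.coe_toMonoidHom, MulAut.conj_apply]
    congr 1
    group
  unfold lamX
  have h5 : ((⟨y * v * y⁻¹, h1⟩ : P) : P ⧸ focP F) = ((⟨y' * v * y'⁻¹, h2⟩ : P) : P ⧸ focP F) :=
    (QuotientGroup.eq).2 hmem
  rw [h5]

/-- Stars by linear characters of `P / foc` are irreducible. -/
theorem star_X_irr (hM : IsPModular p M) (hF : IsBlockFusionSystemOn p M B P e F) (lam : (P ⧸ focP F) →* ℂˣ)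
    {χ : IrrCharacter G} (hχ : χ ∈ B) :
    IsIrrCharacter G (star M p (Lb p M P e (extendByZero P (lamX F lam))) (χ : G → ℂ)) := by
  classical
  have hmax := hF.1
  have hχc : IsClassFunction G (χ : G → ℂ) := IsCharacter.isClassFunction (IsIrrCharacter.isCharacter χ.2)
  have hs := fstable_X hF lam
  have hs1 : FStable p M P e (extendByZero P (fun _ => 1)) := by
    have := fstable_X hF (1 : (P ⧸ focP F) →* ℂˣ)
    rwa [lamX_one] at this
  have hs2 : FStable p M P e (extendByZero P (fun x => lamX F lam x * conj (lamX F lam x))) := by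
    rw [lamX_mul_conj]
    exact hs1
  refine isIrr_of_generalized_norm_one (star_isGeneralized hM hmax hs
    (IsGeneralizedCharacter.of_isCharacter (IsIrrCharacter.isCharacter (lamX_isIrr F lam))) hχ) ?_ ?_
  · rw [star_adj hM (hLc_of_fstable hs) (hLc_of_fstable hs) (hLc_of_fstable hs2) (fun a v => Lb_mul_conj _ _ a v) hχc hχc]
    simp only [lamX_mul_conj]
    rw [star_one hM hmax hs1 hχ]
    exact classInner_irr_self χ.2
  · rw [star_reg hM hmax hs hχ (by simp [hp.out.one_lt.ne']), lamX_at_one, one_mul,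
      map_one_eq_charDegree (IsIrrCharacter.isCharacter χ.2), Complex.natCast_re]
    exact_mod_cast charDegree_pos_of_irr χ.2

theorem star_X_mem (hM : IsPModular p M) (hF : IsBlockFusionSystemOn p M B P e F) (lam : (P ⧸ focP F) →* ℂˣ)
    {χ : IrrCharacter G} (hχ : χ ∈ B) : (⟨_, star_X_irr hM hF lam hχ⟩ : IrrCharacter G) ∈ B := by
  by_contra hnot
  have h1 := star_orth hM hF.1 (fstable_X hF lam) hχ hnot
  have h2 := classInner_irr_self (star_X_irr hM hF lam hχ)
  exact one_ne_zero (h2.symm.trans h1)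

theorem star_X_height (hM : IsPModular p M) (hF : IsBlockFusionSystemOn p M B P e F) (lam : (P ⧸ focP F) →* ℂˣ)
    {χ : IrrCharacter G} (hχ : χ ∈ B) :
    blockHeight p B (star M p (Lb p M P e (extendByZero P (lamX F lam))) (χ : G → ℂ)) = blockHeight p B (χ : G → ℂ) := by
  unfold blockHeight charDegree
  rw [star_reg hM hF.1 (fstable_X hF lam) hχ (by simp [hp.out.one_lt.ne']), lamX_at_one, one_mul]

/-- The set of characters of given height. -/
abbrev SH (p : ℕ) (B : Set (IrrCharacter G)) (h : ℕ) : Type _ :=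
  {χ : IrrCharacter G // χ ∈ B ∧ blockHeight p B (χ : G → ℂ) = h}

/-- The action on characters of a given height. -/
noncomputable def robAct (hM : IsPModular p M) (hF : IsBlockFusionSystemOn p M B P e F) (h : ℕ) :
    MulAction ((P ⧸ focP F) →* ℂˣ) (SH p B h) where
  smul lam χ := ⟨⟨_, star_X_irr hM hF lam χ.2.1⟩, star_X_mem hM hF lam χ.2.1, by
    show blockHeight p B (star M p _ _) = h
    rw [star_X_height hM hF lam χ.2.1]
    exact χ.2.2⟩
  one_smul χ := by
    apply Subtype.ext
    apply Subtype.ext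
    show star M p (Lb p M P e (extendByZero P (lamX F 1))) ((χ.1 : IrrCharacter G) : G → ℂ) = _
    have hs1 : FStable p M P e (extendByZero P (fun _ => 1)) := by
      have := fstable_X hF (1 : (P ⧸ focP F) →* ℂˣ)
      rwa [lamX_one] at this
    rw [lamX_one]
    exact star_one hM hF.1 hs1 χ.2.1
  mul_smul lam lam' χ := by
    apply Subtype.ext
    apply Subtype.ext
    show star M p (Lb p M P e (extendByZero P (lamX F (lam * lam')))) ((χ.1 : IrrCharacter G) : G → ℂ) =
      star M p (Lb p M P e (extendByZero P (lamX F lam))) (star M p (Lb p M P e (extendByZero P (lamX F lam'))) ((χ.1 : IrrCharacter G) : G → ℂ))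
    have hχc : IsClassFunction G ((χ.1 : IrrCharacter G) : G → ℂ) :=
      IsCharacter.isClassFunction (IsIrrCharacter.isCharacter χ.1.2)
    rw [star_star hM (L'' := Lb p M P e (extendByZero P (lamX F (lam * lam')))) (hLc_of_fstable (fstable_X hF lam'))
      (fun a v => by rw [lamX_mul]; exact Lb_mul _ _ a v) hχc]

/-- A character fixed by a linear character whose section does not vanish at `z`. -/
theorem lam_eq_one_of_stab (hM : IsPModular p M) (hF : IsBlockFusionSystemOn p M B P e F) (lam : (P ⧸ focP F) →* ℂˣ)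
    {χ : IrrCharacter G} (hstab : star M p (Lb p M P e (extendByZero P (lamX F lam))) (χ : G → ℂ) = (χ : G → ℂ))
    (z : P) {b : Set (IrrCharacter (Cen (ZP (z : G))))} (hb : IsPBlock M b) (hle : SubpairLE p M (ZP (z : G)) b P e)
    (hne : sec p (ZP (z : G)) b (z : G) (χ : G → ℂ) ≠ 0) : lam (z : P ⧸ focP F) = 1 := by
  classical
  have hχc : IsClassFunction G (χ : G → ℂ) := IsCharacter.isClassFunction (IsIrrCharacter.isCharacter χ.2)
  have hs := fstable_X hF lam
  have hu : ∃ k, orderOf (z : G) = p ^ k := by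
    obtain ⟨k, hk⟩ := (IsPGroup.iff_orderOf.1 hF.1.1.1.1) z
    exact ⟨k, by rw [← Subgroup.orderOf_coe] at hk; exact hk⟩
  have h1 := sec_star hM hχc (hLc_of_fstable hs) hu hb
  rw [hstab, Lb_of_le hs (a := ⟨ZP (z : G), b⟩) hle (Subgroup.mem_zpowers _) z.2] at h1
  have h2 : lamX F lam z = 1 := by
    by_contra hne1
    apply hne
    have h3 : (1 - lamX F lam z) • sec p (ZP (z : G)) b (z : G) (χ : G → ℂ) = 0 := by
      rw [sub_smul, one_smul, sub_eq_zero]
      exact h1
    exact (smul_eq_zero.1 h3).resolve_left (sub_ne_zero.2 (Ne.symm hne1))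
  apply Units.ext
  rw [Units.val_one]
  exact h2

/-- The index divides the number of characters when the stabilizers are inside `K`. -/
theorem rob_dvd (hM : IsPModular p M) (hF : IsBlockFusionSystemOn p M B P e F) (h : ℕ) (K : Subgroup ((P ⧸ focP F) →* ℂˣ))
    (hK : ∀ (lam : (P ⧸ focP F) →* ℂˣ) (χ : IrrCharacter G), χ ∈ B → blockHeight p B (χ : G → ℂ) = h →
      star M p (Lb p M P e (extendByZero P (lamX F lam))) (χ : G → ℂ) = (χ : G → ℂ) → lam ∈ K) :
    K.index ∣ Nat.card (SH p B h) := by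
  letI := robAct hM hF h
  apply index_dvd_card_of_stab K
  intro x lam hlam
  have h1 : lam • x = x := hlam
  have h2 := congrArg (fun y : SH p B h => ((y.1 : IrrCharacter G) : G → ℂ)) h1
  exact hK lam x.1 x.2.1 x.2.2 h2

/-- **Nonvanishing of sections at central elements of the defect group.** -/
theorem sec_center_ne (hM : IsPModular p M) (hmax : IsMaximalBrauerPair p M B P e) {χ₀ : IrrCharacter G} (hχ₀ : χ₀ ∈ B)
    (h0 : (charDegree (χ₀ : G → ℂ)).factorization p = minExp p B) {χ : IrrCharacter G} (hχ : χ ∈ B)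
    {z : G} (hz : z ∈ P) (hzc : z ∈ Subgroup.centralizer (P : Set G)) {b : Set (IrrCharacter (Cen (ZP z)))}
    (hb : IsPBlock M b) (hle : SubpairLE p M (ZP z) b P e) : sec p (ZP z) b z (χ : G → ℂ) ≠ 0 := by
  classical
  have hB : IsPBlock M B := hmax.1.2.1
  obtain ⟨i, hiP, hii, hil, hiB, hbr, hK⟩ := exists_source hM hmax hχ₀ h0
  obtain ⟨î, hîl, hîî, hrd, hinv⟩ := exists_idem_lift_fx hM P hiP hii
  have hχ0c : IsCharacter G (χ₀ : G → ℂ) := IsIrrCharacter.isCharacter χ₀.2
  have hχc : IsCharacter G (χ : G → ℂ) := IsIrrCharacter.isCharacter χ.2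
  refine sec_ne_zero hM hmax.1.1 hii hiP hil hbr hîl hîî hrd hinv hz hb hle hχc ?_
  intro h2
  have hcomm : ∀ u ∈ P, u * z = z * u := fun u hu => (Subgroup.mem_centralizer_iff.1 hzc u hu)
  set w : MonoidAlgebra ℂ G := MonoidAlgebra.single z 1 * î with hw
  have hwl : LocalCoeff M w := localCoeff_mul (localCoeff_single z memLocalRing_one) hîl
  have hwinv : IsInvBy P w := by
    rw [isInvBy_iff_commute] at hinv ⊢
    intro u hu
    have e1 : MonoidAlgebra.single u (1 : ℂ) * MonoidAlgebra.single z 1 = MonoidAlgebra.single z 1 * MonoidAlgebra.single u 1 := by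
      rw [MonoidAlgebra.single_mul_single, MonoidAlgebra.single_mul_single, hcomm u hu]
    calc MonoidAlgebra.single u 1 * w = (MonoidAlgebra.single u 1 * MonoidAlgebra.single z 1) * î := by rw [hw, mul_assoc]
      _ = (MonoidAlgebra.single z 1 * MonoidAlgebra.single u 1) * î := by rw [e1]
      _ = MonoidAlgebra.single z 1 * (î * MonoidAlgebra.single u 1) := by rw [mul_assoc, hinv u hu]
      _ = w * MonoidAlgebra.single u 1 := by rw [hw, mul_assoc]
  haveI : Fintype (G ⧸ P) := Fintype.ofFinite _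
  set Z := relTr P w with hZ
  have hZc := isCentralElt_relTr hwinv
  have hZl : LocalCoeff M Z := localCoeff_relTr hwl
  have htr : ∀ φ : G → ℂ, IsClassFunction G φ → tr φ Z = (P.index : ℂ) * tr φ w := by
    intro φ hφ
    rw [hZ]
    unfold relTr
    rw [tr_sum, Finset.sum_congr rfl (g := fun _ => tr φ w)]
    · rw [Finset.sum_const, Finset.card_univ, nsmul_eq_mul, Subgroup.index_eq_card, Nat.card_eq_fintype_card]
    · intro q _
      rw [tr_conjElt]
      congr 1
      funext h
      exact hφ h _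
  have h3 := memLocalIdeal_om_sub χ.2 χ₀.2 (sameBlock_of_mem hB hχ hχ₀) hZc hZl
  have htw : ∀ φ : G → ℂ, tr φ w = tr (fun g => φ (z * g)) î := fun φ => tr_single_mul' φ z î
  have h4 : om (χ : G → ℂ) Z = 0 := by
    unfold om
    rw [htr _ (IsCharacter.isClassFunction hχc), htw, h2, mul_zero, zero_div]
  rw [h4, zero_sub] at h3
  have h5 : MemLocalIdeal M (om (χ₀ : G → ℂ) Z) := by
    have := memLocalIdeal_neg h3
    rwa [neg_neg] at this
  have h6 : om (χ₀ : G → ℂ) Z = ((P.index : ℂ) / (charDegree (χ₀ : G → ℂ) : ℂ)) * tr (fun g => (χ₀ : G → ℂ) (z * g)) î := by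
    unfold om
    rw [htr _ (IsCharacter.isClassFunction hχ0c), htw, map_one_eq_charDegree hχ0c]
    ring
  have hfact : P.index.factorization p = (charDegree (χ₀ : G → ℂ)).factorization p := by
    rw [h0]
    obtain ⟨y, hy, P₀, hPeq⟩ := isDefectGroup_of_max hM hmax
    have hc1 := card_map_sylow P₀
    rw [← hPeq] at hc1
    have hc2 : (Nat.card P).factorization p = (Nat.card (Subgroup.centralizer ({y} : Set G))).factorization p := by
      rw [hc1]
      simp [hp.out.factorization_self]
    refine factorization_index_of_centralizer (minExp_le_factorization_card (IsPBlock_nonempty hB)) ?_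
    rw [hc2]
    exact factorization_centralizer_of_defectClass hM hB hy
  obtain ⟨hu1, hu2⟩ := localUnit_natCast_div hM (Subgroup.index_ne_zero_of_finite) (charDegree_ne_zero) hfact
  have h7 := tr_shift_ne_of_Kap hM hχ0c hmax.1.1.1 hii hiP hK hîl hrd hz
  have hl : MemLocalRing M (tr (fun g => (χ₀ : G → ℂ) (z * g)) î) := by
    unfold tr
    exact memLocalRing_sum _ _ fun g _ => memLocalRing_mul (hîl g) (char_localRing hχ0c _)
  rw [h6] at h5
  exact not_memLocalIdeal_mul hu1 hl hu2 h7 h5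

end Act

end Cfsg.Agent.Lib.Modular
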